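import Cfsg.Agent.PermGroups.ZassenhausSimple
import Cfsg.Agent.Suzuki.Zassenhaus

/-!
Simple Zassenhaus groups whose two-point stabilisers have odd order: the kernel of a point
stabiliser, the involutions, their number and their conjugacy.
-/

set_option autoImplicit false
set_option linter.style.haveILetI false
set_option linter.unusedSectionVars false

namespace Cfsg.Agent.PermGroups

open MulAction

variable {G Ω : Type*} [Group G] [Finite G] [MulAction G Ω] [Fintype Ω]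

/-- The kernel of a point stabiliser, given by its order and fixed points. -/
theorem kernel_props (hZ : Cfsg.IsZassenhausGroup G Ω) {a : Ω} {K : Subgroup G} (hKa : K ≤ stabilizer G a)
    (hKcard : Nat.card K + 1 = Fintype.card Ω) (hKfix : ∀ u ∈ K, u ≠ 1 → ∀ c : Ω, u • c = c → c = a) :
    (∀ g ∈ stabilizer G a, ∀ u ∈ K, g * u * g⁻¹ ∈ K) ∧
      (∀ y z : Ω, y ≠ a → z ≠ a → ∃! u : K, (u : G) • y = z) ∧
      ∀ g : G, g • a = a → (∀ u, u ≠ a → g • u ≠ u) → g ∈ K := by
  classical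
  obtain ⟨hfaith, h2, hthree, hfix, -⟩ := hZ
  haveI := hfaith
  obtain ⟨L, hLa, hLn, hLmem, hLtr⟩ := Suzuki.zas_kernel h2 hthree
    (Suzuki.three_le_card (G := G) hfix) a
  have hLfree : ∀ l ∈ L, ∀ y, y ≠ a → l • y = y → l = 1 := fun l hl y hy e =>
    ((hLmem l).1 hl).2.resolve_right fun h => h y hy e
  have hne : ∀ l : L, ∀ y, y ≠ a → (l : G) • y ≠ a := fun l y hy e =>
    hy (smul_left_cancel (l : G) (e.trans (mem_stabilizer_iff.1 (hLa l.2)).symm))
  obtain ⟨y₀, hy₀⟩ : ∃ y : Ω, y ≠ a := by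
    obtain ⟨-, -, p, q, hpq, -, -⟩ := hfix
    by_cases hp : p = a
    · exact ⟨q, fun e => hpq (hp.trans e.symm)⟩
    · exact ⟨p, hp⟩
  have hreg : ∀ y z : Ω, y ≠ a → z ≠ a → ∃! u : L, (u : G) • y = z := by
    intro y z hy hz
    obtain ⟨l, hl, e⟩ := hLtr y z hy hz
    refine ⟨⟨l, hl⟩, e, fun u hu => ?_⟩
    refine inv_mul_eq_one.1 (Subtype.ext (hLfree _ ((⟨l, hl⟩ : L)⁻¹ * u).2 y hy ?_)) |>.symm
    show (l⁻¹ * (u : G)) • y = y
    rw [mul_smul, show (u : G) • y = z from hu, ← e, inv_smul_smul]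
  have hLcard : Nat.card L + 1 = Fintype.card Ω := by
    rw [Nat.card_eq_of_bijective (fun u : L => (⟨(u : G) • y₀, hne u y₀ hy₀⟩ : {y : Ω // y ≠ a}))
      ⟨fun u v e => (hreg y₀ ((v : G) • y₀) hy₀ (hne v y₀ hy₀)).unique (congrArg Subtype.val e) rfl, fun z => by
        obtain ⟨u, hu, -⟩ := hreg y₀ z.1 hy₀ z.2
        exact ⟨u, Subtype.ext hu⟩⟩,
      Nat.card_eq_fintype_card, Fintype.card_subtype_compl, Fintype.card_subtype_eq]
    have : 0 < Fintype.card Ω := Fintype.card_pos_iff.2 ⟨a⟩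
    omega
  have hKL : K = L := Subgroup.eq_of_le_of_card_ge (fun u hu => (hLmem u).2 ⟨hKa hu,
    or_iff_not_imp_left.2 fun h1 y hy e => hy (hKfix u hu h1 y e)⟩) (by omega)
  subst hKL
  exact ⟨hLn, hreg, fun g hga hg => (hLmem g).2 ⟨hga, Or.inr hg⟩⟩

variable [IsSimpleGroup G]

/-- With odd order, elements interchanging two points are involutions inverting their stabiliser. -/
theorem simple_odd_swap (hZ : Cfsg.IsZassenhausGroup G Ω) {a b : Ω} (hab : a ≠ b)
    (hodd : Odd (Nat.card ↥(stabilizer G a ⊓ stabilizer G b))) {g : G} (hga : g • a = b) (hgb : g • b = a) :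
    g * g = 1 ∧ ∀ h ∈ stabilizer G a ⊓ stabilizer G b, g * h * g⁻¹ = h⁻¹ := by
  obtain ⟨-, -, hinv⟩ := S0739.result hZ hab hodd (no_complement_of_simple hZ hab)
  refine ⟨?_, hinv g hga hgb⟩
  have hg2 : g * g ∈ stabilizer G a ⊓ stabilizer G b :=
    ⟨mem_stabilizer_iff.2 (by rw [mul_smul, hga, hgb]), mem_stabilizer_iff.2 (by rw [mul_smul, hgb, hga])⟩
  have h1 := hinv g hga hgb _ hg2
  rw [show g * (g * g) * g⁻¹ = g * g by group] at h1
  have h3 : (g * g) ^ 2 = 1 := by rw [sq]; nth_rw 2 [h1]; exact mul_inv_cancel _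
  have h4 : orderOf (g * g) = 1 :=
    ((Nat.dvd_prime Nat.prime_two).1 (orderOf_dvd_of_pow_eq_one h3)).resolve_right fun h =>
      hodd.not_two_dvd_nat (h ▸ Subgroup.orderOf_dvd_natCard _ hg2)
  exact orderOf_eq_one_iff.1 h4

/-- No involution fixes two points. -/
theorem involution_one_fixed (hZ : Cfsg.IsZassenhausGroup G Ω) {a b : Ω} (hab : a ≠ b)
    (hodd : Odd (Nat.card ↥(stabilizer G a ⊓ stabilizer G b))) {t : G} (ht : orderOf t = 2) {y z : Ω}
    (hy : t • y = y) (hz : t • z = z) : y = z := by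
  by_contra hne
  obtain ⟨k, hk1, hk2⟩ := is_two_pretransitive_iff.1 hZ.2.1 hne hab
  have hmem : k * t * k⁻¹ ∈ stabilizer G a ⊓ stabilizer G b := by
    refine ⟨mem_stabilizer_iff.2 ?_, mem_stabilizer_iff.2 ?_⟩ <;> rw [mul_smul, mul_smul]
    · rw [inv_smul_eq_iff.2 hk1.symm, hy, hk1]
    · rw [inv_smul_eq_iff.2 hk2.symm, hz, hk2]
  have ho : orderOf (k * t * k⁻¹) = 2 := by rw [← MulAut.conj_apply, MulEquiv.orderOf_eq, ht]
  exact hodd.not_two_dvd_nat (ho ▸ Subgroup.orderOf_dvd_natCard _ hmem)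

/-- The number of elements of order two moving a given point. -/
theorem card_involution_moving (hZ : Cfsg.IsZassenhausGroup G Ω) {a b : Ω} (hab : a ≠ b)
    (hodd : Odd (Nat.card ↥(stabilizer G a ⊓ stabilizer G b))) :
    Nat.card {t : G // orderOf t = 2 ∧ t • a ≠ a} =
      (Fintype.card Ω - 1) * Nat.card ↥(stabilizer G a ⊓ stabilizer G b) := by
  classical
  haveI : Fintype G := Fintype.ofFinite G
  obtain ⟨-, h2, -, -, -⟩ := id hZ
  set T := (Finset.univ : Finset G).filter fun t => orderOf t = 2 ∧ t • a ≠ a with hT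
  rw [Nat.card_eq_fintype_card, Fintype.card_subtype, ← hT,
    Finset.card_eq_sum_card_fiberwise (f := fun t : G => t • a) (t := Finset.univ.erase a)
      (fun t ht => Finset.mem_erase.2 ⟨(Finset.mem_filter.1 ht).2.2, Finset.mem_univ _⟩),
    Finset.sum_const_nat (m := Nat.card ↥(stabilizer G a ⊓ stabilizer G b)),
    Finset.card_erase_of_mem (Finset.mem_univ a), Finset.card_univ]
  intro z hz
  have hza : z ≠ a := (Finset.mem_erase.1 hz).1
  obtain ⟨k, hka, hkb⟩ := is_two_pretransitive_iff.1 h2 hab hza.symm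
  obtain ⟨s, hsa, hsb⟩ := is_two_pretransitive_iff.1 h2 hab hab.symm
  have hfa : ∀ {h : G}, h ∈ stabilizer G a ⊓ stabilizer G b → h • a = a := fun hh => mem_stabilizer_iff.1 hh.1
  have hfb : ∀ {h : G}, h ∈ stabilizer G a ⊓ stabilizer G b → h • b = b := fun hh => mem_stabilizer_iff.1 hh.2
  have hka' : k⁻¹ • a = a := inv_smul_eq_iff.2 hka.symm
  have hkb' : k⁻¹ • z = b := inv_smul_eq_iff.2 hkb.symm
  rw [← Fintype.card_coe, ← Nat.card_eq_fintype_card]
  refine (Nat.card_eq_of_bijective (fun h : ↥(stabilizer G a ⊓ stabilizer G b) =>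
    (⟨k * (s * h) * k⁻¹, ?_⟩ : ↥(T.filter fun t => t • a = z))) ⟨fun h h' e => ?_, fun t => ?_⟩).symm
  · have hsh := simple_odd_swap hZ hab hodd (g := s * (h : G)) (by rw [mul_smul, hfa h.2, hsa])
      (by rw [mul_smul, hfb h.2, hsb])
    have e1 : (k * (s * h) * k⁻¹) • a = z := by
      rw [mul_smul, mul_smul, hka', mul_smul, hfa h.2, hsa, hkb]
    refine Finset.mem_filter.2 ⟨Finset.mem_filter.2 ⟨Finset.mem_univ _, ?_, by rw [e1]; exact hza⟩, e1⟩
    rw [← MulAut.conj_apply, MulEquiv.orderOf_eq]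
    exact orderOf_eq_prime (by rw [sq, hsh.1]) fun e => hab (by
      have := mul_smul s (h : G) a
      rw [e, one_smul, hfa h.2, hsa] at this
      exact this)
  · exact Subtype.ext (mul_left_cancel (mul_left_cancel (mul_right_cancel (congrArg Subtype.val e))))
  · obtain ⟨t, ht⟩ := t
    obtain ⟨ht1, ht2⟩ := Finset.mem_filter.1 ht
    obtain ⟨ho, -⟩ := (Finset.mem_filter.1 ht1).2
    have htt : t * t = 1 := by rw [← sq, ← ho, pow_orderOf_eq_one]
    have htz : t • z = a := by rw [← ht2, ← mul_smul, htt, one_smul]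
    refine ⟨⟨s⁻¹ * (k⁻¹ * t * k), mem_stabilizer_iff.2 ?_, mem_stabilizer_iff.2 ?_⟩, Subtype.ext (by group)⟩
    · rw [mul_smul, mul_smul, mul_smul, hka, ht2, hkb', inv_smul_eq_iff, hsa]
    · rw [mul_smul, mul_smul, mul_smul, hkb, htz, hka', inv_smul_eq_iff, hsb]

/-- The involutions are conjugate. -/
theorem involution_isConj (hZ : Cfsg.IsZassenhausGroup G Ω) {a b : Ω} (hab : a ≠ b)
    (hodd : Odd (Nat.card ↥(stabilizer G a ⊓ stabilizer G b))) {x y : G} (hx : orderOf x = 2) (hy : orderOf y = 2) :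
    IsConj x y := by
  classical
  obtain ⟨hfaith, h2, -, -, -⟩ := id hZ
  haveI := hfaith
  obtain ⟨s, hsa, hsb⟩ := is_two_pretransitive_iff.1 h2 hab hab.symm
  suffices key : ∀ x : G, orderOf x = 2 → IsConj x s from (key x hx).trans (key y hy).symm
  intro x hx
  have hxx : x * x = 1 := by rw [← sq, ← hx, pow_orderOf_eq_one]
  obtain ⟨w, hw⟩ : ∃ w : Ω, x • w ≠ w := by
    by_contra hcon
    push Not at hcon
    rw [show x = 1 from eq_of_smul_eq_smul (α := Ω) fun w => by rw [hcon w, one_smul], orderOf_one] at hx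
    omega
  obtain ⟨k, hka, hkb⟩ := is_two_pretransitive_iff.1 h2 hw.symm hab
  set x' := k * x * k⁻¹ with hx'
  have hxa : x' • a = b := by rw [hx', mul_smul, mul_smul, inv_smul_eq_iff.2 hka.symm, hkb]
  have hxb : x' • b = a := by
    rw [hx', mul_smul, mul_smul, inv_smul_eq_iff.2 hkb.symm, ← mul_smul x, hxx, one_smul, hka]
  have hh : s⁻¹ * x' ∈ stabilizer G a ⊓ stabilizer G b :=
    ⟨mem_stabilizer_iff.2 (by rw [mul_smul, hxa, inv_smul_eq_iff, hsa]),
      mem_stabilizer_iff.2 (by rw [mul_smul, hxb, inv_smul_eq_iff, hsb])⟩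
  obtain ⟨hss, hinv⟩ := simple_odd_swap hZ hab hodd hsa hsb
  -- a square root in the two-point stabiliser
  set l := s⁻¹ * x' with hl
  obtain ⟨r, hr⟩ := hodd
  have hlpow : l ^ (2 * r + 1) = 1 := by
    rw [← hr]; exact congrArg Subtype.val (pow_card_eq_one' (x := (⟨l, hh⟩ : ↥(stabilizer G a ⊓ stabilizer G b))))
  set q := l ^ (r + 1) with hq
  have hqq : q * q = l := by
    rw [hq, ← pow_add, show r + 1 + (r + 1) = 2 * r + 1 + 1 by omega, pow_succ, hlpow, one_mul]
  have hqH : q ∈ stabilizer G a ⊓ stabilizer G b := pow_mem hh _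
  have hconj : q⁻¹ * s * q = x' := by
    have h1 : s * q = q⁻¹ * s := by rw [← hinv q hqH]; group
    rw [← h1, mul_assoc, hqq, hl, mul_inv_cancel_left]
  exact ((isConj_iff.2 ⟨k, rfl⟩ : IsConj x x').trans (isConj_iff.2 ⟨q, by rw [← hconj]; group⟩ : IsConj x' s))

end Cfsg.Agent.PermGroups
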