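import Mathlib
import Cfsg.Prelude.Def_Perm

/-!
The permutation module of the alternating group.
-/

set_option autoImplicit false

namespace Cfsg.Agent.PermGroups

open Equiv

variable {α : Type*} [DecidableEq α] {K : Type*} [Field K]

/-- The difference of two unit vectors. -/
def unitDiff (K : Type*) [Field K] (p q : α) : α → K := Pi.single p 1 - Pi.single q 1

theorem permRep_unitDiff [Fintype α] (g : alternatingGroup α) (p q : α) :
    Cfsg.permRep K (alternatingGroup α) α g (unitDiff K p q) = unitDiff K ((g : Perm α) p) ((g : Perm α) q) := by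
  funext x
  show unitDiff K p q ((g⁻¹ : alternatingGroup α) • x) = _
  have h : ∀ r : α, ((g : Perm α).symm x = r) ↔ (x = (g : Perm α) r) := fun r =>
    Equiv.symm_apply_eq _
  show unitDiff K p q ((g : Perm α).symm x) = _
  simp only [unitDiff, Pi.sub_apply, Pi.single_apply, h]

theorem exists_fourth_fifth [Fintype α] (hα : 5 ≤ Fintype.card α) (a b c : α) :
    ∃ d e : α, d ≠ e ∧ d ∉ ({a, b, c} : Finset α) ∧ e ∉ ({a, b, c} : Finset α) := by
  have h : 1 < (({a, b, c} : Finset α)ᶜ).card := by
    rw [Finset.card_compl]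
    have := Finset.card_le_three (a := a) (b := b) (c := c)
    omega
  obtain ⟨d, hd, e, he, hne⟩ := Finset.one_lt_card.1 h
  exact ⟨d, e, hne, Finset.mem_compl.1 hd, Finset.mem_compl.1 he⟩

/-- Invariant subspaces of the permutation module of `A_n`, `n ≥ 5`. -/
theorem alt_permRep_submodules [Fintype α] (hα : 5 ≤ Fintype.card α)
    (W : Subrepresentation (Cfsg.permRep K (alternatingGroup α) α)) :
    W.toSubmodule = ⊥ ∨ W = Cfsg.permConstants K (alternatingGroup α) α ∨
      W = Cfsg.permSumZero K (alternatingGroup α) α ∨ W.toSubmodule = ⊤ := by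
  classical
  by_cases hconst : ∀ v ∈ W.toSubmodule, ∀ a b : α, v a = v b
  · by_cases hbot : W.toSubmodule = ⊥
    · exact Or.inl hbot
    refine Or.inr (Or.inl (Subrepresentation.toSubmodule_injective (le_antisymm ?_ ?_)))
    · intro v hv
      obtain ⟨a⟩ : Nonempty α := Fintype.card_pos_iff.1 (by omega)
      exact Submodule.mem_span_singleton.2 ⟨v a, funext fun b => by
        show v a * 1 = v b
        rw [mul_one, hconst v hv a b]⟩
    · obtain ⟨v, hv, hv0⟩ := Submodule.exists_mem_ne_zero_of_ne_bot hbot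
      obtain ⟨a, ha⟩ := Function.ne_iff.1 hv0
      refine (Submodule.span_singleton_le_iff_mem _ _).2 ?_
      have : (fun _ : α => (1 : K)) = (v a)⁻¹ • v := funext fun b => by
        rw [Pi.smul_apply, smul_eq_mul, hconst v hv b a, inv_mul_cancel₀ ha]
      rw [this]
      exact W.toSubmodule.smul_mem _ hv
  push Not at hconst
  obtain ⟨v, hv, a, b, hab⟩ := hconst
  have hab' : a ≠ b := fun e => hab (e ▸ rfl)
  obtain ⟨c, -, -, hc, -⟩ := exists_fourth_fifth hα a b a
  simp only [Finset.mem_insert, Finset.mem_singleton, not_or] at hc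
  obtain ⟨d, e, hde, hd, he⟩ := exists_fourth_fifth hα a b c
  simp only [Finset.mem_insert, Finset.mem_singleton, not_or] at hd he
  -- moving by an even permutation stays inside
  have hmove : ∀ σ : Perm α, σ ∈ alternatingGroup α → ∀ f ∈ W.toSubmodule,
      (fun x => f (σ x)) ∈ W.toSubmodule := by
    intro σ hσ f hf
    exact W.apply_mem_toSubmodule (⟨σ, hσ⟩ : alternatingGroup α)⁻¹ hf
  have h3 : ∀ {x y z : α}, x ≠ y → x ≠ z → y ≠ z →
      Equiv.swap x y * Equiv.swap x z ∈ alternatingGroup α := fun h1 h2 h3 =>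
    (Perm.isThreeCycle_swap_mul_swap_same h1 h2 h3).mem_alternatingGroup
  have h4 : ∀ {x y z w : α}, x ≠ y → z ≠ w →
      Equiv.swap x y * Equiv.swap z w ∈ alternatingGroup α := fun h1 h2 => by
    rw [Perm.mem_alternatingGroup, map_mul, Perm.sign_swap h1, Perm.sign_swap h2]; rfl
  -- a vector `e_p - e_q`
  have hunit : ∃ p q : α, p ≠ q ∧ unitDiff K p q ∈ W.toSubmodule := by
    set w : α → K := fun x => v ((Equiv.swap a c * Equiv.swap a b) x) - v x with hw
    have hwW : w ∈ W.toSubmodule :=
      W.toSubmodule.sub_mem (hmove _ (h3 (Ne.symm hc.1) hab' hc.2.1) v hv) hv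
    have hw0 : ∀ x, x ≠ a → x ≠ b → x ≠ c → w x = 0 := fun x h1 h2 h3' => by
      rw [hw]
      dsimp only
      rw [Perm.mul_apply, Equiv.swap_apply_of_ne_of_ne h1 h2, Equiv.swap_apply_of_ne_of_ne h1 h3',
        sub_self]
    have hwa : w a ≠ 0 := by
      rw [hw]
      dsimp only
      rw [Perm.mul_apply, Equiv.swap_apply_left, Equiv.swap_apply_of_ne_of_ne hab'.symm (Ne.symm hc.2.1)]
      exact sub_ne_zero.2 (Ne.symm hab)
    -- exchanging two of the three points
    have hswap : ∀ x y : α, x ∈ ({a, b, c} : Finset α) → y ∈ ({a, b, c} : Finset α) → w x ≠ w y →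
        ∃ p q : α, p ≠ q ∧ unitDiff K p q ∈ W.toSubmodule := by
      intro x y hx hy hne
      have hxy : x ≠ y := fun e => hne (e ▸ rfl)
      refine ⟨x, y, hxy, ?_⟩
      have hd' : d ≠ x ∧ d ≠ y := by
        constructor <;>
          · simp only [Finset.mem_insert, Finset.mem_singleton] at hx hy
            rcases hx with rfl | rfl | rfl <;> rcases hy with rfl | rfl | rfl <;> tauto
      have he' : e ≠ x ∧ e ≠ y := by
        constructor <;>
          · simp only [Finset.mem_insert, Finset.mem_singleton] at hx hy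
            rcases hx with rfl | rfl | rfl <;> rcases hy with rfl | rfl | rfl <;> tauto
      have hm := W.toSubmodule.sub_mem hwW (hmove _ (h4 hxy hde) w hwW)
      have : unitDiff K x y = (w x - w y)⁻¹ •
          (w - fun z => w ((Equiv.swap x y * Equiv.swap d e) z)) := by
        funext z
        simp only [Pi.smul_apply, Pi.sub_apply, smul_eq_mul, unitDiff, Perm.mul_apply]
        by_cases hzx : z = x
        · subst hzx
          rw [Equiv.swap_apply_of_ne_of_ne hd'.1.symm he'.1.symm, Equiv.swap_apply_left,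
            Pi.single_eq_same, Pi.single_eq_of_ne hxy, sub_zero, inv_mul_cancel₀ (sub_ne_zero.2 hne)]
        by_cases hzy : z = y
        · subst hzy
          rw [Equiv.swap_apply_of_ne_of_ne hd'.2.symm he'.2.symm, Equiv.swap_apply_right,
            Pi.single_eq_same, Pi.single_eq_of_ne hxy.symm]
          field_simp [sub_ne_zero.2 hne]
          ring
        · rw [Pi.single_eq_of_ne hzx, Pi.single_eq_of_ne hzy, sub_self]
          have hzw : w ((Equiv.swap x y) ((Equiv.swap d e) z)) = w z := by
            by_cases hzd : z = d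
            · subst hzd
              rw [Equiv.swap_apply_left, Equiv.swap_apply_of_ne_of_ne he'.1 he'.2,
                hw0 e he.1 he.2.1 he.2.2, hw0 z hd.1 hd.2.1 hd.2.2]
            by_cases hze : z = e
            · subst hze
              rw [Equiv.swap_apply_right, Equiv.swap_apply_of_ne_of_ne hd'.1 hd'.2,
                hw0 z he.1 he.2.1 he.2.2, hw0 d hd.1 hd.2.1 hd.2.2]
            rw [Equiv.swap_apply_of_ne_of_ne hzd hze, Equiv.swap_apply_of_ne_of_ne hzx hzy]
          rw [hzw, sub_self, mul_zero]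
      rw [this]
      exact W.toSubmodule.smul_mem _ hm
    by_cases h1 : w a = w b
    swap
    · exact hswap a b (by simp) (by simp) h1
    by_cases h2 : w a = w c
    swap
    · exact hswap a c (by simp) (by simp) h2
    refine ⟨c, d, Ne.symm hd.2.2, ?_⟩
    have hm := W.toSubmodule.sub_mem hwW
      (hmove _ (h3 (Ne.symm hd.2.2) (Ne.symm he.2.2) hde) w hwW)
    have : unitDiff K c d = (w a)⁻¹ •
        (w - fun z => w ((Equiv.swap c d * Equiv.swap c e) z)) := by
      funext z
      simp only [Pi.smul_apply, Pi.sub_apply, smul_eq_mul, unitDiff, Perm.mul_apply]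
      by_cases hzc : z = c
      · subst hzc
        rw [Equiv.swap_apply_left, Equiv.swap_apply_of_ne_of_ne he.2.2 hde.symm,
          hw0 e he.1 he.2.1 he.2.2, Pi.single_eq_same, Pi.single_eq_of_ne (Ne.symm hd.2.2),
          sub_zero, sub_zero, ← h2, inv_mul_cancel₀ hwa]
      by_cases hzd : z = d
      · subst hzd
        rw [Equiv.swap_apply_of_ne_of_ne hd.2.2 hde, Equiv.swap_apply_right,
          hw0 z hd.1 hd.2.1 hd.2.2, Pi.single_eq_same, Pi.single_eq_of_ne hd.2.2, ← h2,
          zero_sub, zero_sub, mul_neg, inv_mul_cancel₀ hwa]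
      rw [Pi.single_eq_of_ne hzc, Pi.single_eq_of_ne hzd, sub_self]
      by_cases hze : z = e
      · subst hze
        rw [Equiv.swap_apply_right, Equiv.swap_apply_left, hw0 z he.1 he.2.1 he.2.2,
          hw0 d hd.1 hd.2.1 hd.2.2, sub_self, mul_zero]
      rw [Equiv.swap_apply_of_ne_of_ne hzc hze, Equiv.swap_apply_of_ne_of_ne hzc hzd, sub_self,
        mul_zero]
    rw [this]
    exact W.toSubmodule.smul_mem _ hm
  -- two-transitivity
  obtain ⟨p, q, hpq, hpqW⟩ := hunit
  have hall : ∀ r s : α, r ≠ s → unitDiff K r s ∈ W.toSubmodule := by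
    intro r s hrs
    have h2t : MulAction.IsMultiplyPretransitive (alternatingGroup α) α 2 := by
      have := alternatingGroup.isMultiplyPretransitive (α := α)
      exact MulAction.isMultiplyPretransitive_of_le' (n := Nat.card α - 2)
        (by rw [Nat.card_eq_fintype_card]; omega) (by
          rw [ENat.card_eq_coe_fintype_card, Nat.card_eq_fintype_card]; exact_mod_cast Nat.sub_le _ _)
    obtain ⟨g, g1, g2⟩ := MulAction.is_two_pretransitive_iff.1 h2t hpq hrs
    have := W.apply_mem_toSubmodule g hpqW
    rw [permRep_unitDiff] at this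
    rwa [show (g : Perm α) p = r from g1, show (g : Perm α) q = s from g2] at this
  obtain ⟨r₀⟩ : Nonempty α := ⟨a⟩
  have hzero : ∀ f : α → K, ∑ x, f x = 0 → f ∈ W.toSubmodule := by
    intro f hf
    have : f = ∑ x, f x • unitDiff K x r₀ := by
      funext z
      simp only [Finset.sum_apply, Pi.smul_apply, smul_eq_mul, unitDiff, Pi.sub_apply, mul_sub,
        Finset.sum_sub_distrib, Pi.single_apply, mul_ite, mul_one, mul_zero, Finset.sum_ite_eq,
        Finset.mem_univ, if_true]
      by_cases hz : z = r₀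
      · simp [hz, hf]
      · simp [hz]
    rw [this]
    refine W.toSubmodule.sum_mem fun x _ => W.toSubmodule.smul_mem _ ?_
    by_cases hx : x = r₀
    · rw [hx, unitDiff, sub_self]; exact W.toSubmodule.zero_mem
    · exact hall x r₀ hx
  by_cases hsum : ∀ f ∈ W.toSubmodule, ∑ x, f x = 0
  · exact Or.inr (Or.inr (Or.inl (Subrepresentation.toSubmodule_injective
      (le_antisymm hsum hzero))))
  push Not at hsum
  obtain ⟨f, hf, hf0⟩ := hsum
  refine Or.inr (Or.inr (Or.inr (eq_top_iff.2 fun g _ => ?_)))
  have hrest := hzero (g - ((∑ x, g x) / ∑ x, f x) • f) (by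
    simp only [Pi.sub_apply, Pi.smul_apply, smul_eq_mul, Finset.sum_sub_distrib, ← Finset.mul_sum]
    rw [div_mul_cancel₀ _ hf0, sub_self])
  have := W.toSubmodule.add_mem hrest (W.toSubmodule.smul_mem ((∑ x, g x) / ∑ x, f x) hf)
  rwa [sub_add_cancel] at this

end Cfsg.Agent.PermGroups
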