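import Mathlib.GroupTheory.Sylow
import Mathlib.GroupTheory.Perm.ViaEmbedding
import Mathlib.GroupTheory.SpecificGroups.Alternating
import Mathlib.Data.Nat.Choose.Factorization
import Mathlib.Data.ZMod.Basic

/-!
Sylow subgroups of alternating groups: when they are abelian.
-/

set_option autoImplicit false
set_option maxHeartbeats 200000
set_option linter.style.haveILetI false

namespace Cfsg.Agent.PermGroups

open Equiv

/-- The wreath product of two groups of order `p`, on `p × p` points. -/
def wreathSq (p : ℕ) [NeZero p] : Subgroup (Perm (ZMod p × ZMod p)) where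
  carrier := {σ | ∃ (t : ZMod p) (f : ZMod p → ZMod p), ∀ x, σ x = (x.1 + t, x.2 + f x.1)}
  one_mem' := ⟨0, 0, fun x => by simp⟩
  mul_mem' := fun {σ τ} ⟨t, f, hσ⟩ ⟨t', f', hτ⟩ => ⟨t' + t, fun i => f' i + f (i + t'), fun x => by
    rw [Perm.mul_apply, hτ, hσ]; exact Prod.ext (add_assoc _ _ _) (add_assoc _ _ _)⟩
  inv_mem' := fun {σ} ⟨t, f, hσ⟩ => ⟨-t, fun i => -f (i - t), fun x => by
    apply σ.injective
    rw [show σ (σ⁻¹ x) = x from σ.apply_symm_apply x, hσ]
    simp [sub_eq_add_neg]⟩

theorem card_wreathSq (p : ℕ) [NeZero p] : Nat.card (wreathSq p) = p ^ (p + 1) := by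
  classical
  let mk : ZMod p × (ZMod p → ZMod p) → Perm (ZMod p × ZMod p) := fun q =>
    { toFun := fun x => (x.1 + q.1, x.2 + q.2 x.1)
      invFun := fun x => (x.1 - q.1, x.2 - q.2 (x.1 - q.1))
      left_inv := fun x => by simp
      right_inv := fun x => by simp }
  have hmk : ∀ q x, mk q x = (x.1 + q.1, x.2 + q.2 x.1) := fun q x => rfl
  let e : ZMod p × (ZMod p → ZMod p) → wreathSq p := fun q => ⟨mk q, q.1, q.2, hmk q⟩
  have he : Function.Bijective e := by
    constructor
    · intro q r h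
      have h' : ∀ x, mk q x = mk r x := fun x => Equiv.congr_fun (congrArg Subtype.val h) x
      refine Prod.ext ?_ (funext fun i => ?_)
      · simpa [hmk] using congrArg Prod.fst (h' (0, 0))
      · simpa [hmk] using congrArg Prod.snd (h' (i, 0))
    · rintro ⟨σ, t, f, hσ⟩
      exact ⟨(t, f), Subtype.ext (Equiv.ext fun x => (hσ x).symm)⟩
  rw [← Nat.card_eq_of_bijective e he, Nat.card_prod, Nat.card_zmod, Nat.card_fun, Nat.card_zmod,
    pow_succ, mul_comm]

theorem wreathSq_not_comm (p : ℕ) [NeZero p] [Fact (1 < p)] :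
    ¬ IsMulCommutative (wreathSq p) := by
  classical
  intro h
  let a : Perm (ZMod p × ZMod p) :=
    { toFun := fun x => (x.1, x.2 + if x.1 = 0 then 1 else 0)
      invFun := fun x => (x.1, x.2 - if x.1 = 0 then 1 else 0)
      left_inv := fun x => by simp
      right_inv := fun x => by simp }
  let b : Perm (ZMod p × ZMod p) :=
    { toFun := fun x => (x.1 + 1, x.2)
      invFun := fun x => (x.1 - 1, x.2)
      left_inv := fun x => by simp
      right_inv := fun x => by simp }
  have ha : a ∈ wreathSq p := ⟨0, fun i => if i = 0 then 1 else 0, fun x => by simp [a]⟩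
  have hb : b ∈ wreathSq p := ⟨1, 0, fun x => by simp [b]⟩
  have := congrArg (fun σ : wreathSq p => ((σ : Perm (ZMod p × ZMod p)) (0, 0)))
    (h.is_comm.comm ⟨a, ha⟩ ⟨b, hb⟩)
  simp [a, b, Perm.mul_apply] at this

theorem sign_viaEmbeddingHom {α β : Type*} [Fintype α] [DecidableEq α] [Fintype β] [DecidableEq β]
    (ι : α ↪ β) (σ : Perm α) : Perm.sign (Perm.viaEmbeddingHom ι σ) = Perm.sign σ := by
  rw [Perm.viaEmbeddingHom_apply, Perm.viaEmbedding]
  classical
  convert Perm.sign_extendDomain σ _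

/-- An odd permutation `p`-group consists of even permutations. -/
theorem sign_eq_one_of_odd_card {α : Type*} [Fintype α] [DecidableEq α] {K : Subgroup (Perm α)}
    (hodd : Odd (Nat.card K)) {σ : Perm α} (hσ : σ ∈ K) : Perm.sign σ = 1 := by
  have hd : orderOf σ ∣ Nat.card K := Subgroup.orderOf_dvd_natCard K hσ
  have h1 : Perm.sign σ ^ orderOf σ = 1 := by rw [← map_pow, pow_orderOf_eq_one, map_one]
  obtain ⟨r, hr⟩ := hodd.of_dvd_nat hd
  rw [hr, pow_succ, pow_mul, Int.units_sq, one_pow, one_mul] at h1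
  exact h1

/-- A non-abelian `p`-subgroup of the alternating group. -/
theorem exists_nonabelian_pgroup {n p : ℕ} [hp : Fact p.Prime] (hn : 6 ≤ n) (hpn : p ^ 2 ≤ n) :
    ∃ K : Subgroup (alternatingGroup (Fin n)), IsPGroup p K ∧ ¬ IsMulCommutative K := by
  classical
  haveI : Fact (1 < p) := ⟨hp.out.one_lt⟩
  have hW : IsPGroup p (wreathSq p) := IsPGroup.of_card (card_wreathSq p)
  suffices h : ∃ ψ : wreathSq p →* alternatingGroup (Fin n), Function.Injective ψ by
    obtain ⟨ψ, hψ⟩ := h
    refine ⟨ψ.range, hW.of_surjective ψ.rangeRestrict ψ.rangeRestrict_surjective, fun hc => wreathSq_not_comm p ?_⟩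
    exact ⟨⟨fun x y => hψ (by
      rw [map_mul, map_mul]
      exact congrArg Subtype.val (hc.is_comm.comm ⟨ψ x, x, rfl⟩ ⟨ψ y, y, rfl⟩))⟩⟩
  by_cases h2 : p = 2
  · subst h2
    let χ : ℤˣ →* Perm Bool :=
      { toFun := fun u => if u = 1 then 1 else Equiv.swap true false
        map_one' := if_pos rfl
        map_mul' := fun u v => by
          rcases Int.units_eq_one_or u with rfl | rfl <;> rcases Int.units_eq_one_or v with rfl | rfl <;>
            simp [Equiv.swap_mul_self] }
    have hχ : ∀ u, Perm.sign (χ u) = u := fun u => by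
      rcases Int.units_eq_one_or u with rfl | rfl
      · simp [χ]
      · simp [χ]
    obtain ⟨ι⟩ : Nonempty ((ZMod 2 × ZMod 2) ⊕ Bool ↪ Fin n) :=
      Function.Embedding.nonempty_of_card_le (by simp; omega)
    let φ : wreathSq 2 →* Perm (Fin n) :=
      (Perm.viaEmbeddingHom ι).comp ((Perm.sumCongrHom (ZMod 2 × ZMod 2) Bool).comp
        ((wreathSq 2).subtype.prod ((χ.comp Perm.sign).comp (wreathSq 2).subtype)))
    have hφ : ∀ σ, φ σ ∈ alternatingGroup (Fin n) := fun σ => by
      rw [Equiv.Perm.mem_alternatingGroup]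
      rw [MonoidHom.comp_apply, sign_viaEmbeddingHom]
      simp only [MonoidHom.comp_apply, MonoidHom.prod_apply, Perm.sumCongrHom_apply,
        Subgroup.coe_subtype]
      rw [Perm.sign_sumCongr, hχ, Int.units_mul_self]
    refine ⟨φ.codRestrict _ hφ, fun σ τ h => ?_⟩
    have h0 : φ σ = φ τ := Subtype.ext_iff.1 h
    rw [MonoidHom.comp_apply, MonoidHom.comp_apply] at h0
    have h' := Perm.viaEmbeddingHom_injective ι h0
    refine Subtype.ext (Equiv.ext fun x => ?_)
    simpa using Equiv.congr_fun h' (Sum.inl x)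
  · obtain ⟨ι⟩ : Nonempty (ZMod p × ZMod p ↪ Fin n) :=
      Function.Embedding.nonempty_of_card_le (by simp [ZMod.card]; nlinarith)
    let φ : wreathSq p →* Perm (Fin n) := (Perm.viaEmbeddingHom ι).comp (wreathSq p).subtype
    have hφ : ∀ σ, φ σ ∈ alternatingGroup (Fin n) := fun σ => by
      rw [Equiv.Perm.mem_alternatingGroup]
      show Perm.sign (Perm.viaEmbeddingHom ι (σ : Perm _)) = 1
      rw [sign_viaEmbeddingHom]
      exact sign_eq_one_of_odd_card (card_wreathSq p ▸ (hp.out.odd_of_ne_two h2).pow) σ.2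
    refine ⟨φ.codRestrict _ hφ, fun σ τ h => ?_⟩
    exact Subtype.ext (Perm.viaEmbeddingHom_injective ι (congrArg Subtype.val h))

/-- Below `p ^ 2` points every `p`-group of permutations is abelian. -/
theorem pgroup_comm_of_lt {n p : ℕ} [hp : Fact p.Prime] (hn : n < p ^ 2) {K : Subgroup (Perm (Fin n))}
    (hK : IsPGroup p K) : IsMulCommutative K := by
  classical
  let φ : Multiplicative (Fin (n / p) → ZMod p) →* Perm (Fin (n / p) × ZMod p) :=
    MonoidHom.mk' (fun f =>
      { toFun := fun x => (x.1, x.2 + f.toAdd x.1)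
        invFun := fun x => (x.1, x.2 - f.toAdd x.1)
        left_inv := fun x => by simp
        right_inv := fun x => by simp })
      (fun f g => Equiv.ext fun x => by simp [add_comm, add_left_comm])
  obtain ⟨ι⟩ : Nonempty (Fin (n / p) × ZMod p ↪ Fin n) :=
    Function.Embedding.nonempty_of_card_le (by simp [ZMod.card]; exact Nat.div_mul_le_self n p)
  let ψ := (Perm.viaEmbeddingHom ι).comp φ
  have hψ : Function.Injective ψ := (Perm.viaEmbeddingHom_injective ι).comp (fun f g h =>
    Multiplicative.toAdd.injective (funext fun i => by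
      simpa [φ] using congrArg Prod.snd (Equiv.congr_fun h (i, 0))))
  have hcard : Nat.card ψ.range = p ^ (Nat.card (Perm (Fin n))).factorization p := by
    rw [← Nat.card_congr (MonoidHom.ofInjective hψ).toEquiv, Nat.card_congr Multiplicative.toAdd,
      Nat.card_fun, Nat.card_zmod, Nat.card_fin, Nat.card_perm, Nat.card_fin,
      Nat.factorization_factorial hp.out (b := 2) (Nat.log_lt_of_lt_pow' (by norm_num) hn)]
    simp
  let E : Sylow p (Perm (Fin n)) := Sylow.ofCard ψ.range hcard
  obtain ⟨T, hT⟩ := hK.exists_le_sylow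
  obtain ⟨g, hg⟩ := MulAction.exists_smul_eq (Perm (Fin n)) T E
  refine ⟨⟨fun x y => Subtype.ext ?_⟩⟩
  have hmem : ∀ z : K, g * (z : Perm (Fin n)) * g⁻¹ ∈ ψ.range := fun z => by
    have : g * (z : Perm (Fin n)) * g⁻¹ ∈ (E : Subgroup (Perm (Fin n))) := by
      rw [← hg, Sylow.coe_subgroup_smul]
      exact ⟨z, hT z.2, rfl⟩
    exact this
  obtain ⟨a, ha⟩ := hmem x
  obtain ⟨b, hb⟩ := hmem y
  show (x : Perm (Fin n)) * y = y * x
  calc (x : Perm (Fin n)) * y = g⁻¹ * ((g * x * g⁻¹) * (g * y * g⁻¹)) * g := by group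
    _ = g⁻¹ * ((g * y * g⁻¹) * (g * x * g⁻¹)) * g := by
      rw [← ha, ← hb, ← map_mul, mul_comm a b, map_mul]
    _ = y * x := by group

end Cfsg.Agent.PermGroups
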