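import Cfsg.Agent.Chars.SmallEigen
import Mathlib.GroupTheory.Subgroup.Simple

/-!
Blichfeldt's sixty degree theorem, in the form needed for simple groups: no element of a finite
nonabelian simple group other than the identity has, in a nontrivial irreducible representation,
all eigenvalues at distance less than sixty degrees from one of them.
-/

set_option autoImplicit false

namespace Cfsg.Agent.PermGroups

open scoped ComplexConjugate Matrix MatrixOrder ComplexOrder
open Cfsg.Agent.Chars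

variable {n : ℕ} {G : Type*} [Group G] [Finite G]

/-- A unitary form of a representation, with the similarity. -/
theorem exists_unitary_similar (ρ : Representation ℂ G (Fin n → ℂ)) :
    ∃ (U : G →* Matrix (Fin n) (Fin n) ℂ) (B C : Matrix (Fin n) (Fin n) ℂ), IsUnitaryHom U ∧
      B * C = 1 ∧ C * B = 1 ∧ ∀ g, U g = B * LinearMap.toMatrix' (ρ g) * C := by
  classical
  haveI := Fintype.ofFinite G
  let A : G → Matrix (Fin n) (Fin n) ℂ := fun x => LinearMap.toMatrix' (ρ x)
  have hmul : ∀ x y, A (x * y) = A x * A y := fun x y => by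
    simp [A, map_mul, LinearMap.toMatrix'_comp, Module.End.mul_eq_comp]
  have hone : A 1 = 1 := by simp [A, Module.End.one_eq_id]
  let M : Matrix (Fin n) (Fin n) ℂ := ∑ x, (A x)ᴴ * A x
  have hMsd : M.PosSemidef :=
    Matrix.posSemidef_sum _ fun x _ => Matrix.posSemidef_conjTranspose_mul_self _
  have hM : IsUnit M := by
    have hs : M = (A 1)ᴴ * A 1 + ∑ x ∈ Finset.univ.erase 1, (A x)ᴴ * A x :=
      (Finset.add_sum_erase _ _ (Finset.mem_univ _)).symm
    rw [hs, hone, Matrix.conjTranspose_one, mul_one]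
    exact (Matrix.PosDef.one.add_posSemidef
      (Matrix.posSemidef_sum _ fun x _ => Matrix.posSemidef_conjTranspose_mul_self _)).isUnit
  obtain ⟨B, hB⟩ := CStarAlgebra.nonneg_iff_eq_star_mul_self.mp hMsd.nonneg
  rw [Matrix.star_eq_conjTranspose] at hB
  have hd : IsUnit B.det := by
    have h1 := (Matrix.isUnit_iff_isUnit_det M).1 hM
    rw [hB, Matrix.det_mul] at h1
    exact isUnit_of_mul_isUnit_right h1
  have hBi : B⁻¹ * B = 1 := Matrix.nonsing_inv_mul _ hd
  have hBi' : B * B⁻¹ = 1 := Matrix.mul_nonsing_inv _ hd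
  let U : G →* Matrix (Fin n) (Fin n) ℂ :=
    { toFun := fun g => B * A g * B⁻¹
      map_one' := by rw [hone, mul_one, hBi']
      map_mul' := fun x y => by
        show B * A (x * y) * B⁻¹ = B * A x * B⁻¹ * (B * A y * B⁻¹)
        simp only [mul_assoc]
        rw [← mul_assoc B⁻¹ B, hBi, one_mul, ← mul_assoc (A x), hmul] }
  have hinv : ∀ g, (A g)ᴴ * M * A g = M := fun g => by
    rw [Finset.mul_sum, Finset.sum_mul]
    refine Fintype.sum_equiv (Equiv.mulRight g) _ _ fun x => ?_
    simp [hmul, Matrix.conjTranspose_mul, mul_assoc]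
  refine ⟨U, B, B⁻¹, fun g => ?_, hBi', hBi, fun g => rfl⟩
  have h1 : (U g)ᴴ * U g = 1 := by
    show (B * A g * B⁻¹)ᴴ * (B * A g * B⁻¹) = 1
    calc (B * A g * B⁻¹)ᴴ * (B * A g * B⁻¹)
        = (B⁻¹)ᴴ * ((A g)ᴴ * (Bᴴ * B) * A g) * B⁻¹ := by
          simp only [Matrix.conjTranspose_mul, mul_assoc]
      _ = (B⁻¹)ᴴ * (Bᴴ * B) * B⁻¹ := by rw [← hB, hinv]
      _ = (B * B⁻¹)ᴴ * (B * B⁻¹) := by simp only [Matrix.conjTranspose_mul, mul_assoc]
      _ = 1 := by rw [hBi', Matrix.conjTranspose_one, one_mul]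
  exact ⟨h1, mul_eq_one_comm.1 h1⟩

/-- The lower bound for the numerical range from the eigenvalues. -/
theorem rdot_lower {U : G →* Matrix (Fin n) (Fin n) ℂ} (hU : IsUnitaryHom U) (x : G) (η : ℂ)
    (b : Module.Basis (Fin n) ℂ (Fin n → ℂ)) (z : Fin n → ℂ)
    (hb : ∀ i, U x *ᵥ b i = z i • b i) (hz : ∀ i, ‖z i‖ = 1)
    (hre : ∀ i, 1 / 2 < (η * z i).re) {v : Fin n → ℂ} (hv : v ≠ 0) :
    1 / 2 * nsq v < rdot v (η • U x *ᵥ v) := by
  classical
  set c := fun i => b.repr v i
  set T := (Finset.univ.image z : Finset ℂ)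
  set f : ℂ → (Fin n → ℂ) := fun t => ∑ i ∈ Finset.univ.filter (fun i => z i = t), c i • b i
  have hf : ∑ t ∈ T, f t = v := by
    conv_rhs => rw [← b.sum_repr v]
    exact Finset.sum_fiberwise_of_maps_to (fun i _ => Finset.mem_image_of_mem z (Finset.mem_univ i)) _
  have hEv : ∀ t, U x *ᵥ f t = t • f t := by
    intro t
    simp only [f, Matrix.mulVec_sum, Finset.smul_sum, Matrix.mulVec_smul, hb]
    exact Finset.sum_congr rfl fun i hi => by rw [(Finset.mem_filter.1 hi).2, smul_comm]
  have hnT : ∀ t ∈ T, ‖t‖ = 1 ∧ 1 / 2 < (η * t).re := by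
    intro t ht
    obtain ⟨i, -, rfl⟩ := Finset.mem_image.1 ht
    exact ⟨hz i, hre i⟩
  have horth : ∀ a ∈ T, ∀ d ∈ T, a ≠ d → star (f a) ⬝ᵥ f d = 0 := by
    intro a ha d hd had
    have h1 : star (U x *ᵥ f a) ⬝ᵥ (U x *ᵥ f d) = star (f a) ⬝ᵥ f d := by
      rw [Matrix.star_mulVec, ← Matrix.dotProduct_mulVec, Matrix.mulVec_mulVec, (hU x).1,
        Matrix.one_mulVec]
    rw [hEv a, hEv d, star_smul, smul_dotProduct, dotProduct_smul, smul_eq_mul, smul_eq_mul,
      Complex.star_def] at h1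
    by_contra hne
    have h2 : conj a * d = 1 := mul_right_cancel₀ hne (by rw [mul_assoc, h1, one_mul])
    refine had ?_
    have h3 : a * conj a = 1 := by rw [Complex.mul_conj', (hnT a ha).1]; simp
    calc a = a * (conj a * d) := by rw [h2, mul_one]
      _ = d := by rw [← mul_assoc, h3, one_mul]
  have hexp : ∀ a : ℂ → ℂ,
      star (∑ t ∈ T, f t) ⬝ᵥ (∑ d ∈ T, a d • f d) = ∑ t ∈ T, a t * (nsq (f t) : ℂ) := by
    intro a
    rw [star_sum, sum_dotProduct]
    refine Finset.sum_congr rfl fun t ht => ?_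
    rw [dotProduct_sum, Finset.sum_eq_single t (fun d hd hdc => by
      rw [dotProduct_smul, horth t ht d hd (Ne.symm hdc), smul_zero]) (fun h => absurd ht h),
      dotProduct_smul, star_dot_self, smul_eq_mul]
  have hnv : nsq v = ∑ t ∈ T, nsq (f t) := by
    have h1 := hexp fun _ => 1
    simp only [one_smul, one_mul, hf] at h1
    rw [star_dot_self] at h1
    exact_mod_cast h1
  have hrv : rdot v (η • U x *ᵥ v) = ∑ t ∈ T, (η * t).re * nsq (f t) := by
    have h1 := hexp fun t => η * t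
    have h2 : η • U x *ᵥ v = ∑ t ∈ T, (η * t) • f t := by
      conv_lhs => rw [← hf]
      simp only [Matrix.mulVec_sum, Finset.smul_sum, hEv, smul_smul]
    rw [← h2, hf] at h1
    rw [rdot, h1, Complex.re_sum]
    exact Finset.sum_congr rfl fun t _ => Complex.re_mul_ofReal _ _
  rw [hnv, hrv, Finset.mul_sum]
  obtain ⟨t, ht, ht0⟩ : ∃ t ∈ T, f t ≠ 0 := by
    by_contra hcon
    push Not at hcon
    exact hv (hf ▸ Finset.sum_eq_zero hcon)
  exact Finset.sum_lt_sum (fun d hd => mul_le_mul_of_nonneg_right (hnT d hd).2.le (nsq_nonneg _))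
    ⟨t, ht, mul_lt_mul_of_pos_right (hnT t ht).2 (nsq_pos ht0)⟩

/-- The fixed space of a scalar multiple of `U x` is invariant under the normal closure of `x`,
if the multiple is near the identity. -/
theorem stable_of_near_one {U : G →* Matrix (Fin n) (Fin n) ℂ} (hU : IsUnitaryHom U) {x : G}
    {η : ℂ} (hη : ‖η‖ = 1) (hx : ∀ v, v ≠ 0 → 1 / 2 * nsq v < rdot v (η • U x *ᵥ v))
    (g : G) (hg : g ∈ Subgroup.normalClosure ({x} : Set G))
    (v : Fin n → ℂ) (hv : η • U x *ᵥ v = v) : η • U x *ᵥ (U g *ᵥ v) = U g *ᵥ v := by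
  classical
  haveI := Fintype.ofFinite G
  let W : Submodule ℂ (Fin n → ℂ) :=
    LinearMap.ker (Matrix.toLin' (η • U x - 1))
  have hW : ∀ w, w ∈ W ↔ η • U x *ᵥ w = w := fun w => by
    simp [W, Matrix.toLin'_apply, Matrix.sub_mulVec, Matrix.smul_mulVec, sub_eq_zero]
  have hn1 : Complex.normSq η = 1 := by rw [Complex.normSq_eq_norm_sq, hη, one_pow]
  have hηc : conj η * η = 1 := by rw [Complex.conj_mul', hη]; simp
  set D := η • U x - 1 with hD
  have hshort : ∀ v, nsq (D *ᵥ v) ≤ nsq v ∧ (v ≠ 0 → nsq (D *ᵥ v) < nsq v) := by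
    intro v
    by_cases hv : v = 0
    · simp [hv, nsq_zero]
    · have h1 : nsq (D *ᵥ v) < nsq v := by
        rw [hD, Matrix.sub_mulVec, Matrix.one_mulVec, nsq_sub, Matrix.smul_mulVec, nsq_smul,
          nsq_unitary (hU x).1, hn1, one_mul]
        have := hx v hv
        linarith
      exact ⟨h1.le, fun _ => h1⟩
  obtain ⟨s, hs⟩ : ∃ s : Finset (Fin n → ℂ), Submodule.span ℂ (s : Set (Fin n → ℂ)) = W :=
    Submodule.fg_def.1 (IsNoetherian.noetherian W) |>.elim fun t ⟨ht, hts⟩ =>
      ⟨ht.toFinset, by simpa using hts⟩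
  have hsW : ∀ b ∈ s, η • U x *ᵥ b = b := fun b hb =>
    (hW b).1 (hs ▸ Submodule.subset_span (Finset.mem_coe.2 hb))
  let F : G → ℝ := fun y => ∑ b ∈ s, nsq ((η • U y - 1) *ᵥ b)
  let St : G → Prop := fun y => ∀ w ∈ W, U y *ᵥ w ∈ W
  have hStmul : ∀ a b, St a → St b → St (a * b) := fun a b ha hb w hw => by
    rw [map_mul, ← Matrix.mulVec_mulVec]; exact ha _ (hb _ hw)
  have hStone : St 1 := fun w hw => by simpa using hw
  have hStinv : ∀ a, St a → St a⁻¹ := fun a ha => by
    have hpow : ∀ k : ℕ, St (a ^ k) := fun k => by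
      induction k with
      | zero => simpa using hStone
      | succ k ih => rw [pow_succ]; exact hStmul _ _ ih ha
    have : a⁻¹ = a ^ (orderOf a - 1) := by
      rw [inv_eq_iff_mul_eq_one, ← pow_succ', Nat.sub_add_cancel (orderOf_pos a), pow_orderOf_eq_one]
    rw [this]; exact hpow _
  -- all conjugates stabilise the fixed space
  have hall : ∀ a : G, St (a * x * a⁻¹) := by
    by_contra hne
    push Not at hne
    obtain ⟨a₀, ha₀⟩ := hne
    obtain ⟨y, hy, hmin⟩ := Finset.exists_min_image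
      (Finset.univ.filter fun y => (∃ a, y = a * x * a⁻¹) ∧ ¬ St y) F
      ⟨_, Finset.mem_filter.2 ⟨Finset.mem_univ _, ⟨a₀, rfl⟩, ha₀⟩⟩
    obtain ⟨⟨a, hya⟩, hySt⟩ := (Finset.mem_filter.1 hy).2
    have hUy : U y * U y⁻¹ = 1 := by rw [← map_mul, mul_inv_cancel, map_one]
    have hterm : ∀ b, η • U x *ᵥ b = b →
        nsq ((η • U (y * x * y⁻¹) - 1) *ᵥ b) = nsq (D *ᵥ (U y⁻¹ *ᵥ (η • U y *ᵥ b - b))) := by
      intro b hb
      have hDb : D *ᵥ b = 0 := by
        rw [hD, Matrix.sub_mulVec, Matrix.one_mulVec, Matrix.smul_mulVec, hb, sub_self]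
      have h1 : U y⁻¹ *ᵥ (η • U y *ᵥ b - b) = η • b - U y⁻¹ *ᵥ b := by
        rw [Matrix.mulVec_sub, Matrix.mulVec_smul, Matrix.mulVec_mulVec, ← map_mul, inv_mul_cancel,
          map_one, Matrix.one_mulVec]
      have h2 : (η • U (y * x * y⁻¹) - 1) *ᵥ b = U y *ᵥ (D *ᵥ (U y⁻¹ *ᵥ b)) := by
        rw [hD, Matrix.mulVec_mulVec, Matrix.mulVec_mulVec, mul_sub, sub_mul, mul_one, hUy,
          Matrix.mul_smul, Matrix.smul_mul, ← map_mul, ← map_mul]
      rw [h1, Matrix.mulVec_sub, Matrix.mulVec_smul, hDb, smul_zero, zero_sub, h2,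
        nsq_unitary (hU y).1]
      simp [nsq]
    have hlt : F (y * x * y⁻¹) < F y := by
      simp only [F]
      have hle : ∀ b ∈ s, nsq ((η • U (y * x * y⁻¹) - 1) *ᵥ b) ≤ nsq ((η • U y - 1) *ᵥ b) ∧
          ((η • U y - 1) *ᵥ b ≠ 0 →
            nsq ((η • U (y * x * y⁻¹) - 1) *ᵥ b) < nsq ((η • U y - 1) *ᵥ b)) := by
        intro b hb
        have he : nsq (U y⁻¹ *ᵥ (η • U y *ᵥ b - b)) = nsq ((η • U y - 1) *ᵥ b) := by
          rw [nsq_unitary (hU _).1, Matrix.sub_mulVec, Matrix.one_mulVec, Matrix.smul_mulVec]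
        rw [hterm b (hsW b hb), ← he]
        refine ⟨(hshort _).1, fun hne => (hshort _).2 fun h0 => hne ?_⟩
        have h3 := congrArg (U y *ᵥ ·) h0
        simpa [Matrix.mulVec_mulVec, hUy, Matrix.sub_mulVec, Matrix.smul_mulVec] using h3
      refine Finset.sum_lt_sum (fun b hb => (hle b hb).1) ?_
      by_contra hcon
      push Not at hcon
      refine hySt fun w hw => ?_
      have heq : ∀ b ∈ s, U y *ᵥ b = conj η • b := by
        intro b hb
        have h0 : (η • U y - 1) *ᵥ b = 0 := by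
          by_contra h0
          exact absurd ((hle b hb).2 h0) (not_lt.2 (hcon b hb))
        rw [Matrix.sub_mulVec, Matrix.one_mulVec, sub_eq_zero, Matrix.smul_mulVec] at h0
        conv_rhs => rw [← h0]
        rw [smul_smul, hηc, one_smul]
      have : W ≤ W.comap (Matrix.toLin' (U y)) := by
        conv_lhs => rw [← hs]
        rw [Submodule.span_le]
        intro b hb
        have hbW : b ∈ W := hs ▸ Submodule.subset_span hb
        simp only [SetLike.mem_coe, Submodule.mem_comap, Matrix.toLin'_apply, heq b (by simpa using hb)]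
        exact W.smul_mem _ hbW
      simpa [Matrix.toLin'_apply] using this hw
    have hSt' : St (y * x * y⁻¹) := by
      by_contra hc
      have := hmin _ (Finset.mem_filter.2 ⟨Finset.mem_univ _, ⟨y, rfl⟩, hc⟩)
      linarith
    refine hySt ?_
    have hinv : St y⁻¹ := by
      intro b hb
      set c := U y⁻¹ *ᵥ b with hc
      have hcb : U y *ᵥ c = b := by rw [hc, Matrix.mulVec_mulVec, hUy, Matrix.one_mulVec]
      -- `U x` preserves the translate of `W`, so `D c` lies in it
      set e := D *ᵥ c with he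
      have heW : U y *ᵥ e ∈ W := by
        have h1 : U y *ᵥ e = η • (U (y * x * y⁻¹) *ᵥ b) - b := by
          rw [he, hD, Matrix.sub_mulVec, Matrix.one_mulVec, Matrix.mulVec_sub, hcb,
            Matrix.smul_mulVec, Matrix.mulVec_smul, hc, Matrix.mulVec_mulVec,
            Matrix.mulVec_mulVec, ← map_mul, ← map_mul]
        rw [h1]
        exact W.sub_mem (W.smul_mem _ (hSt' b hb)) hb
      -- and is orthogonal to `W`
      have horth : star (U y *ᵥ e) ⬝ᵥ e = 0 := by
        have hw := (hW _).1 heW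
        have hwstar : Dᴴ *ᵥ (U y *ᵥ e) = 0 := by
          have h3 := congrArg ((U x)ᴴ *ᵥ ·) hw
          simp only [Matrix.mulVec_smul, Matrix.mulVec_mulVec, ← mul_assoc, (hU x).1, one_mul] at h3
          rw [hD, Matrix.conjTranspose_sub, Matrix.conjTranspose_smul, Matrix.conjTranspose_one,
            Matrix.sub_mulVec, Matrix.one_mulVec, Matrix.smul_mulVec, Matrix.mulVec_mulVec,
            ← h3, smul_smul, Complex.star_def, hηc, one_smul, sub_self]
        rw [he, Matrix.dotProduct_mulVec]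
        have h4 : ∀ w, star w ᵥ* D = star (Dᴴ *ᵥ w) := fun w => by
          rw [Matrix.star_mulVec, Matrix.conjTranspose_conjTranspose]
        rw [← he, h4, hwstar]
        simp
      have he0 : e = 0 := by
        by_contra hne
        set e' := U a⁻¹ *ᵥ e with he'
        have he'0 : e' ≠ 0 := fun h0 => hne (by
          have h5 := congrArg (U a *ᵥ ·) h0
          simpa [he', Matrix.mulVec_mulVec, ← map_mul] using h5)
        have h5 := hx e' he'0
        have h6 : rdot e' (η • U x *ᵥ e') = rdot e (η • U y *ᵥ e) := by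
          have hae : (U a⁻¹)ᴴ = U a := by rw [conjTranspose_hom hU, inv_inv]
          simp only [rdot, he', Matrix.star_mulVec, hae, ← Matrix.dotProduct_mulVec,
            Matrix.mulVec_smul, Matrix.mulVec_mulVec, ← map_mul, hya, mul_assoc]
        have h7 : rdot e (η • U y *ᵥ e) = 0 := by
          have h8 : star e ⬝ᵥ (U y *ᵥ e) = 0 := by
            rw [Matrix.star_dotProduct, horth, star_zero]
          rw [rdot, dotProduct_smul, h8, smul_zero, Complex.zero_re]
        rw [h6, h7] at h5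
        have := nsq_nonneg e'
        linarith
      refine (hW c).2 ?_
      rw [he, hD, Matrix.sub_mulVec, Matrix.one_mulVec, sub_eq_zero, Matrix.smul_mulVec] at he0
      exact he0
    simpa using hStinv _ hinv
  have hle : Subgroup.normalClosure ({x} : Set G) ≤
      ({ carrier := {g | St g}, mul_mem' := @hStmul, one_mem' := hStone,
         inv_mem' := @hStinv } : Subgroup G) := by
    rw [Subgroup.normalClosure, Subgroup.closure_le]
    intro y hy
    obtain ⟨x', hx', hconj⟩ := Group.mem_conjugatesOfSet_iff.1 hy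
    rw [Set.mem_singleton_iff] at hx'
    subst hx'
    obtain ⟨a, rfl⟩ := isConj_iff.1 hconj
    exact hall a
  exact (hW _).1 (hle hg v ((hW v).2 hv))

/-- Blichfeldt: in a nonabelian simple group only the identity has, in a nontrivial irreducible
representation, all eigenvalues within sixty degrees of one of them. -/
theorem eq_one_of_arc [IsSimpleGroup G] (hna : Subgroup.center G = ⊥) {d : ℕ}
    (ρ : Representation ℂ G (Fin d → ℂ)) [ρ.IsIrreducible] (hρ : ρ.character ≠ fun _ => 1)
    (x : G) (b : Module.Basis (Fin d) ℂ (Fin d → ℂ)) (z : Fin d → ℂ)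
    (hb : ∀ i, ρ x (b i) = z i • b i) (hz : ∀ i, ‖z i‖ = 1) (i₀ : Fin d)
    (hre : ∀ i, 1 / 2 < (conj (z i₀) * z i).re) : x = 1 := by
  classical
  obtain ⟨U, B, C, hU, hBC, hCB, hUeq⟩ := exists_unitary_similar ρ
  have hact : ∀ g v, U g *ᵥ (B *ᵥ v) = B *ᵥ (ρ g v) := by
    intro g v
    rw [hUeq, Matrix.mulVec_mulVec, mul_assoc, hCB, mul_one, ← Matrix.mulVec_mulVec]
    congr 1
    rw [← Matrix.toLin'_apply, Matrix.toLin'_toMatrix']
  let e : (Fin d → ℂ) ≃ₗ[ℂ] (Fin d → ℂ) := LinearEquiv.ofLinear (Matrix.toLin' B) (Matrix.toLin' C)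
    (by rw [← Matrix.toLin'_mul, hBC, Matrix.toLin'_one])
    (by rw [← Matrix.toLin'_mul, hCB, Matrix.toLin'_one])
  have he : ∀ v, e v = B *ᵥ v := fun v => Matrix.toLin'_apply B v
  have hb' : ∀ i, U x *ᵥ (b.map e) i = z i • (b.map e) i := fun i => by
    rw [Module.Basis.map_apply, he, hact, hb, Matrix.mulVec_smul]
  set η := conj (z i₀)
  have hη : ‖η‖ = 1 := by rw [Complex.norm_conj]; exact hz i₀
  have hlow := fun (v : Fin d → ℂ) (hv : v ≠ 0) => rdot_lower hU x η (b.map e) z hb' hz hre hv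
  by_contra hx1
  have htop : Subgroup.normalClosure ({x} : Set G) = ⊤ := by
    rcases (inferInstance : (Subgroup.normalClosure ({x} : Set G)).Normal).eq_bot_or_eq_top with h | h
    · exact absurd (Subgroup.mem_bot.1 (h ▸ Subgroup.subset_normalClosure rfl)) hx1
    · exact h
  -- the eigenspace of the chosen eigenvalue is invariant
  have hinv : ∀ (g : G) (v : Fin d → ℂ), ρ x v = z i₀ • v → ρ x (ρ g v) = z i₀ • ρ g v := by
    intro g v hv
    have hzc : η * z i₀ = 1 := by rw [Complex.conj_mul', hz i₀]; simp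
    have h1 := stable_of_near_one hU hη hlow g (htop ▸ Subgroup.mem_top g) (B *ᵥ v) (by
      rw [hact, hv, Matrix.mulVec_smul, smul_smul, hzc, one_smul])
    rw [hact g v, hact x, ← Matrix.mulVec_smul] at h1
    have h2 := congrArg (C *ᵥ ·) h1
    simp only [Matrix.mulVec_mulVec, hCB, Matrix.one_mulVec] at h2
    calc ρ x (ρ g v) = (z i₀ * η) • ρ x (ρ g v) := by rw [mul_comm, hzc, one_smul]
      _ = z i₀ • ρ g v := by rw [← smul_smul, h2]
  let W : Submodule ℂ (Fin d → ℂ) := Module.End.eigenspace (ρ x) (z i₀)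
  have hWbot : W ≠ ⊥ := fun h => b.ne_zero i₀ (by
    have : b i₀ ∈ W := Module.End.mem_eigenspace_iff.2 (hb i₀)
    simpa [h] using this)
  let S : Subrepresentation ρ :=
    ⟨W, fun g v hv => Module.End.mem_eigenspace_iff.2 (hinv g v (Module.End.mem_eigenspace_iff.1 hv))⟩
  have hS : S = ⊤ := by
    rcases eq_bot_or_eq_top S with h | h
    · exact absurd (congrArg Subrepresentation.toSubmodule h) hWbot
    · exact h
  have hsc : ∀ v, ρ x v = z i₀ • v := fun v => Module.End.mem_eigenspace_iff.1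
    (show v ∈ S.toSubmodule by rw [hS]; exact Submodule.mem_top)
  have hxmat : ρ x = z i₀ • (1 : Module.End ℂ (Fin d → ℂ)) := LinearMap.ext fun v => by
    simp [hsc v]
  rcases (inferInstance : (MonoidHom.ker ρ).Normal).eq_bot_or_eq_top with h | h
  · refine hx1 (Subgroup.mem_bot.1 (hna ▸ Subgroup.mem_center_iff.2 fun g => ?_))
    refine (MonoidHom.ker_eq_bot_iff ρ).1 h ?_
    rw [map_mul, map_mul, hxmat, mul_smul_comm, smul_mul_assoc, one_mul, mul_one]
  · refine hρ ?_
    have hone : ∀ g, ρ g = 1 := fun g => (show g ∈ MonoidHom.ker ρ by rw [h]; exact Subgroup.mem_top g)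
    -- a trivial irreducible representation is one-dimensional
    let L : Subrepresentation ρ := ⟨ℂ ∙ (b i₀), fun g v hv => by simpa [hone g] using hv⟩
    have hL : L = ⊤ := by
      rcases eq_bot_or_eq_top L with h' | h'
      · exact absurd (Submodule.span_singleton_eq_bot.1 (congrArg Subrepresentation.toSubmodule h'))
          (b.ne_zero i₀)
      · exact h'
    have hd : d = 1 := by
      have h1 : (ℂ ∙ (b i₀)) = (⊤ : Submodule ℂ (Fin d → ℂ)) := congrArg Subrepresentation.toSubmodule hL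
      have h2 := finrank_span_singleton (K := ℂ) (b.ne_zero i₀)
      rw [h1, finrank_top, Module.finrank_fin_fun] at h2
      exact h2
    funext g
    rw [Representation.character, hone g, LinearMap.trace_one, Module.finrank_fin_fun, hd,
      Nat.cast_one]

end Cfsg.Agent.PermGroups
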