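import Mathlib.NumberTheory.NumberField.Cyclotomic.Basic
import Mathlib.Analysis.Complex.Basic
import Mathlib.Algebra.Polynomial.BigOperators

/-!
Divisibility by an integer of an integral combination of the `p`-th roots of unity.
-/

set_option autoImplicit false

namespace Cfsg.Agent.PermGroups

open Polynomial IntermediateField

/-- A vanishing rational combination of all the `p`-th roots of unity has constant coefficients. -/
theorem coeff_const_of_sum_eq_zero {p : ℕ} (hp : p.Prime) {ζ : ℂ} (hζ : IsPrimitiveRoot ζ p)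
    (e : ℕ → ℤ) (h : ∑ i ∈ Finset.range p, (e i : ℂ) * ζ ^ i = 0) (i : ℕ) (hi : i < p) :
    e i = e (p - 1) := by
  have hz : ∑ i ∈ Finset.range p, ζ ^ i = 0 := hζ.geom_sum_eq_zero hp.one_lt
  have h1 : ∑ i ∈ Finset.range p, ((e i - e (p - 1) : ℤ) : ℂ) * ζ ^ i = 0 := by
    push_cast
    simp only [sub_mul, Finset.sum_sub_distrib, ← Finset.mul_sum, h, hz, mul_zero, sub_zero]
  have h2 : ∑ i ∈ Finset.range (p - 1), ((e i - e (p - 1) : ℤ) : ℂ) * ζ ^ i = 0 := by
    rw [← h1]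
    conv_rhs => rw [show p = p - 1 + 1 from (Nat.sub_add_cancel hp.one_le).symm,
      Finset.sum_range_succ]
    simp
  rcases lt_or_eq_of_le (Nat.le_sub_one_of_lt hi) with hlt | rfl
  swap
  · rfl
  have hdeg : (minpoly ℚ ζ).natDegree = p - 1 := by
    rw [← cyclotomic_eq_minpoly_rat hζ hp.pos, natDegree_cyclotomic, Nat.totient_prime hp]
  have hli := linearIndependent_pow (K := ℚ) ζ
  rw [hdeg, Fintype.linearIndependent_iff] at hli
  have h3 := hli (fun j => ((e j - e (p - 1) : ℤ) : ℚ)) (by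
    rw [← h2, ← Fin.sum_univ_eq_sum_range fun j => ((e j - e (p - 1) : ℤ) : ℂ) * ζ ^ j]
    refine Finset.sum_congr rfl fun j _ => ?_
    rw [Algebra.smul_def]
    simp) ⟨i, hlt⟩
  have h4 : e i - e (p - 1) = 0 := by exact_mod_cast h3
  omega

/-- If an integral combination of the `p`-th roots of unity is `m` times an algebraic integer,
the coefficients are congruent modulo `m` and the quotient is a combination of those roots. -/
theorem exists_quotient_coeff {p : ℕ} (hp : p.Prime) {ζ : ℂ} (hζ : IsPrimitiveRoot ζ p)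
    (a : ℕ → ℤ) (m : ℕ) (hm : 0 < m) {β : ℂ} (hβ : IsIntegral ℤ β)
    (h : ∑ i ∈ Finset.range p, (a i : ℂ) * ζ ^ i = m * β) :
    ∃ (t : ℤ) (c : ℕ → ℤ), (∀ i, i < p → a i = t + m * c i) ∧
      β = ∑ i ∈ Finset.range p, (c i : ℂ) * ζ ^ i := by
  haveI : Fact p.Prime := ⟨hp⟩
  haveI : NeZero p := ⟨hp.ne_zero⟩
  have hmC : (m : ℂ) ≠ 0 := by exact_mod_cast hm.ne'
  have hint : IsIntegral ℚ ζ := (hζ.isIntegral hp.pos).tower_top
  haveI hcyc : IsCyclotomicExtension {p} ℚ ℚ⟮ζ⟯ := by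
    change IsCyclotomicExtension {p} ℚ (ℚ⟮ζ⟯).toSubalgebra
    rw [IntermediateField.adjoin_simple_toSubalgebra_of_isAlgebraic hint.isAlgebraic]
    exact hζ.adjoin_isCyclotomicExtension ℚ
  let ζK : ℚ⟮ζ⟯ := AdjoinSimple.gen ℚ ζ
  have hζv : (ζK : ℂ) = ζ := AdjoinSimple.coe_gen ℚ ζ
  have hζK : IsPrimitiveRoot ζK p :=
    IsPrimitiveRoot.of_map_of_injective (f := algebraMap ℚ⟮ζ⟯ ℂ)
      (by simpa [IntermediateField.algebraMap_apply, hζv] using hζ) (algebraMap ℚ⟮ζ⟯ ℂ).injective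
  haveI := IsCyclotomicExtension.Rat.isIntegralClosure_adjoin_singleton_of_prime hζK
  let βK : ℚ⟮ζ⟯ := (m : ℚ⟮ζ⟯)⁻¹ * ∑ i ∈ Finset.range p, (a i : ℚ⟮ζ⟯) * ζK ^ i
  have hβK : algebraMap ℚ⟮ζ⟯ ℂ βK = β := by
    simp only [βK, map_mul, map_inv₀, map_natCast, map_sum, map_intCast, map_pow,
      IntermediateField.algebraMap_apply, hζv]
    rw [h, inv_mul_cancel_left₀ hmC]
  obtain ⟨y, hy⟩ := (IsIntegralClosure.isIntegral_iff
    (A := Algebra.adjoin ℤ ({ζK} : Set ℚ⟮ζ⟯))).1
    ((isIntegral_algebraMap_iff (R := ℤ) (algebraMap ℚ⟮ζ⟯ ℂ).injective).1 (hβK ▸ hβ))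
  obtain ⟨P, hP⟩ : ∃ P : ℤ[X], aeval ζK P = βK := by
    have := y.2
    obtain ⟨P, hP⟩ := (Algebra.adjoin_singleton_eq_range_aeval ℤ ζK).le this
    exact ⟨P, hP.trans hy⟩
  have hP' : aeval ζ P = β := by
    rw [← hβK, ← hP, ← aeval_algebraMap_apply]
    simp [IntermediateField.algebraMap_apply, hζv]
  have hq : (X ^ p - 1 : ℤ[X]).Monic := by simpa using monic_X_pow_sub_C (1 : ℤ) hp.ne_zero
  let R := P %ₘ (X ^ p - 1)
  have hR : aeval ζ R = β := by
    rw [← hP']
    conv_rhs => rw [← modByMonic_add_div P (X ^ p - 1 : ℤ[X])]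
    simp [R, hζ.pow_eq_one]
  have hRdeg : R.natDegree < p := by
    have := natDegree_modByMonic_lt P hq (fun h1 => by
      have h2 := congrArg natDegree h1
      rw [natDegree_one, show (1 : ℤ[X]) = C 1 from C_1.symm, natDegree_X_pow_sub_C] at h2
      exact hp.ne_zero h2)
    rwa [show (X ^ p - 1 : ℤ[X]) = X ^ p - C 1 by simp, natDegree_X_pow_sub_C,
      show (X ^ p - C (1 : ℤ)) = X ^ p - 1 by simp] at this
  have hβsum : β = ∑ i ∈ Finset.range p, (R.coeff i : ℂ) * ζ ^ i := by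
    rw [← hR, aeval_eq_sum_range' hRdeg]
    exact Finset.sum_congr rfl fun i _ => by simp [zsmul_eq_mul]
  refine ⟨a (p - 1) - m * R.coeff (p - 1), fun i => R.coeff i, fun i hi => ?_, hβsum⟩
  have h0 := coeff_const_of_sum_eq_zero hp hζ (fun j => a j - m * R.coeff j) (by
    push_cast
    simp only [sub_mul, Finset.sum_sub_distrib, mul_assoc, ← Finset.mul_sum, ← hβsum, h, sub_self])
    i hi
  linear_combination h0

/-- The form used for character values: nonnegative coefficients with total `m * N`, a quotient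
congruent to the small number `N`. -/
theorem card_support_le {p : ℕ} (hp : p.Prime) {ζ : ℂ} (hζ : IsPrimitiveRoot ζ p)
    (a : ℕ → ℕ) (m N : ℕ) (hm : 0 < m) (hN : N < p) (htot : ∑ i ∈ Finset.range p, a i = m * N)
    {β : ℂ} (hβ : IsIntegral ℤ β)
    (h : ∑ i ∈ Finset.range p, (a i : ℂ) * ζ ^ i = m * β)
    (hmod : ∀ c : ℕ → ℕ, β = ∑ i ∈ Finset.range p, (c i : ℂ) * ζ ^ i →
      (p : ℤ) ∣ (∑ i ∈ Finset.range p, c i : ℕ) - (N : ℤ)) :
    ((Finset.range p).filter fun i => a i ≠ 0).card ≤ N := by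
  obtain ⟨t, c, hc, hβc⟩ := exists_quotient_coeff hp hζ (fun i => (a i : ℤ)) m hm hβ
    (by exact_mod_cast h)
  obtain ⟨i₀, hi₀, hmin⟩ := Finset.exists_min_image (Finset.range p) c
    ⟨0, Finset.mem_range.2 hp.pos⟩
  let c' : ℕ → ℕ := fun i => (c i - c i₀).toNat
  have hc' : ∀ i, i < p → (c' i : ℤ) = c i - c i₀ := fun i hi =>
    Int.toNat_of_nonneg (by linarith [hmin i (Finset.mem_range.2 hi)])
  have ha : ∀ i, i < p → (a i : ℤ) = a i₀ + m * c' i := fun i hi => by
    rw [hc i hi, hc i₀ (Finset.mem_range.1 hi₀), hc' i hi]; ring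
  have hz : ∑ i ∈ Finset.range p, ζ ^ i = 0 := hζ.geom_sum_eq_zero hp.one_lt
  have hβ' : β = ∑ i ∈ Finset.range p, (c' i : ℂ) * ζ ^ i := by
    have : ∀ i ∈ Finset.range p, (c' i : ℂ) * ζ ^ i = (c i : ℂ) * ζ ^ i - (c i₀ : ℂ) * ζ ^ i :=
      fun i hi => by
        rw [← sub_mul]; congr 1
        exact_mod_cast hc' i (Finset.mem_range.1 hi)
    rw [Finset.sum_congr rfl this, Finset.sum_sub_distrib, ← Finset.mul_sum, hz, mul_zero,
      sub_zero, hβc]
  have hdvd := hmod c' hβ'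
  set S := ∑ i ∈ Finset.range p, c' i with hS
  have htot' : m * N = p * a i₀ + m * S := by
    have h1 : ((∑ i ∈ Finset.range p, a i : ℕ) : ℤ) = p * (a i₀ : ℤ) + m * (S : ℤ) := by
      rw [hS]; push_cast
      rw [Finset.sum_congr rfl fun i hi => ha i (Finset.mem_range.1 hi), Finset.sum_add_distrib,
        Finset.sum_const, Finset.card_range, nsmul_eq_mul, Finset.mul_sum]
    rw [htot] at h1
    exact_mod_cast h1
  have hSN : S ≤ N := Nat.le_of_mul_le_mul_left (by omega : m * S ≤ m * N) hm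
  have hSeq : S = N := by
    have h2 : (p : ℤ) ∣ (N : ℤ) - S := by
      have := hdvd.neg_right; rwa [neg_sub] at this
    have h3 := Int.le_of_dvd (a := (p : ℤ)) (b := (N : ℤ) - S)
    by_contra hne
    have := h3 (by omega) h2
    omega
  have ha0 : a i₀ = 0 := by
    rw [hSeq] at htot'
    have : p * a i₀ = 0 := by omega
    simpa [hp.ne_zero] using this
  calc ((Finset.range p).filter fun i => a i ≠ 0).card
      ≤ ∑ i ∈ (Finset.range p).filter (fun i => a i ≠ 0), c' i := by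
        rw [Finset.card_eq_sum_ones]
        refine Finset.sum_le_sum fun i hi => ?_
        obtain ⟨hi, hne⟩ := Finset.mem_filter.1 hi
        have h4 := ha i (Finset.mem_range.1 hi)
        rw [ha0] at h4
        rcases Nat.eq_zero_or_pos (c' i) with h5 | h5
        · rw [h5] at h4; simp at h4; exact absurd h4 hne
        · exact h5
    _ ≤ S := Finset.sum_le_sum_of_subset (Finset.filter_subset _ _)
    _ = N := hSeq

end Cfsg.Agent.PermGroups
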