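import Mathlib

/-!
The arithmetic condition on a Dickson pair `(q, n)`.
-/

namespace Cfsg.Agent.PermGroups

open Finset

/-- `1 + q + ... + q^(i-1)`. -/
def geomS (q i : ℕ) : ℕ := ∑ j ∈ Finset.range i, q ^ j

theorem geomS_add (q i j : ℕ) : geomS q (i + j) = geomS q i + q ^ i * geomS q j := by
  simp [geomS, Finset.sum_range_add, Finset.mul_sum, pow_add]

theorem geomS_mul (q a b : ℕ) : geomS q (a * b) = geomS q a * geomS (q ^ a) b := by
  induction b with
  | zero => simp [geomS]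
  | succ b ih =>
    rw [Nat.mul_succ, geomS_add, ih, show geomS (q ^ a) (b + 1) = geomS (q ^ a) b + (q ^ a) ^ b from
      by simp [geomS, Finset.sum_range_succ], ← pow_mul]
    ring

theorem geomS_dvd_of_dvd (q : ℕ) {a b : ℕ} (h : a ∣ b) : geomS q a ∣ geomS q b := by
  obtain ⟨c, rfl⟩ := h
  rw [geomS_mul]
  exact dvd_mul_right _ _

theorem sub_one_mul_geomS (q i : ℕ) (hq : 1 ≤ q) : q ^ i = (q - 1) * geomS q i + 1 := by
  induction i with
  | zero => simp [geomS]
  | succ i ih =>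
    rw [show geomS q (i + 1) = geomS q i + q ^ i from by simp [geomS, Finset.sum_range_succ],
      Nat.mul_add, Nat.add_right_comm, ← ih, pow_succ]
    conv_lhs => rw [show q = 1 + (q - 1) by omega, Nat.mul_add, mul_one, ← show q = 1 + (q - 1) by omega]
    ring

theorem geomS_modEq {q r : ℕ} (i : ℕ) (hq : q ≡ 1 [MOD r]) : geomS q i ≡ i [MOD r] := by
  induction i with
  | zero => rfl
  | succ i ih =>
    rw [show geomS q (i + 1) = geomS q i + q ^ i from by simp [geomS, Finset.sum_range_succ]]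
    exact ih.add ((hq.pow i).trans (by rw [one_pow]))

theorem prime_pow_dvd_geomS {q r : ℕ} (hq : q ≡ 1 [MOD r]) (e : ℕ) :
    r ^ e ∣ geomS q (r ^ e) := by
  induction e with
  | zero => simp
  | succ e ih =>
    rw [pow_succ, geomS_mul]
    refine Nat.mul_dvd_mul ih ?_
    rw [← Nat.modEq_zero_iff_dvd]
    exact (geomS_modEq r (by simpa using hq.pow (r ^ e))).trans (Nat.modEq_zero_iff_dvd.mpr dvd_rfl)

theorem dvd_geomS_self {q n : ℕ} (hn : n ≠ 0) (h : ∀ r : ℕ, r.Prime → r ∣ n → r ∣ q - 1)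
    (hq : 1 ≤ q) : n ∣ geomS q n := by
  rw [Nat.dvd_iff_prime_pow_dvd_dvd]
  intro r k hr hk
  rcases Nat.eq_zero_or_pos k with rfl | hk0
  · simp
  have hr' : q ≡ 1 [MOD r] :=
    ((Nat.modEq_iff_dvd' hq).mpr (h r hr ((dvd_pow_self r hk0.ne').trans hk))).symm
  have _ := hn
  exact (prime_pow_dvd_geomS hr' k).trans (geomS_dvd_of_dvd q hk)

/-- Exact power: `r ∥ 1 + x + ... + x^(r-1)`. -/
theorem not_sq_dvd_geomS {x r : ℕ} (hr : r.Prime) (hx : x ≡ 1 [MOD r])
    (h4 : r = 2 → x ≡ 1 [MOD 4]) : ¬ r ^ 2 ∣ geomS x r := by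
  intro hdvd
  have : Fact r.Prime := ⟨hr⟩
  rcases hr.eq_two_or_odd with h2 | hodd
  · subst h2
    have h := h4 rfl
    have he : geomS x 2 = 1 + x := by simp [geomS, Finset.sum_range_succ]
    rw [he] at hdvd
    unfold Nat.ModEq at h
    omega
  obtain ⟨y, hy⟩ : ∃ y : ZMod (r ^ 2), (x : ZMod (r ^ 2)) = 1 + (r : ZMod (r ^ 2)) * y := by
    refine ⟨(((x : ℤ) - 1) / r : ℤ), ?_⟩
    have h1 : (r : ℤ) ∣ (x : ℤ) - 1 := by
      have := Nat.modEq_iff_dvd.mp hx.symm
      simpa using this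
    have h2 : (x : ℤ) = 1 + (r : ℤ) * (((x : ℤ) - 1) / r) := by
      rw [Int.mul_ediv_cancel' h1]; ring
    have h3 := congrArg (fun z : ℤ => (z : ZMod (r ^ 2))) h2
    push_cast at h3
    exact h3
  have hrr : (r : ZMod (r ^ 2)) * r = 0 := by
    rw [← Nat.cast_mul, ← pow_two, ZMod.natCast_self]
  have hp : ∀ j : ℕ, (x : ZMod (r ^ 2)) ^ j = 1 + (j : ZMod (r ^ 2)) * (r * y) := by
    intro j
    induction j with
    | zero => simp
    | succ j ih =>
      rw [pow_succ (x : ZMod (r ^ 2)) j, ih, hy]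
      push_cast
      linear_combination (j : ZMod (r ^ 2)) * y * y * hrr
  have hsum : (geomS x r : ZMod (r ^ 2)) = r := by
    simp only [geomS, Nat.cast_sum, Nat.cast_pow, hp, Finset.sum_add_distrib, Finset.sum_const,
      Finset.card_range, nsmul_eq_mul, mul_one, ← Finset.sum_mul]
    rw [← Nat.cast_sum, Finset.sum_range_id]
    have hd : r ∣ r * (r - 1) / 2 := by
      rw [Nat.mul_div_assoc r (by omega)]
      exact dvd_mul_right _ _
    obtain ⟨c, hc⟩ := hd
    rw [hc, Nat.cast_mul]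
    linear_combination (c : ZMod (r ^ 2)) * y * hrr
  rw [(ZMod.natCast_eq_zero_iff _ _).mpr hdvd, eq_comm, ZMod.natCast_eq_zero_iff] at hsum
  have := Nat.le_of_dvd hr.pos hsum
  have := hr.two_le
  nlinarith

theorem exists_dvd_geomS {q k : ℕ} (hk : k ≠ 0) (hcop : q.Coprime k) :
    ∃ i, 0 < i ∧ i ≤ k ∧ k ∣ geomS q i := by
  obtain ⟨a, ha, b, hb, hab, heq⟩ := Finset.exists_ne_map_eq_of_card_lt_of_maps_to
    (s := Finset.range (k + 1)) (t := Finset.range k) (f := fun i => geomS q i % k)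
    (by simp) (fun i _ => Finset.mem_coe.mpr (Finset.mem_range.mpr (Nat.mod_lt _ (by omega))))
  wlog hlt : a < b generalizing a b
  · exact this b hb a ha hab.symm heq.symm (by omega)
  refine ⟨b - a, by omega, ?_, ?_⟩
  · rw [Finset.mem_range] at hb; omega
  · have h : geomS q a + q ^ a * geomS q (b - a) ≡ geomS q a + 0 [MOD k] := by
      rw [← geomS_add, Nat.add_sub_cancel' hlt.le, add_zero]
      exact Eq.symm heq
    exact (Nat.Coprime.pow_left a hcop).symm.dvd_of_dvd_mul_left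
      (Nat.modEq_zero_iff_dvd.mp h.add_left_cancel')

/-- The Dickson pair condition, with `n ∣ geomS q i` in place of `q^i ≡ 1 (mod n(q-1))`. -/
theorem dickson_pair_iff (q n : ℕ) (hq : 2 ≤ q) (hn : 1 < n) :
    ((∀ r : ℕ, r.Prime → r ∣ n → r ∣ q - 1) ∧ (4 ∣ n → 4 ∣ q - 1)) ↔
      (n ∣ geomS q n ∧ ∀ i : ℕ, 0 < i → i < n → ¬ n ∣ geomS q i) := by
  constructor
  · rintro ⟨hp, h4⟩
    have hS := dvd_geomS_self (by omega) hp (by omega : 1 ≤ q)
    refine ⟨hS, fun i hi hin hdi => ?_⟩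
    have hcop : q.Coprime n := Nat.coprime_of_dvd fun r hr hrq hrn => by
      have h1 := Nat.dvd_sub hrq (hp r hr hrn)
      rw [show q - (q - 1) = 1 by omega] at h1
      exact hr.one_lt.ne' (Nat.dvd_one.mp h1)
    have hex : ∃ d, 0 < d ∧ n ∣ geomS q d := ⟨i, hi, hdi⟩
    set d := Nat.find hex with hd
    obtain ⟨hd0, hdS⟩ := Nat.find_spec hex
    have hdiv : ∀ j, n ∣ geomS q j → d ∣ j := by
      intro j hj
      rw [← Nat.div_add_mod j d, geomS_add] at hj
      have h1 := (Nat.Coprime.pow_left (d * (j / d)) hcop).symm.dvd_of_dvd_mul_left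
        ((Nat.dvd_add_right (hdS.trans (geomS_dvd_of_dvd q (dvd_mul_right d (j / d))))).mp hj)
      by_contra hne
      have h2 : 0 < j % d := Nat.pos_of_ne_zero fun e => hne (Nat.dvd_of_mod_eq_zero e)
      exact Nat.find_min hex (Nat.mod_lt j hd0) ⟨h2, h1⟩
    obtain ⟨c, hc⟩ := hdiv n hS
    have hdi' : d ≤ i := Nat.find_min' hex ⟨hi, hdi⟩
    have hc1 : c ≠ 1 := fun e => by rw [e, mul_one] at hc; omega
    obtain ⟨r, hr, hrc⟩ := Nat.exists_prime_and_dvd hc1
    have hrn : r ∣ n := hc ▸ hrc.mul_left d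
    obtain ⟨e, k, hk, hnk⟩ := Nat.exists_eq_pow_mul_and_not_dvd (show n ≠ 0 by omega) r hr.one_lt.ne'
    have he : 1 ≤ e := Nat.one_le_iff_ne_zero.mpr fun e0 => hk (by
      have h0 : n = k := by rw [hnk, e0, pow_zero, one_mul]
      exact h0 ▸ hrn)
    have hmod : q ≡ 1 [MOD r] := ((Nat.modEq_iff_dvd' (by omega)).mpr (hp r hr hrn)).symm
    have hnr : n ∣ geomS q (r ^ (e - 1) * k) := by
      refine hdS.trans (geomS_dvd_of_dvd q ?_)
      obtain ⟨c', rfl⟩ := hrc
      refine ⟨c', Nat.eq_of_mul_eq_mul_left hr.pos ?_⟩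
      calc r * (r ^ (e - 1) * k) = r ^ (e - 1 + 1) * k := by ring
        _ = n := by rw [Nat.sub_add_cancel he, ← hnk]
        _ = r * (d * c') := by rw [hc]; ring
    have hexact : ∀ j, j + 1 ≤ e → ¬ r ^ (j + 1) ∣ geomS q (r ^ j) := by
      intro j
      induction j with
      | zero =>
        intro _ h
        simp [geomS] at h
        exact hr.one_lt.ne' h
      | succ j ih =>
        intro hj h
        obtain ⟨u, hu⟩ := prime_pow_dvd_geomS hmod j
        have hru : ¬ r ∣ u := fun hru => ih (by omega) (by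
          rw [hu, pow_succ]; exact Nat.mul_dvd_mul_left _ hru)
        rw [pow_succ r j, geomS_mul, hu, pow_succ r (j + 1), pow_succ r j, mul_assoc, mul_assoc] at h
        have h2 := (Nat.mul_dvd_mul_iff_left (pow_pos hr.pos j)).mp h
        rw [← pow_two] at h2
        refine not_sq_dvd_geomS hr (by simpa using hmod.pow (r ^ j)) (fun h2' => ?_)
          ((Nat.Coprime.pow_left 2 (hr.coprime_iff_not_dvd.mpr hru)).dvd_of_dvd_mul_left h2)
        subst h2'
        have h4n : 4 ∣ n := hnk ▸ dvd_mul_of_dvd_left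
          (show 2 ^ 2 ∣ 2 ^ e from pow_dvd_pow 2 (by omega)) k
        have h4q : q ≡ 1 [MOD 4] := ((Nat.modEq_iff_dvd' (by omega)).mpr (h4 h4n)).symm
        simpa using h4q.pow (2 ^ j)
    rw [geomS_mul] at hnr
    have h3 : r ^ e ∣ geomS q (r ^ (e - 1)) * geomS (q ^ r ^ (e - 1)) k :=
      (hnk ▸ dvd_mul_right (r ^ e) k).trans hnr
    have h5 : ¬ r ∣ geomS (q ^ r ^ (e - 1)) k := fun h => hk (by
      rw [← Nat.modEq_zero_iff_dvd] at h ⊢
      exact (geomS_modEq k (by simpa using hmod.pow (r ^ (e - 1)))).symm.trans h)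
    exact hexact (e - 1) (by omega) (by
      rw [Nat.sub_add_cancel he]
      exact (Nat.Coprime.pow_left e (hr.coprime_iff_not_dvd.mpr h5)).dvd_of_dvd_mul_right h3)
  · rintro ⟨hS, hmin⟩
    have hcop : q.Coprime n := Nat.coprime_of_dvd fun r hr hrq hrn => by
      have h1 := hrn.trans hS
      rw [show n = 1 + (n - 1) by omega, geomS_add, pow_one, show geomS q 1 = 1 by simp [geomS]] at h1
      exact hr.one_lt.ne' (Nat.dvd_one.mp
        ((Nat.dvd_add_left (hrq.trans (dvd_mul_right q _))).mp h1))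
    constructor
    · intro r hr hrn
      by_contra hrq
      obtain ⟨e, k, hk, hnk⟩ :=
        Nat.exists_eq_pow_mul_and_not_dvd (show n ≠ 0 by omega) r hr.one_lt.ne'
      have he : 1 ≤ e := Nat.one_le_iff_ne_zero.mpr fun e0 => hk (by
        have h0 : n = k := by rw [hnk, e0, pow_zero, one_mul]
        exact h0 ▸ hrn)
      have hk0 : k ≠ 0 := fun h => hk (h ▸ dvd_zero r)
      obtain ⟨i, hi0, hik, hiS⟩ := exists_dvd_geomS hk0
        (Nat.Coprime.coprime_dvd_right (hnk ▸ dvd_mul_left k _) hcop)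
      set t := Nat.totient (r ^ e) with ht
      have htpos : 0 < t := Nat.totient_pos.mpr (pow_pos hr.pos e)
      have htlt : t < r ^ e := Nat.totient_lt _ (Nat.one_lt_pow (by omega) hr.one_lt)
      refine hmin (t * i) (Nat.mul_pos htpos hi0) ?_ ?_
      · rw [hnk]
        calc t * i ≤ t * k := Nat.mul_le_mul_left t hik
          _ < r ^ e * k := Nat.mul_lt_mul_of_pos_right htlt (Nat.pos_of_ne_zero hk0)
      · rw [hnk]
        refine Nat.Coprime.mul_dvd_of_dvd_of_dvd
          (Nat.Coprime.pow_left e (hr.coprime_iff_not_dvd.mpr hk)) ?_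
          (hiS.trans (geomS_dvd_of_dvd q (dvd_mul_left i t)))
        refine Nat.Coprime.dvd_of_dvd_mul_left
          (Nat.Coprime.pow_left e (hr.coprime_iff_not_dvd.mpr hrq)) ?_
        have h1 : r ^ e ∣ q ^ (t * i) - 1 := by
          refine (Nat.modEq_iff_dvd' (Nat.one_le_pow _ _ (by omega))).mp (Eq.symm ?_)
          rw [pow_mul]
          have h3 := Nat.ModEq.pow i (Nat.ModEq.pow_totient
            (Nat.Coprime.coprime_dvd_right (hnk ▸ dvd_mul_right _ k) hcop : q.Coprime (r ^ e)))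
          rw [one_pow] at h3
          exact h3
        rwa [sub_one_mul_geomS q (t * i) (by omega), Nat.add_sub_cancel] at h1
    · intro h4n
      by_contra h4q
      obtain ⟨e, k, hk, hnk⟩ :=
        Nat.exists_eq_pow_mul_and_not_dvd (show n ≠ 0 by omega) 2 (by norm_num)
      have he : 2 ≤ e := by
        by_contra hlt
        have : e = 0 ∨ e = 1 := by omega
        rcases this with rfl | rfl <;> omega
      have hk0 : k ≠ 0 := fun h => hk (h ▸ dvd_zero 2)
      obtain ⟨i, hi0, hik, hiS⟩ := exists_dvd_geomS hk0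
        (Nat.Coprime.coprime_dvd_right (hnk ▸ dvd_mul_left k _) hcop)
      have hq3 : q % 4 = 3 := by
        have h2n : (2 : ℕ) ∣ n := (show (2 : ℕ) ∣ 4 by norm_num).trans h4n
        have := Nat.Coprime.coprime_dvd_right h2n hcop
        rw [Nat.coprime_two_right, Nat.odd_iff] at this
        omega
      have hpow : ∀ j, 2 ^ (j + 2) ∣ geomS q (2 ^ (j + 1)) := by
        intro j
        induction j with
        | zero =>
          rw [show geomS q (2 ^ (0 + 1)) = 1 + q by simp [geomS, Finset.sum_range_succ]]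
          omega
        | succ j ih =>
          rw [pow_succ 2 (j + 1), geomS_mul, pow_succ 2 (j + 2)]
          refine Nat.mul_dvd_mul ih ?_
          rw [← Nat.modEq_zero_iff_dvd]
          have h2 : q ≡ 1 [MOD 2] := by unfold Nat.ModEq; omega
          exact (geomS_modEq 2 (by simpa using h2.pow (2 ^ (j + 1)))).trans (by rfl)
      refine hmin (2 ^ (e - 1) * i) (Nat.mul_pos (by positivity) hi0) ?_ ?_
      · rw [hnk]
        calc 2 ^ (e - 1) * i ≤ 2 ^ (e - 1) * k := Nat.mul_le_mul_left _ hik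
          _ < 2 ^ e * k := Nat.mul_lt_mul_of_pos_right
            (Nat.pow_lt_pow_right (by norm_num) (by omega)) (Nat.pos_of_ne_zero hk0)
      · rw [hnk]
        refine Nat.Coprime.mul_dvd_of_dvd_of_dvd
          (Nat.Coprime.pow_left e ((Nat.prime_two.coprime_iff_not_dvd).mpr hk)) ?_
          (hiS.trans (geomS_dvd_of_dvd q (dvd_mul_left i _)))
        refine dvd_trans ?_ (geomS_dvd_of_dvd q (dvd_mul_right _ i))
        have := hpow (e - 2)
        rwa [show e - 2 + 2 = e by omega, show e - 2 + 1 = e - 1 by omega] at this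

end Cfsg.Agent.PermGroups
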