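import Cfsg.Agent.Forms.Models
import Cfsg.Prelude.Def_KGroupFacts

/-!
# Outer automorphisms of a 2-group which is a central extension by a quadratic space over `F_2`
-/

set_option autoImplicit false

namespace Cfsg.Agent.PermGroups.ExtraTwo

/-- `z ^ c` for `c` mod 2. -/
def zp {E : Type*} [Group E] (z : E) (c : ZMod 2) : E := z ^ c.val

/-- The data of a central extension of a quadratic space over `F_2` by a group of order two. -/
structure IsExt {E V : Type*} [Group E] [AddCommGroup V] [Module (ZMod 2) V] (z : E)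
    (π : E →* Multiplicative V) (Q : QuadraticForm (ZMod 2) V) : Prop where
  ne_one : z ≠ 1
  two : z * z = 1
  central : ∀ x : E, x * z = z * x
  surj : Function.Surjective π
  ker : ∀ x : E, π x = 1 ↔ x = 1 ∨ x = z
  sq : ∀ x : E, x * x = zp z (Q (Multiplicative.toAdd (π x)))
  nondeg : (QuadraticMap.polarBilin Q).Nondegenerate

namespace IsExt

variable {E V : Type*} [Group E] [AddCommGroup V] [Module (ZMod 2) V] {z : E}
  {π : E →* Multiplicative V} {Q : QuadraticForm (ZMod 2) V}

local notation "pv" => fun x => Multiplicative.toAdd (π x)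

variable (h : IsExt z π Q)
include h

theorem zp_add (a b : ZMod 2) : zp z (a + b) = zp z a * zp z b := by
  rw [zp, zp, zp, ← pow_add, ZMod.val_add, ← pow_eq_pow_mod _ (by rw [pow_two]; exact h.two)]

theorem zp_comm (a : ZMod 2) (x : E) : x * zp z a = zp z a * x := by
  have : Commute x z := h.central x
  exact this.pow_right _

theorem zp_inj {a b : ZMod 2} (hab : zp z a = zp z b) : a = b := by
  have key : ∀ c : ZMod 2, c = 0 ∨ c = 1 := by decide
  rcases key a with rfl | rfl <;> rcases key b with rfl | rfl <;>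
    simp [zp, ZMod.val_one, h.ne_one, h.ne_one.symm] at hab ⊢

theorem pv_zp (a : ZMod 2) : π (zp z a) = 1 := by
  rw [zp, map_pow, (h.ker z).2 (Or.inr rfl), one_pow]

theorem zp_mem {x : E} (hx : π x = 1) : ∃ a : ZMod 2, x = zp z a := by
  rcases (h.ker x).1 hx with rfl | rfl
  · exact ⟨0, by simp [zp]⟩
  · exact ⟨1, by simp [zp, ZMod.val_one]⟩

theorem eq_of_pv {x y : E} (hxy : π x = π y) : ∃ a : ZMod 2, x = y * zp z a := by
  obtain ⟨a, ha⟩ := h.zp_mem (x := y⁻¹ * x) (by rw [map_mul, map_inv, hxy, inv_mul_cancel])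
  exact ⟨a, by rw [← ha, mul_inv_cancel_left]⟩

theorem swap (x y : E) :
    y * x = zp z (QuadraticMap.polar Q (pv x) (pv y)) * (x * y) := by
  obtain ⟨c, hc⟩ := h.eq_of_pv (x := y * x) (y := x * y) (by rw [map_mul, map_mul, mul_comm])
  rw [h.zp_comm] at hc
  have e : (x * y) * (x * y) = zp z c * ((x * x) * (y * y)) := by
    calc (x * y) * (x * y) = x * (y * x) * y := by group
      _ = x * zp z c * (x * y) * y := by rw [hc]; group
      _ = zp z c * x * (x * y) * y := by rw [h.zp_comm]
      _ = zp z c * ((x * x) * (y * y)) := by group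
  rw [h.sq x, h.sq y, h.sq (x * y), ← h.zp_add, ← h.zp_add, map_mul, toAdd_mul] at e
  have hpol : c = QuadraticMap.polar Q (pv x) (pv y) := by
    have := h.zp_inj e
    simp only [QuadraticMap.polar]
    rw [this]
    ring
  rw [hc, hpol]

theorem map_z (α : MulAut E) : α z = z := by
  have hc : ∀ y : E, y * α z = α z * y := fun y => by
    have := congrArg α (h.central (α.symm y))
    simpa using this
  have h0 : Multiplicative.toAdd (π (α z)) = 0 := by
    refine h.nondeg.1 _ fun v => ?_
    obtain ⟨y, hy⟩ := h.surj (Multiplicative.ofAdd v)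
    have h1 := h.swap (α z) y
    rw [hc y] at h1
    have h2 : zp z (QuadraticMap.polar Q (pv (α z)) (pv y)) = zp z 0 := by
      simpa [zp] using h1.symm
    have h3 := h.zp_inj h2
    simpa [hy] using h3
  rcases (h.ker _).1 (toAdd_eq_zero.1 h0) with e | e
  · exact absurd ((EmbeddingLike.map_eq_one_iff).1 e) h.ne_one
  · exact e

theorem map_zp (α : MulAut E) (a : ZMod 2) : α (zp z a) = zp z a := by
  rw [zp, map_pow, h.map_z]

theorem pv_map_eq (α : MulAut E) {x y : E} (hxy : π x = π y) : π (α x) = π (α y) := by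
  obtain ⟨a, rfl⟩ := h.eq_of_pv hxy
  rw [map_mul, map_mul, h.map_zp, h.pv_zp, mul_one]

end IsExt

variable {E V : Type*} [Group E] [AddCommGroup V] [Module (ZMod 2) V] {z : E}
  {π : E →* Multiplicative V} {Q : QuadraticForm (ZMod 2) V}

/-- A section of `π`. -/
noncomputable def sec (h : IsExt z π Q) (v : V) : E := (h.surj (Multiplicative.ofAdd v)).choose

theorem pv_sec (h : IsExt z π Q) (v : V) : π (sec h v) = Multiplicative.ofAdd v :=
  (h.surj (Multiplicative.ofAdd v)).choose_spec

/-- The additive map induced by an automorphism on the quotient space. -/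
noncomputable def inducedAdd (h : IsExt z π Q) (α : MulAut E) : V →+ V :=
  AddMonoidHom.mk' (fun v => Multiplicative.toAdd (π (α (sec h v)))) fun v w => by
    rw [h.pv_map_eq α (x := sec h (v + w)) (y := sec h v * sec h w)
      (by simp [map_mul, pv_sec]), map_mul, map_mul, toAdd_mul]

theorem inducedAdd_pv (h : IsExt z π Q) (α : MulAut E) (x : E) :
    inducedAdd h α (Multiplicative.toAdd (π x)) = Multiplicative.toAdd (π (α x)) := by
  show Multiplicative.toAdd (π (α (sec h (Multiplicative.toAdd (π x))))) = _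
  rw [h.pv_map_eq α (y := x) (by rw [pv_sec]; rfl)]

/-- The linear automorphism induced on the quotient space. -/
noncomputable def induced (h : IsExt z π Q) : MulAut E →* (V ≃ₗ[ZMod 2] V) where
  toFun α := LinearEquiv.ofLinear ((inducedAdd h α).toZModLinearMap 2)
    ((inducedAdd h α⁻¹).toZModLinearMap 2)
    (LinearMap.ext fun v => by
      obtain ⟨x, hx⟩ := h.surj (Multiplicative.ofAdd v)
      obtain rfl : v = Multiplicative.toAdd (π x) := by rw [hx]; rfl
      simp [inducedAdd_pv])
    (LinearMap.ext fun v => by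
      obtain ⟨x, hx⟩ := h.surj (Multiplicative.ofAdd v)
      obtain rfl : v = Multiplicative.toAdd (π x) := by rw [hx]; rfl
      simp [inducedAdd_pv])
  map_one' := LinearEquiv.ext fun v => by
    obtain ⟨x, hx⟩ := h.surj (Multiplicative.ofAdd v)
    obtain rfl : v = Multiplicative.toAdd (π x) := by rw [hx]; rfl
    simp [inducedAdd_pv]
  map_mul' α β := LinearEquiv.ext fun v => by
    obtain ⟨x, hx⟩ := h.surj (Multiplicative.ofAdd v)
    obtain rfl : v = Multiplicative.toAdd (π x) := by rw [hx]; rfl
    simp [inducedAdd_pv]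

theorem induced_pv (h : IsExt z π Q) (α : MulAut E) (x : E) :
    induced h α (Multiplicative.toAdd (π x)) = Multiplicative.toAdd (π (α x)) :=
  inducedAdd_pv h α x

theorem induced_isometry (h : IsExt z π Q) (α : MulAut E) (v : V) :
    Q (induced h α v) = Q v := by
  obtain ⟨x, hx⟩ := h.surj (Multiplicative.ofAdd v)
  obtain rfl : v = Multiplicative.toAdd (π x) := by rw [hx]; rfl
  rw [induced_pv]
  apply h.zp_inj
  rw [← h.sq, ← map_mul, h.sq, h.map_zp]

theorem induced_eq_one_iff [Finite E] (h : IsExt z π Q) (α : MulAut E) :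
    induced h α = 1 ↔ α ∈ Cfsg.Inn E := by
  have : Finite V := Finite.of_surjective (fun x => Multiplicative.toAdd (π x))
    fun v => h.surj (Multiplicative.ofAdd v)
  constructor
  · intro h1
    have hp : ∀ x, π (α x) = π x := fun x => Multiplicative.toAdd.injective (by
      rw [← induced_pv h α x, h1]; rfl)
    have hg : ∀ x, ∃ a : ZMod 2, α x = x * zp z a := fun x => h.eq_of_pv (hp x)
    choose g hg using hg
    have hgmul : ∀ x y, g (x * y) = g x + g y := fun x y => h.zp_inj (mul_left_cancel
      (a := x * y) (by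
        rw [← hg, map_mul, hg, hg, h.zp_add]
        calc x * zp z (g x) * (y * zp z (g y))
            = x * (zp z (g x) * y) * zp z (g y) := by group
          _ = x * y * (zp z (g x) * zp z (g y)) := by rw [← h.zp_comm]; group))
    have hgz : ∀ a, g (zp z a) = 0 := fun a => h.zp_inj (mul_left_cancel (a := zp z a) (by
      rw [← hg, h.map_zp]; simp [zp]))
    have hgw : ∀ x y, π x = π y → g x = g y := fun x y hxy => by
      obtain ⟨a, rfl⟩ := h.eq_of_pv hxy
      rw [hgmul, hgz, add_zero]
    let f : V →+ ZMod 2 := AddMonoidHom.mk' (fun v => g (sec h v)) fun v w => by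
      rw [← hgmul]
      exact hgw _ _ (by simp [map_mul, pv_sec])
    let u := (LinearMap.BilinForm.toDual (QuadraticMap.polarBilin Q) h.nondeg).symm
      (f.toZModLinearMap 2)
    have hu : ∀ v, QuadraticMap.polar Q u v = f v := fun v => by
      have := LinearMap.congr_fun
        ((LinearMap.BilinForm.toDual (QuadraticMap.polarBilin Q) h.nondeg).apply_symm_apply
          (f.toZModLinearMap 2)) v
      rw [LinearMap.BilinForm.toDual_def] at this
      exact this
    refine ⟨sec h u, MulEquiv.ext fun x => ?_⟩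
    have h2 := h.swap x (sec h u)
    have h3 : g x = QuadraticMap.polar Q u (Multiplicative.toAdd (π x)) := by
      rw [hu]; exact hgw _ _ (by rw [pv_sec]; rfl)
    simp only [pv_sec, toAdd_ofAdd] at h2
    rw [QuadraticMap.polar_comm, ← h3] at h2
    rw [MulAut.conj_apply, h2, hg x]
    calc zp z (g x) * (x * sec h u) * (sec h u)⁻¹ = zp z (g x) * x := by group
      _ = x * zp z (g x) := (h.zp_comm _ _).symm
  · rintro ⟨e, rfl⟩
    refine LinearEquiv.ext fun v => ?_
    obtain ⟨x, hx⟩ := h.surj (Multiplicative.ofAdd v)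
    obtain rfl : v = Multiplicative.toAdd (π x) := by rw [hx]; rfl
    have hπ : π (MulAut.conj e x) = π x := by
      rw [MulAut.conj_apply, map_mul π, map_mul π, map_inv π, mul_comm (π e) (π x),
        mul_assoc, mul_inv_cancel, mul_one]
    rw [induced_pv, hπ]
    rfl

/-- Every isometry of the quotient space lifts to an automorphism. -/
theorem exists_lift [Finite E] (h : IsExt z π Q) (L : V ≃ₗ[ZMod 2] V) (hL : ∀ v, Q (L v) = Q v) :
    ∃ α : MulAut E, induced h α = L := by
  let D : Subgroup (E × E) :=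
  { carrier := {p | Multiplicative.toAdd (π p.2) = L (Multiplicative.toAdd (π p.1))}
    one_mem' := by simp
    mul_mem' := fun {a b} ha hb => by
      simp only [Set.mem_setOf_eq] at ha hb ⊢
      simp [map_mul, ha, hb]
    inv_mem' := fun {a} ha => by
      simp only [Set.mem_setOf_eq] at ha ⊢
      simp [map_inv, ha] }
  have hD : ∀ {p : E × E}, p ∈ D ↔
      Multiplicative.toAdd (π p.2) = L (Multiplicative.toAdd (π p.1)) := Iff.rfl
  let P : Subgroup (E × E) → Prop := fun M =>
    M ≤ D ∧ (z, z) ∈ M ∧ ((z, 1) : E × E) ∉ M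
  have hP0 : P (Subgroup.zpowers ((z, z) : E × E)) := by
    refine ⟨(Subgroup.zpowers_le).2 ?_, Subgroup.mem_zpowers _, ?_⟩
    · rw [hD]; simp [(h.ker z).2 (Or.inr rfl)]
    · rintro ⟨k, hk⟩
      simp only [Prod.pow_mk, Prod.mk.injEq] at hk
      exact h.ne_one (hk.1.symm.trans hk.2)
  obtain ⟨M, hM⟩ := (Set.toFinite {M | P M}).exists_maximal ⟨_, hP0⟩
  obtain ⟨hMD, hzz, hz1⟩ := hM.1
  have hdiag : ∀ a, ((zp z a, zp z a) : E × E) ∈ M := fun a => by
    have := pow_mem hzz a.val
    rwa [Prod.pow_mk] at this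
  have hsq : ∀ p ∈ D, p * p ∈ M := fun p hp => by
    rw [Prod.mul_def, h.sq, h.sq, hD.1 hp, hL]
    exact hdiag _
  have hconj : ∀ p ∈ D, ∀ m ∈ M, p * m * p⁻¹ ∈ M := fun p hp m hm => by
    have hm' := hD.1 (hMD hm)
    have hp' := hD.1 hp
    have e : p * m = (zp z (QuadraticMap.polar Q (Multiplicative.toAdd (π m.1))
        (Multiplicative.toAdd (π p.1))), zp z (QuadraticMap.polar Q (Multiplicative.toAdd (π m.1))
        (Multiplicative.toAdd (π p.1)))) * (m * p) := by
      refine Prod.ext (h.swap m.1 p.1) ?_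
      show p.2 * m.2 = _
      rw [h.swap m.2 p.2]
      simp [hm', hp', QuadraticMap.polar, ← map_add, hL]
    rw [e, mul_assoc, mul_assoc, mul_inv_cancel, mul_one]
    exact mul_mem (hdiag _) hm
  have hext : ∀ p ∈ D, p ∉ M → ((z, 1) : E × E) * p⁻¹ ∈ M := by
    intro p hp hpM
    let M' : Subgroup (E × E) :=
    { carrier := {d | d ∈ M ∨ d * p⁻¹ ∈ M}
      one_mem' := Or.inl (one_mem _)
      mul_mem' := fun {a b} ha hb => by
        rcases ha with ha | ha <;> rcases hb with hb | hb
        · exact Or.inl (mul_mem ha hb)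
        · exact Or.inr (by rw [mul_assoc]; exact mul_mem ha hb)
        · refine Or.inr ?_
          have := mul_mem ha (hconj p hp b hb)
          rwa [show a * p⁻¹ * (p * b * p⁻¹) = a * b * p⁻¹ by group] at this
        · refine Or.inl ?_
          have := mul_mem (mul_mem ha (hconj p hp _ hb)) (hsq p hp)
          rwa [show a * p⁻¹ * (p * (b * p⁻¹) * p⁻¹) * (p * p) = a * b by group] at this
      inv_mem' := fun {a} ha => by
        rcases ha with ha | ha
        · exact Or.inl (inv_mem ha)
        · refine Or.inr ?_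
          have := mul_mem (hconj p⁻¹ (inv_mem hp) _ (inv_mem ha)) (inv_mem (hsq p hp))
          rwa [show p⁻¹ * (a * p⁻¹)⁻¹ * p⁻¹⁻¹ * (p * p)⁻¹ = a⁻¹ * p⁻¹ by group] at this }
    have hle : M ≤ M' := fun d hd => Or.inl hd
    have hpM' : p ∈ M' := Or.inr (by rw [mul_inv_cancel]; exact one_mem _)
    have hM'D : M' ≤ D := by
      rintro d (hd | hd)
      · exact hMD hd
      · have := mul_mem (hMD hd) hp
        rwa [inv_mul_cancel_right] at this
    by_contra hn
    refine hpM (hM.2 (y := M') ⟨hM'D, hle hzz, ?_⟩ hle hpM')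
    rintro (hc | hc)
    · exact hz1 hc
    · exact hn hc
  have hex : ∀ x : E, ∃ y : E, ((x, y) : E × E) ∈ M := by
    intro x
    obtain ⟨y, hy⟩ := h.surj (Multiplicative.ofAdd (L (Multiplicative.toAdd (π x))))
    have hxy : ((x, y) : E × E) ∈ D := by rw [hD, hy]; rfl
    by_cases hc : ((x, y) : E × E) ∈ M
    · exact ⟨y, hc⟩
    · refine ⟨y * z, ?_⟩
      have := mul_mem (inv_mem (hext _ hxy hc)) hzz
      rw [mul_inv_rev, inv_inv] at this
      rwa [Prod.inv_mk, inv_one, Prod.mk_mul_mk, Prod.mk_mul_mk, mul_one, inv_mul_cancel_right]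
        at this
  have hbad : ∀ a b : E, ((a, b) : E × E) ∈ M → (a = 1 ↔ b = 1) := by
    intro a b hab
    have hab' := hD.1 (hMD hab)
    constructor <;> rintro rfl
    · simp only [map_one, toAdd_one, map_zero] at hab'
      rcases (h.ker b).1 (toAdd_eq_zero.1 hab') with e | e
      · exact e
      · exact absurd (by
          have := mul_mem hab hzz
          rw [e, Prod.mk_mul_mk, one_mul, h.two] at this
          exact this) hz1
    · simp only [map_one, toAdd_one] at hab'
      rcases (h.ker a).1 (toAdd_eq_zero.1 ((LinearEquiv.map_eq_zero_iff L).1 hab'.symm)) with e | e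
      · exact e
      · exact absurd (e ▸ hab) hz1
  have huniq : ∀ {x y y' : E}, ((x, y) : E × E) ∈ M → ((x, y') : E × E) ∈ M → y = y' := by
    intro x y y' h1 h2
    have := mul_mem h1 (inv_mem h2)
    rw [Prod.inv_mk, Prod.mk_mul_mk, mul_inv_cancel] at this
    exact mul_inv_eq_one.1 ((hbad _ _ this).1 rfl)
  choose f hf using hex
  let F : E →* E := MonoidHom.mk' f fun a b =>
    huniq (hf (a * b)) (by simpa using mul_mem (hf a) (hf b))
  have hinj : Function.Injective F := by
    refine (injective_iff_map_eq_one F).2 fun a ha => ?_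
    have : f a = 1 := ha
    exact (hbad _ _ (hf a)).2 this
  refine ⟨MulEquiv.ofBijective F ⟨hinj, Finite.surjective_of_injective hinj⟩, ?_⟩
  refine LinearEquiv.ext fun v => ?_
  obtain ⟨x, hx⟩ := h.surj (Multiplicative.ofAdd v)
  obtain rfl : v = Multiplicative.toAdd (π x) := by rw [hx]; rfl
  rw [induced_pv]
  exact hD.1 (hMD (hf x))

/-- The outer automorphism group is the isometry group. -/
theorem out_equiv {ι : Type} [Fintype ι] [DecidableEq ι] [Finite E] {z : E}
    {π : E →* Multiplicative (ι → ZMod 2)} {Q : QuadraticForm (ZMod 2) (ι → ZMod 2)}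
    (h : IsExt z π Q) : Nonempty (Cfsg.Out E ≃* Cfsg.isometryGroup (ZMod 2) ⇑Q) := by
  let Φ : MulAut E →* Cfsg.isometryGroup (ZMod 2) ⇑Q :=
    ((Forms.glEquiv ι (ZMod 2)).symm.toMonoidHom.comp (induced h)).codRestrict _ fun α => by
      rw [Forms.mem_isometryGroup_iff]
      intro v
      simp only [MonoidHom.comp_apply, MulEquiv.coe_toMonoidHom]
      rw [Forms.glEquiv_symm_mulVec]
      exact induced_isometry h α v
  have hker : Φ.ker = Cfsg.Inn E := by
    ext α
    rw [MonoidHom.mem_ker, ← induced_eq_one_iff h α, Subtype.ext_iff]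
    exact map_eq_one_iff _ (Forms.glEquiv ι (ZMod 2)).symm.injective
  have hsurj : Function.Surjective Φ := by
    intro g
    have hg : ∀ v, Q ((g.1 : Matrix ι ι (ZMod 2)).mulVec v) = Q v :=
      Forms.mem_isometryGroup_iff.1 g.2
    obtain ⟨α, hα⟩ := exists_lift h (Forms.glEquiv ι (ZMod 2) g.1) fun v => by
      rw [Forms.glEquiv_apply]; exact hg v
    refine ⟨α, Subtype.ext ?_⟩
    show (Forms.glEquiv ι (ZMod 2)).symm (induced h α) = g.1
    rw [hα, MulEquiv.symm_apply_apply]
  exact ⟨(QuotientGroup.quotientMulEquivOfEq hker.symm).trans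
    (QuotientGroup.quotientKerEquivOfSurjective Φ hsurj)⟩

end Cfsg.Agent.PermGroups.ExtraTwo
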