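import Cfsg.Agent.PermGroups.SetAlternating

/-!
A four-transitive group in which no five-set has a transposition or a four-cycle induced has
degree six.
-/

set_option autoImplicit false
set_option linter.unusedSectionVars false
set_option linter.style.haveILetI false

namespace Cfsg.Agent.PermGroups

open MulAction
open scoped Classical Pointwise

universe u

variable {α : Type u} [Fintype α] [DecidableEq α]

/-- No five-set has an odd permutation induced. -/
def EvenFive (G : Subgroup (Equiv.Perm α)) : Prop :=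
  ∀ g ∈ G, ∀ a b c d e : α, [a, b, c, d, e].Nodup →
    ¬ (g a = b ∧ g b = a ∧ g c = c ∧ g d = d ∧ g e = e) ∧
    ¬ (g a = b ∧ g b = c ∧ g c = d ∧ g d = a ∧ g e = e)

theorem natCard_fixing_three_odd {G : Subgroup (Equiv.Perm α)} (hE : EvenFive G) (T : Finset α)
    (hT : T.card = 3) : ¬ 2 ∣ Nat.card (fixingSubgroup G (T : Set α)) := by
  intro h
  obtain ⟨y, hy⟩ := exists_prime_orderOf_dvd_card' 2 h
  have hy' : orderOf ((y : G) : Equiv.Perm α) = 2 := by rw [Subgroup.orderOf_coe, Subgroup.orderOf_coe, hy]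
  set g : Equiv.Perm α := ((y : G) : Equiv.Perm α) with hg
  obtain ⟨x, hx⟩ : ∃ x, g x ≠ x := by
    by_contra hno
    push Not at hno
    rw [show g = 1 from Equiv.ext hno, orderOf_one] at hy'
    omega
  have hgg : g (g x) = x := by
    rw [← Equiv.Perm.mul_apply, ← sq, ← hy', pow_orderOf_eq_one]; rfl
  obtain ⟨p, q, r, hpq, hpr, hqr, rfl⟩ := Finset.card_eq_three.1 hT
  have hfix : ∀ z ∈ ({p, q, r} : Finset α), g z = z := fun z hz => mem_fix_iff.1 y.2 z hz
  have hne : ∀ z ∈ ({p, q, r} : Finset α), x ≠ z ∧ g x ≠ z := fun z hz =>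
    ⟨fun e => hx (e ▸ hfix z hz), fun e => hx (g.injective (e.symm ▸ hfix z hz :))⟩
  refine (hE g (y : G).2 x (g x) p q r ?_).1 ⟨rfl, hgg, hfix p (by simp), hfix q (by simp), hfix r (by simp)⟩
  simp only [List.nodup_cons, List.mem_cons, List.not_mem_nil, or_false, not_or, List.nodup_nil, and_true,
    not_false_eq_true]
  exact ⟨⟨hx.symm, (hne p (by simp)).1, (hne q (by simp)).1, (hne r (by simp)).1⟩,
    ⟨(hne p (by simp)).2, (hne q (by simp)).2, (hne r (by simp)).2⟩, ⟨hpq, hpr⟩, hqr⟩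

theorem sq_fix_of_two_power {G : Subgroup (Equiv.Perm α)} {H : Subgroup G}
    (hH : ¬ 2 ∣ Nat.card H) {g : G} {i : ℕ} (hi : g ^ 2 ^ i = 1) (hg : g ∈ H) : g = 1 := by
  have h1 := (orderOf_dvd_of_pow_eq_one hi)
  obtain ⟨j, -, hj⟩ := (Nat.dvd_prime_pow Nat.prime_two).1 h1
  have h2 : orderOf g ∣ Nat.card H := Subgroup.orderOf_dvd_natCard _ hg
  rcases Nat.eq_zero_or_pos j with rfl | hj0
  · exact orderOf_eq_one_iff.1 (by rw [hj, pow_zero])
  · exact absurd ((dvd_pow_self 2 hj0.ne').trans (hj ▸ h2)) hH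

/-- An involution fixes at most two points. -/
theorem involution_fix_le_two {G : Subgroup (Equiv.Perm α)} (hE : EvenFive G) {y : G} (hy : y ^ 2 = 1)
    (hy1 : y ≠ 1) : (fixFinset y : Finset α).card ≤ 2 := by
  by_contra h
  obtain ⟨T, hT, hTc⟩ := Finset.exists_subset_card_eq (s := (fixFinset y : Finset α)) (n := 3) (by omega)
  exact hy1 (sq_fix_of_two_power (natCard_fixing_three_odd hE T hTc) (i := 1) (by simpa using hy)
    (mem_fix_iff.2 fun x hx => mem_fixFinset.1 (hT hx)))

/-- A permutation of order two of four points is induced by an involution. -/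
theorem exists_involution {G : Subgroup (Equiv.Perm α)} (h4 : IsMultiplyPretransitive G α 4)
    (hE : EvenFive G) (q : Finset α) (hq : q.card = 4) (f : α → α) (hf : Set.InjOn f q)
    (hff : ∀ x ∈ q, f x ∈ q ∧ f (f x) = x) (hf1 : ∃ x ∈ q, f x ≠ x) :
    ∃ y : G, y ^ 2 = 1 ∧ y ≠ 1 ∧ ∀ x ∈ q, y • x = f x := by
  obtain ⟨g, hg, hgq⟩ := exists_extend h4 q hq f hf
  obtain ⟨i, m, hm, hord⟩ := Nat.exists_eq_two_pow_mul_odd (orderOf_pos (⟨g, hg⟩ : G)).ne'
  set y : G := (⟨g, hg⟩ : G) ^ m with hy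
  have hgy : ∀ x ∈ q, y • x = f x := by
    intro x hx
    obtain ⟨j, rfl⟩ := hm
    show ((g ^ (2 * j + 1)) : Equiv.Perm α) x = f x
    have h2 : ∀ (j : ℕ), ∀ x ∈ q, (g ^ (2 * j)) x = x := by
      intro j
      induction j with
      | zero => intro x _; rfl
      | succ j ih =>
        intro x hx
        rw [mul_add, mul_one, pow_add, Equiv.Perm.mul_apply, pow_two, Equiv.Perm.mul_apply, hgq x hx,
          hgq _ (hff x hx).1, (hff x hx).2, ih x hx]
    rw [pow_succ, Equiv.Perm.mul_apply, hgq x hx, h2 j _ (hff x hx).1]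
  have hy2i : y ^ 2 ^ i = 1 := by rw [hy, ← pow_mul, mul_comm, ← hord, pow_orderOf_eq_one]
  obtain ⟨T, hT, hTc⟩ := Finset.exists_subset_card_eq (s := q) (n := 3) (by omega)
  refine ⟨y, sq_fix_of_two_power (natCard_fixing_three_odd hE T hTc) (i := i) ?_ (mem_fix_iff.2 fun x hx => ?_),
    fun e => ?_, hgy⟩
  · rw [← pow_mul, mul_comm, pow_mul, hy2i, one_pow]
  · rw [sq, mul_smul, hgy x (hT hx), hgy _ (hff x (hT hx)).1, (hff x (hT hx)).2]
  · obtain ⟨x, hx, hfx⟩ := hf1
    have h := hgy x hx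
    rw [e, one_smul] at h
    exact hfx h.symm

theorem sign_eq_one_of_odd_order {σ : Equiv.Perm α} (h : ¬ 2 ∣ orderOf σ) : Equiv.Perm.sign σ = 1 := by
  rcases Int.units_eq_one_or (Equiv.Perm.sign σ) with e | e
  · exact e
  · exfalso
    have h1 := congrArg Equiv.Perm.sign (pow_orderOf_eq_one σ)
    rw [map_pow, e, map_one, (Nat.odd_iff.2 (by omega)).neg_one_pow] at h1
    exact absurd h1 (by decide)

/-- The sign of an involution. -/
theorem sign_involution {σ : Equiv.Perm α} (hσ : σ ^ 2 = 1) :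
    Equiv.Perm.sign σ = (-1) ^ (σ.support.card / 2) := by
  rcases eq_or_ne σ 1 with rfl | h1
  · simp
  obtain ⟨n, hn⟩ := Equiv.Perm.cycleType_prime_order (σ := σ)
    (by rw [orderOf_eq_prime hσ h1]; exact Nat.prime_two)
  have hsum := σ.sum_cycleType
  rw [hn, orderOf_eq_prime hσ h1, Multiset.sum_replicate, smul_eq_mul] at hsum
  rw [Equiv.Perm.sign_of_cycleType, hn, orderOf_eq_prime hσ h1, Multiset.sum_replicate,
    Multiset.card_replicate, smul_eq_mul, ← hsum, Nat.mul_div_cancel _ two_pos, pow_add, mul_comm (n + 1) 2,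
    pow_mul]
  simp

/-- The conjugates by a subgroup of odd order normalised by an involution exhaust the involutions of
its coset. -/
theorem natCard_coset_involutions_dvd {H : Type*} [Group H] [Finite H] (F : Subgroup H)
    (hF : ¬ 2 ∣ Nat.card F) {v : H} (hv : v ^ 2 = 1) (hv1 : v ≠ 1)
    (hnorm : ∀ f ∈ F, v * f * v⁻¹ ∈ F) :
    Nat.card {y : H // y ^ 2 = 1 ∧ y ≠ 1 ∧ y * v ∈ F} ∣ Nat.card F := by
  have hvi : v⁻¹ = v := inv_eq_of_mul_eq_one_right (by rw [← sq]; exact hv)
  have hn : ∀ f ∈ F, v * f * v ∈ F := fun f hf => by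
    have := hnorm f hf
    rwa [hvi] at this
  have hvv : v * v = 1 := by rw [← sq]; exact hv
  let J : Subgroup H :=
    { carrier := {g | g ∈ F ∨ g * v ∈ F}
      one_mem' := Or.inl F.one_mem
      mul_mem' := fun {g h} hg hh => by
        rcases hg with hg | hg <;> rcases hh with hh | hh
        · exact Or.inl (F.mul_mem hg hh)
        · exact Or.inr (by rw [mul_assoc]; exact F.mul_mem hg hh)
        · refine Or.inr ?_
          rw [show g * h * v = (g * v) * (v * h * v) by simp only [mul_assoc]; rw [← mul_assoc v v, hvv, one_mul]]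
          exact F.mul_mem hg (hn h hh)
        · refine Or.inl ?_
          rw [show g * h = (g * v) * (v * (h * v) * v) by
            simp only [mul_assoc]; rw [← mul_assoc v v, hvv, one_mul, mul_one]]
          exact F.mul_mem hg (hn _ hh)
      inv_mem' := fun {g} hg => by
        rcases hg with hg | hg
        · exact Or.inl (F.inv_mem hg)
        · refine Or.inr ?_
          rw [show g⁻¹ * v = v * (g * v)⁻¹ * v by rw [mul_inv_rev, ← mul_assoc v, mul_inv_cancel, one_mul]]
          exact hn _ (F.inv_mem hg) }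
  have hvJ : v ∈ J := Or.inr (by rw [hvv]; exact F.one_mem)
  have hvF : v ∉ F := fun h => hF ((orderOf_eq_prime hv hv1) ▸ Subgroup.orderOf_dvd_natCard _ h)
  let e : F × Bool → J := fun z =>
    ⟨if z.2 then (z.1 : H) * v else z.1, by
      obtain ⟨f, b⟩ := z
      cases b
      · exact Or.inl f.2
      · exact Or.inr (by
          show (f : H) * v * v ∈ F
          rw [mul_assoc, hvv, mul_one]; exact f.2)⟩
  have hbij : Function.Bijective e := by
    refine ⟨fun ⟨f, b⟩ ⟨f', b'⟩ h => ?_, fun ⟨g, hg⟩ => ?_⟩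
    · have h' : (if b then (f : H) * v else f) = if b' then (f' : H) * v else f' := congrArg Subtype.val h
      cases b <;> cases b' <;> simp at h'
      · rw [h']
      · exact absurd (by rw [show v = (f' : H)⁻¹ * f by rw [h', inv_mul_cancel_left]]; exact F.mul_mem (F.inv_mem f'.2) f.2) hvF
      · exact absurd (by rw [show v = (f : H)⁻¹ * f' by rw [← h', inv_mul_cancel_left]]; exact F.mul_mem (F.inv_mem f.2) f'.2) hvF
      · rw [h']
    · rcases hg with hg | hg
      · exact ⟨(⟨g, hg⟩, false), rfl⟩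
      · exact ⟨(⟨g * v, hg⟩, true), Subtype.ext (by show g * v * v = g; rw [mul_assoc, hvv, mul_one])⟩
  have hcardJ : Nat.card J = 2 * Nat.card F := by
    rw [← Nat.card_eq_of_bijective e hbij, Nat.card_prod, Nat.card_eq_fintype_card (α := Bool), Fintype.card_bool,
      mul_comm]
  haveI : Fact (Nat.Prime 2) := ⟨Nat.prime_two⟩
  have hfac : (Nat.card J).factorization 2 = 1 := by
    rw [hcardJ, Nat.factorization_mul two_ne_zero Nat.card_pos.ne', Finsupp.add_apply,
      Nat.Prime.factorization_self Nat.prime_two, Nat.factorization_eq_zero_of_not_dvd hF]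
  have hsyl : ∀ y : J, y ^ 2 = 1 → y ≠ 1 → Nat.card (Subgroup.zpowers y) = 2 ^ (Nat.card J).factorization 2 := by
    intro y h1 h2
    rw [Nat.card_zpowers, orderOf_eq_prime h1 h2, hfac, pow_one]
  -- conjugation by `F`
  letI : MulAction F H := MulAction.compHom H ((ConjAct.toConjAct (G := H)).toMonoidHom.comp F.subtype)
  have hsmul : ∀ (f : F) (y : H), f • y = (f : H) * y * (f : H)⁻¹ := fun f y => ConjAct.toConjAct_smul (f : H) y
  have hset : {y : H | y ^ 2 = 1 ∧ y ≠ 1 ∧ y * v ∈ F} = orbit F v := by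
    ext y
    refine ⟨fun ⟨h1, h2, h3⟩ => ?_, ?_⟩
    · have hyJ : y ∈ J := Or.inr h3
      obtain ⟨j, hj⟩ := exists_smul_eq J
        (Sylow.ofCard (Subgroup.zpowers (⟨v, hvJ⟩ : J)) (hsyl _ (Subtype.ext hv) fun e => hv1 (congrArg Subtype.val e)))
        (Sylow.ofCard (Subgroup.zpowers (⟨y, hyJ⟩ : J)) (hsyl _ (Subtype.ext h1) fun e => h2 (congrArg Subtype.val e)))
      have hmem : MulAut.conj j • (⟨v, hvJ⟩ : J) ∈ Subgroup.zpowers (⟨y, hyJ⟩ : J) := by
        have h := Subgroup.smul_mem_pointwise_smul _ (MulAut.conj j) _ (Subgroup.mem_zpowers (⟨v, hvJ⟩ : J))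
        have e : MulAut.conj j • Subgroup.zpowers (⟨v, hvJ⟩ : J) = Subgroup.zpowers (⟨y, hyJ⟩ : J) :=
          congrArg (fun S : Sylow 2 J => (S : Subgroup J)) hj
        rwa [e] at h
      obtain ⟨i, hi⟩ := Subgroup.mem_zpowers_iff.1 hmem
      have hi' : y ^ i = (j : H) * v * (j : H)⁻¹ := congrArg Subtype.val hi
      have hodd : y ^ i = y := by
        rcases Int.even_or_odd' i with ⟨c, rfl | rfl⟩
        · exfalso
          rw [zpow_mul, zpow_two, ← sq, h1, one_zpow, eq_comm, conj_eq_one_iff] at hi'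
          exact hv1 hi'
        · rw [zpow_add_one, zpow_mul, zpow_two, ← sq, h1, one_zpow, one_mul]
      rw [hodd] at hi'
      rcases j.2 with hjF | hjF
      · exact ⟨⟨j, hjF⟩, by show (⟨(j : H), hjF⟩ : F) • v = y; rw [hsmul]; exact hi'.symm⟩
      · refine ⟨⟨(j : H) * v, hjF⟩, ?_⟩
        show (⟨(j : H) * v, hjF⟩ : F) • v = y
        rw [hsmul, hi']
        simp [mul_assoc]
    · rintro ⟨f, rfl⟩
      show (f • v) ^ 2 = 1 ∧ f • v ≠ 1 ∧ f • v * v ∈ F
      rw [hsmul]
      refine ⟨by rw [conj_pow, hv, mul_one, mul_inv_cancel], fun h => hv1 (conj_eq_one_iff.1 h), ?_⟩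
      rw [show (f : H) * v * (f : H)⁻¹ * v = f * (v * (f : H)⁻¹ * v) by simp only [mul_assoc]]
      exact F.mul_mem f.2 (hn _ (F.inv_mem f.2))
  have h : Nat.card (orbit F v) ∣ Nat.card F := by
    rw [Nat.card_coe_set_eq, ← index_stabilizer]
    exact Subgroup.index_dvd_card _
  rwa [← hset] at h

/-- Facts on the centraliser of a double transposition in the symmetric group of degree four. -/
theorem dihedral_eight :
    Nat.card (Subgroup.centralizer {Equiv.swap (0 : Fin 4) 1 * Equiv.swap 2 3} : Subgroup (Equiv.Perm (Fin 4))) = 8 ∧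
      ∀ σ ∈ ([Equiv.swap 0 1, Equiv.swap 2 3, Equiv.swap 0 2 * Equiv.swap 1 3] : List (Equiv.Perm (Fin 4))),
        σ * (Equiv.swap (0 : Fin 4) 1 * Equiv.swap 2 3) = Equiv.swap (0 : Fin 4) 1 * Equiv.swap 2 3 * σ := by
  refine ⟨?_, by decide +kernel⟩
  rw [Nat.card_eq_fintype_card, Fintype.card_subtype]
  simp only [Subgroup.mem_centralizer_singleton_iff]
  decide +kernel

set_option maxHeartbeats 4000000 in
/-- The degree is six. -/
theorem degree_eq_six : ∀ n : ℕ, ∀ {α : Type u} [Fintype α] [DecidableEq α], Fintype.card α = n →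
    ∀ G : Subgroup (Equiv.Perm α), IsMultiplyPretransitive G α 4 → EvenFive G → 5 ≤ n → n = 6 := by
  intro n
  induction n using Nat.strong_induction_on with
  | _ n ih =>
  intro α _ _ hn G h4 hE hn5
  subst hn
  by_contra hne6
  -- degree even
  obtain ⟨q, -, hqc⟩ := Finset.exists_subset_card_eq (s := (Finset.univ : Finset α)) (n := 4)
    (by rw [Finset.card_univ]; omega)
  obtain ⟨l, hl⟩ : ∃ l : Fin 4 ↪ α, ∀ i, l i ∈ q :=
    ⟨⟨fun i => ((q.equivFinOfCardEq hqc).symm i : α), fun i j h => (q.equivFinOfCardEq hqc).symm.injective (Subtype.ext h)⟩,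
      fun i => ((q.equivFinOfCardEq hqc).symm i).2⟩
  have hqeq : q = Finset.univ.map l := (Finset.eq_of_subset_of_card_le
    (fun x hx => by obtain ⟨i, -, rfl⟩ := Finset.mem_map.1 hx; exact hl i)
    (by rw [hqc, Finset.card_map, Finset.card_univ, Fintype.card_fin])).symm
  have hlne : ∀ i j, i ≠ j → l i ≠ l j := fun i j h e => h (l.injective e)
  have hpat : ∀ π : Equiv.Perm (Fin 4), π * π = 1 → π ≠ 1 →
      ∃ y : G, y ^ 2 = 1 ∧ y ≠ 1 ∧ ∀ i, y • l i = l (π i) := by
    intro π hπ hπ1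
    have hF : ∀ i, Equiv.Perm.viaEmbedding π l (l i) = l (π i) := fun i => Equiv.Perm.viaEmbedding_apply π l i
    obtain ⟨y, h1, h2, h3⟩ := exists_involution h4 hE q hqc (Equiv.Perm.viaEmbedding π l)
      ((Equiv.injective _).injOn) (fun x hx => by
        rw [hqeq] at hx
        obtain ⟨i, -, rfl⟩ := Finset.mem_map.1 hx
        rw [hF, hF, ← Equiv.Perm.mul_apply, hπ]
        exact ⟨hl _, rfl⟩) (by
        obtain ⟨i, hi⟩ : ∃ i, π i ≠ i := by
          by_contra h
          push Not at h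
          exact hπ1 (Equiv.ext h)
        exact ⟨l i, hl i, by rw [hF]; exact hlne _ _ hi⟩)
    exact ⟨y, h1, h2, fun i => by rw [h3 _ (hl i), hF]⟩
  have hfsub : ∀ (y : G) (z : α), y ^ 2 = 1 → y • y • z = z := fun y z h => by
    rw [← mul_smul, ← sq, h, one_smul]
  have hmod : ∀ y : G, y ^ 2 = 1 → Fintype.card α ≡ (fixFinset y : Finset α).card [MOD 2] := fun y h =>
    card_fixFinset_modEq_two (by rw [← sq]; exact h)
  have heven : 2 ∣ Fintype.card α := by
    obtain ⟨s, hs2, hs1, hs⟩ := hpat (Equiv.swap 0 1) (Equiv.swap_mul_self _ _) (by decide)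
    have hle := involution_fix_le_two hE hs2 hs1
    have hsub : ({l 2, l 3} : Finset α) ⊆ fixFinset s := by
      intro x hx
      simp only [Finset.mem_insert, Finset.mem_singleton] at hx
      rcases hx with rfl | rfl <;> rw [mem_fixFinset, hs] <;> congr 1
    have h2 := Finset.card_le_card hsub
    rw [Finset.card_pair (hlne 2 3 (by decide))] at h2
    have h := hmod s hs2
    unfold Nat.ModEq at h
    omega
  have hn6 : 6 ≤ Fintype.card α := by omega
  -- the parity of involutions with fixed points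
  have hsupp : ∀ y : G, (fixFinset y : Finset α).card + ((y : Equiv.Perm α)).support.card = Fintype.card α := by
    intro y
    rw [show ((y : Equiv.Perm α)).support = Finset.univ \ fixFinset y from by
      ext x
      simp [Equiv.Perm.mem_support, fixFinset]
      rfl]
    rw [Finset.card_sdiff, Finset.inter_univ, Finset.card_univ]
    have := Finset.card_le_univ (fixFinset y : Finset α)
    omega
  have hsignG : ∀ y : G, y ^ 2 = 1 →
      Equiv.Perm.sign (y : Equiv.Perm α) = (-1) ^ ((Fintype.card α - (fixFinset y : Finset α).card) / 2) := by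
    intro y h
    rw [sign_involution (by rw [← SubgroupClass.coe_pow, h]; rfl), ← hsupp y, Nat.add_sub_cancel_left]
  have hfix2 : ∀ y : G, y ^ 2 = 1 → y ≠ 1 → (∃ x : α, y • x = x) → (fixFinset y : Finset α).card = 2 := by
    intro y h1 h2 ⟨x, hx⟩
    have hle := involution_fix_le_two hE h1 h2
    have hpos : 0 < (fixFinset y : Finset α).card := Finset.card_pos.2 ⟨x, mem_fixFinset.2 hx⟩
    have h := hmod y h1
    unfold Nat.ModEq at h
    omega
  have hmod4 : 2 ∣ (Fintype.card α - 2) / 2 := by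
    by_contra hodd
    set a := l 0
    set b := l 1
    have hab : a ≠ b := hlne 0 1 (by decide)
    set Y : Subgroup G := fixingSubgroup G (({a, b} : Finset α) : Set α) ⊓
      (Equiv.Perm.sign.comp G.subtype).ker with hY
    set R : Finset α := Finset.univ \ {a, b} with hR
    have hsw : ∀ x ∈ R, ∀ z ∈ R, x ≠ z → ∃ t : G, t • a = a ∧ t • b = b ∧ t • x = z ∧
        Equiv.Perm.sign (t : Equiv.Perm α) = -1 := by
      intro x hx z hz hxz
      simp only [hR, Finset.mem_sdiff, Finset.mem_univ, true_and, Finset.mem_insert, Finset.mem_singleton, not_or] at hx hz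
      obtain ⟨t, ht2, ht1, ht⟩ := exists_involution h4 hE {a, b, x, z}
        (by simp [hab, (Ne.symm hx.1), (Ne.symm hx.2), (Ne.symm hz.1), (Ne.symm hz.2), hxz])
        (Equiv.swap x z) ((Equiv.injective _).injOn) (fun w hw => by
          refine ⟨?_, Equiv.swap_apply_self _ _ _⟩
          simp only [Finset.mem_insert, Finset.mem_singleton] at hw ⊢
          rw [Equiv.swap_apply_def]
          split_ifs <;> tauto) ⟨x, by simp, by rw [Equiv.swap_apply_left]; exact hxz.symm⟩
      have hta : t • a = a := by rw [ht a (by simp), Equiv.swap_apply_of_ne_of_ne (Ne.symm hx.1) (Ne.symm hz.1)]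
      refine ⟨t, hta, by rw [ht b (by simp), Equiv.swap_apply_of_ne_of_ne (Ne.symm hx.2) (Ne.symm hz.2)],
        by rw [ht x (by simp), Equiv.swap_apply_left], ?_⟩
      rw [hsignG t ht2, hfix2 t ht2 ht1 ⟨a, hta⟩]
      exact (Nat.odd_iff.2 (by omega)).neg_one_pow
    have hRc : R.card = Fintype.card α - 2 := by
      rw [hR, Finset.card_sdiff, Finset.inter_univ, Finset.card_pair hab, Finset.card_univ]
    obtain ⟨x, hx⟩ := Finset.card_pos.1 (show 0 < R.card by omega)
    have horb : (orbit Y x) = (R : Set α) := by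
      refine Set.Subset.antisymm ?_ fun z hz => ?_
      · rintro _ ⟨⟨g, hg⟩, rfl⟩
        have h1 := mem_fix_iff.1 hg.1
        simp only [hR, Finset.coe_sdiff, Set.mem_sdiff, Finset.coe_univ, Set.mem_univ, true_and]
        intro hmem
        have hmem' : g • x ∈ ({a, b} : Finset α) := hmem
        have e : g • x = x := smul_left_cancel g (h1 _ hmem')
        rw [e] at hmem'
        exact (Finset.mem_sdiff.1 hx).2 hmem'
      · rcases eq_or_ne x z with rfl | hxz
        · exact mem_orbit_self x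
        have hz' : z ∈ R := hz
        obtain ⟨w, hw⟩ : ∃ w ∈ R, w ≠ x ∧ w ≠ z := by
          obtain ⟨w, hw⟩ := Finset.card_pos.1 (show 0 < ((R.erase x).erase z).card by
            rw [Finset.card_erase_of_mem (Finset.mem_erase.2 ⟨hxz.symm, hz'⟩), Finset.card_erase_of_mem hx, hRc]
            omega)
          simp only [Finset.mem_erase] at hw
          exact ⟨w, hw.2.2, hw.2.1, hw.1⟩
        obtain ⟨t, ta, tb, tx, ts⟩ := hsw x hx w hw.1 hw.2.1.symm
        obtain ⟨t', ta', tb', tx', ts'⟩ := hsw w hw.1 z hz' hw.2.2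
        refine ⟨⟨t' * t, Subgroup.mem_inf.2 ⟨mem_fix_iff.2 fun u hu => ?_, ?_⟩⟩, ?_⟩
        · simp only [Finset.mem_insert, Finset.mem_singleton] at hu
          rcases hu with rfl | rfl
          · rw [mul_smul, ta, ta']
          · rw [mul_smul, tb, tb']
        · rw [MonoidHom.mem_ker, MonoidHom.comp_apply, map_mul, map_mul]
          show Equiv.Perm.sign (t' : Equiv.Perm α) * Equiv.Perm.sign (t : Equiv.Perm α) = 1
          rw [ts, ts']; rfl
        · show (t' * t) • x = z
          rw [mul_smul, tx, tx']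
    have hdvd : 2 ∣ Nat.card Y := by
      have h1 : Nat.card (orbit Y x) ∣ Nat.card Y := by
        rw [Nat.card_coe_set_eq, ← index_stabilizer]
        exact Subgroup.index_dvd_card _
      rw [horb, Nat.card_coe_set_eq, Set.ncard_coe_finset, hRc] at h1
      refine dvd_trans ?_ h1
      omega
    obtain ⟨y, hy⟩ := exists_prime_orderOf_dvd_card' 2 hdvd
    have hy2 : (y : G) ^ 2 = 1 := by
      rw [← SubgroupClass.coe_pow, ← hy, pow_orderOf_eq_one, OneMemClass.coe_one]
    have hy1 : (y : G) ≠ 1 := fun e => by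
      rw [← Subgroup.orderOf_coe, e, orderOf_one] at hy
      omega
    have hs : Equiv.Perm.sign ((y : G) : Equiv.Perm α) = 1 := y.2.2
    rw [hsignG _ hy2, hfix2 _ hy2 hy1 ⟨a, mem_fix_iff.1 y.2.1 a (by simp)⟩,
      (Nat.odd_iff.2 (by omega : ((Fintype.card α - 2) / 2) % 2 = 1)).neg_one_pow] at hs
    exact absurd hs (by decide)
  have hevensign : ∀ y : G, y ^ 2 = 1 → y ≠ 1 → (∃ x : α, y • x = x) → Equiv.Perm.sign (y : Equiv.Perm α) = 1 := by
    intro y h1 h2 h3
    rw [hsignG y h1, hfix2 y h1 h2 h3]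
    exact (even_iff_two_dvd.2 hmod4).neg_one_pow
  -- involutions with two transpositions on four points fix two points
  have htwo : ∀ y : G, y ^ 2 = 1 → ∀ a b c d : α, [a, b, c, d].Nodup → y • a = b → y • c = d →
      (fixFinset y : Finset α).card = 2 := by
    intro y h1 a b c d hnd hab hcd
    simp only [List.nodup_cons, List.mem_cons, List.not_mem_nil, or_false, not_or, List.nodup_nil, and_true,
      not_false_eq_true] at hnd
    obtain ⟨⟨nab, nac, nad⟩, ⟨nbc, nbd⟩, ncd⟩ := hnd
    have hba : y • b = a := by rw [← hab, hfsub y a h1]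
    have hdc : y • d = c := by rw [← hcd, hfsub y c h1]
    have hy1 : y ≠ 1 := fun e => nab (by rw [← hab, e, one_smul])
    have mk : ∀ p q r s : α, p ≠ q → p ≠ r → p ≠ s → q ≠ r → q ≠ s → r ≠ s →
        ∃ t : G, t ^ 2 = 1 ∧ t ≠ 1 ∧ t • p = q ∧ t • q = p ∧ t • r = r ∧ t • s = s := by
      intro p q r s h1 h2 h3 h4' h5 h6
      obtain ⟨t, ht2, ht1, ht⟩ := exists_involution h4 hE {p, q, r, s}
        (by simp [h1, h2, h3, h4', h5, h6]) (Equiv.swap p q) ((Equiv.injective _).injOn) (fun w hw => by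
          refine ⟨?_, Equiv.swap_apply_self _ _ _⟩
          simp only [Finset.mem_insert, Finset.mem_singleton] at hw ⊢
          rw [Equiv.swap_apply_def]
          split_ifs <;> tauto) ⟨p, by simp, by rw [Equiv.swap_apply_left]; exact h1.symm⟩
      exact ⟨t, ht2, ht1, by rw [ht p (by simp), Equiv.swap_apply_left],
        by rw [ht q (by simp), Equiv.swap_apply_right],
        by rw [ht r (by simp), Equiv.swap_apply_of_ne_of_ne h2.symm h4'.symm],
        by rw [ht s (by simp), Equiv.swap_apply_of_ne_of_ne h3.symm h5.symm]⟩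
    obtain ⟨s, hs2, hs1, sa, sb, sc, sd⟩ := mk a b c d nab nac nad nbc nbd ncd
    obtain ⟨t, ht2, ht1, tc, td, ta, tb⟩ := mk c d a b ncd (Ne.symm nac) (Ne.symm nbc) (Ne.symm nad) (Ne.symm nbd) nab
    have hmem : s * t * y ∈ fixingSubgroup G (({a, b, c} : Finset α) : Set α) := mem_fix_iff.2 fun w hw => by
      simp only [Finset.mem_insert, Finset.mem_singleton] at hw
      rcases hw with rfl | rfl | rfl <;> simp only [mul_smul]
      · rw [hab, tb, sb]
      · rw [hba, ta, sa]
      · rw [hcd, td, sc]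
    have hodd : ¬ 2 ∣ orderOf ((s * t * y : G) : Equiv.Perm α) := fun h => by
      refine natCard_fixing_three_odd hE {a, b, c} (by simp [nab, nac, nbc]) (h.trans ?_)
      rw [Subgroup.orderOf_coe]
      exact Subgroup.orderOf_dvd_natCard _ hmem
    have hsign := sign_eq_one_of_odd_order hodd
    rw [Subgroup.coe_mul, Subgroup.coe_mul, map_mul, map_mul, hevensign s hs2 hs1 ⟨c, sc⟩,
      hevensign t ht2 ht1 ⟨a, ta⟩, one_mul, one_mul, hsignG y h1] at hsign
    have hle := involution_fix_le_two hE h1 hy1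
    have h := hmod y h1
    unfold Nat.ModEq at h
    by_contra hne
    have h0 : (fixFinset y : Finset α).card = 0 := by omega
    rw [h0, (Nat.odd_iff.2 (by omega : ((Fintype.card α - 0) / 2) % 2 = 1)).neg_one_pow] at hsign
    exact absurd hsign (by decide)
  have hall : ∀ y : G, y ^ 2 = 1 → ∀ a : α, y • a ≠ a → (fixFinset y : Finset α).card = 2 := by
    intro y h1 a ha
    by_cases hx : ∃ x : α, y • x = x
    · exact hfix2 y h1 (fun e => ha (by rw [e, one_smul])) hx
    · push Not at hx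
      obtain ⟨c, hc⟩ := Finset.card_pos.1 (show 0 < (Finset.univ \ {a, y • a} : Finset α).card by
        rw [Finset.card_sdiff, Finset.inter_univ, Finset.card_univ]
        have : ({a, y • a} : Finset α).card ≤ 2 := Finset.card_le_two
        omega)
      simp only [Finset.mem_sdiff, Finset.mem_univ, true_and, Finset.mem_insert, Finset.mem_singleton, not_or] at hc
      have hya := hfsub y a h1
      refine htwo y h1 a (y • a) c (y • c) ?_ rfl rfl
      simp only [List.nodup_cons, List.mem_cons, List.not_mem_nil, or_false, not_or, List.nodup_nil, and_true,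
        not_false_eq_true]
      refine ⟨⟨ha.symm, (Ne.symm hc.1), fun e => hc.2 ?_⟩, ⟨Ne.symm hc.2, fun e => hc.1 (smul_left_cancel y e).symm⟩, (hx c).symm⟩
      rw [e, hfsub y c h1]
  -- counting the involutions exchanging two points
  haveI : Fintype G := Fintype.ofFinite G
  set a := l 0 with ha
  set b := l 1 with hb
  set c₀ := l 2 with hc₀
  set d₀ := l 3 with hd₀
  have hab : a ≠ b := hlne 0 1 (by decide)
  set I : Finset G := Finset.univ.filter fun y => y ^ 2 = 1 ∧ y • a = b with hI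
  set R : Finset α := Finset.univ \ {a, b} with hR
  have hRc : R.card = Fintype.card α - 2 := by
    rw [hR, Finset.card_sdiff, Finset.inter_univ, Finset.card_pair hab, Finset.card_univ]
  set P := R.offDiag with hP
  have hc₀R : c₀ ∈ R := by simp [hR, hc₀, ha, hb, hlne 2 0 (by decide), hlne 2 1 (by decide)]
  have hd₀R : d₀ ∈ R := by simp [hR, hd₀, ha, hb, hlne 3 0 (by decide), hlne 3 1 (by decide)]
  have hP₀ : (c₀, d₀) ∈ P := Finset.mem_offDiag.2 ⟨hc₀R, hd₀R, hlne 2 3 (by decide)⟩
  let fx : α × α → Finset G := fun z => I.filter fun y => y • z.1 = z.1 ∧ y • z.2 = z.2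
  let sw : α × α → Finset G := fun z => I.filter fun y => y • z.1 = z.2
  have hconst : ∀ z ∈ P, (fx z).card = (fx (c₀, d₀)).card ∧ (sw z).card = (sw (c₀, d₀)).card := by
    rintro ⟨c, d⟩ hz
    obtain ⟨hc, hd, hcd⟩ := Finset.mem_offDiag.1 hz
    simp only [hR, Finset.mem_sdiff, Finset.mem_univ, true_and, Finset.mem_insert, Finset.mem_singleton, not_or] at hc hd
    obtain ⟨h, h1, h2, h3, h4'⟩ := exists_move_four h4 (a := a) (b := b) (c := c₀) (d := d₀)
      (a' := a) (b' := b) (c' := c) (d' := d)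
      (List.nodup_ofFn.2 l.injective : (List.ofFn (l : Fin 4 → α)).Nodup)
      (by simp [hab, (Ne.symm hc.1), (Ne.symm hc.2), (Ne.symm hd.1), (Ne.symm hd.2), hcd])
    have hI' : ∀ y ∈ I, h * y * h⁻¹ ∈ I ∧ h⁻¹ * y * h ∈ I := by
      intro y hy
      simp only [hI, Finset.mem_filter, Finset.mem_univ, true_and] at hy ⊢
      have ha' : h⁻¹ • a = a := inv_smul_eq_iff.2 h1.symm
      refine ⟨⟨by rw [conj_pow, hy.1, mul_one, mul_inv_cancel], by rw [mul_smul, mul_smul, ha', hy.2, h2]⟩, ?_, ?_⟩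
      · have : h⁻¹ * y * h = h⁻¹ * y * (h⁻¹)⁻¹ := by rw [inv_inv]
        rw [this, conj_pow, hy.1, mul_one, mul_inv_cancel]
      · rw [mul_smul, mul_smul, h1, hy.2, inv_smul_eq_iff, h2]
    have hc' : h⁻¹ • c = c₀ := inv_smul_eq_iff.2 h3.symm
    have hd' : h⁻¹ • d = d₀ := inv_smul_eq_iff.2 h4'.symm
    refine ⟨(Finset.card_bij' (fun y _ => h * y * h⁻¹) (fun y _ => h⁻¹ * y * h) ?_ ?_ ?_ ?_).symm,
      (Finset.card_bij' (fun y _ => h * y * h⁻¹) (fun y _ => h⁻¹ * y * h) ?_ ?_ ?_ ?_).symm⟩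
    · intro y hy
      obtain ⟨hy, e1, e2⟩ := Finset.mem_filter.1 hy
      refine Finset.mem_filter.2 ⟨(hI' y hy).1, ?_, ?_⟩
      · show (h * y * h⁻¹) • c = c
        rw [mul_smul, mul_smul, hc', e1, h3]
      · show (h * y * h⁻¹) • d = d
        rw [mul_smul, mul_smul, hd', e2, h4']
    · intro y hy
      obtain ⟨hy, e1, e2⟩ := Finset.mem_filter.1 hy
      refine Finset.mem_filter.2 ⟨(hI' y hy).2, ?_, ?_⟩
      · show (h⁻¹ * y * h) • c₀ = c₀
        rw [mul_smul, mul_smul, h3, e1, hc']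
      · show (h⁻¹ * y * h) • d₀ = d₀
        rw [mul_smul, mul_smul, h4', e2, hd']
    · intro y _; simp [mul_assoc]
    · intro y _; simp [mul_assoc]
    · intro y hy
      obtain ⟨hy, e1⟩ := Finset.mem_filter.1 hy
      refine Finset.mem_filter.2 ⟨(hI' y hy).1, ?_⟩
      show (h * y * h⁻¹) • c = d
      rw [mul_smul, mul_smul, hc', e1, h4']
    · intro y hy
      obtain ⟨hy, e1⟩ := Finset.mem_filter.1 hy
      refine Finset.mem_filter.2 ⟨(hI' y hy).2, ?_⟩
      show (h⁻¹ * y * h) • c₀ = d₀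
      rw [mul_smul, mul_smul, h3, e1, hd']
    · intro y _; simp [mul_assoc]
    · intro y _; simp [mul_assoc]
  have hIfix : ∀ y ∈ I, (fixFinset y : Finset α) ⊆ R ∧ (fixFinset y : Finset α).card = 2 := by
    intro y hy
    simp only [hI, Finset.mem_filter, Finset.mem_univ, true_and] at hy
    refine ⟨fun x hx => ?_, hall y hy.1 a (hy.2.trans_ne hab.symm)⟩
    rw [mem_fixFinset] at hx
    simp only [hR, Finset.mem_sdiff, Finset.mem_univ, true_and, Finset.mem_insert, Finset.mem_singleton, not_or]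
    refine ⟨fun e => hab ?_, fun e => hab ?_⟩
    · subst e; exact hx.symm.trans hy.2
    · subst e
      have h := hfsub y a hy.1
      rw [hy.2, hx] at h
      exact h.symm
  have hfxsum : ∑ z ∈ P, (fx z).card = I.card * 2 := by
    simp only [fx, Finset.card_filter]
    rw [Finset.sum_comm, Finset.sum_congr rfl fun y hy => ?_, Finset.sum_const, smul_eq_mul]
    obtain ⟨hsub, h2⟩ := hIfix y hy
    rw [← Finset.card_filter, show P.filter (fun z => y • z.1 = z.1 ∧ y • z.2 = z.2) =
      (fixFinset y : Finset α).offDiag by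
      ext ⟨c, d⟩
      simp only [hP, Finset.mem_filter, Finset.mem_offDiag, mem_fixFinset]
      exact ⟨fun h => ⟨h.2.1, h.2.2, h.1.2.2⟩,
        fun h => ⟨⟨hsub (mem_fixFinset.2 h.1), hsub (mem_fixFinset.2 h.2.1), h.2.2⟩, h.1, h.2.1⟩⟩,
      Finset.offDiag_card, h2]
  have hswsum : ∑ z ∈ P, (sw z).card = I.card * (Fintype.card α - 4) := by
    simp only [sw, Finset.card_filter]
    rw [Finset.sum_comm, Finset.sum_congr rfl fun y hy => ?_, Finset.sum_const, smul_eq_mul]
    obtain ⟨hsub, h2⟩ := hIfix y hy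
    simp only [hI, Finset.mem_filter, Finset.mem_univ, true_and] at hy
    have hyR : ∀ x ∈ R, y • x ∈ R := by
      intro x hx
      simp only [hR, Finset.mem_sdiff, Finset.mem_univ, true_and, Finset.mem_insert, Finset.mem_singleton, not_or] at hx ⊢
      refine ⟨fun e => hx.2 ?_, fun e => hx.1 ?_⟩
      · rw [← hfsub y x hy.1, e, hy.2]
      · exact smul_left_cancel y (e.trans hy.2.symm)
    rw [← Finset.card_filter, show P.filter (fun z => y • z.1 = z.2) =
      (R \ fixFinset y).map ⟨fun x => (x, y • x), fun x x' e => congrArg Prod.fst e⟩ by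
      ext ⟨c, d⟩
      rw [Finset.mem_filter, hP, Finset.mem_offDiag, Finset.mem_map]
      constructor
      · rintro ⟨⟨k1, k2, k3⟩, k4⟩
        exact ⟨c, Finset.mem_sdiff.2 ⟨k1, fun k => k3 ((mem_fixFinset.1 k).symm.trans k4)⟩, Prod.ext rfl k4⟩
      · rintro ⟨x, k, e⟩
        obtain ⟨k1, k2⟩ := Finset.mem_sdiff.1 k
        have e1 : x = c := congrArg Prod.fst e
        have e2 : y • x = d := congrArg Prod.snd e
        subst e1
        subst e2
        exact ⟨⟨k1, hyR x k1, fun k' => k2 (mem_fixFinset.2 (Eq.symm k'))⟩, rfl⟩,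
      Finset.card_map, Finset.card_sdiff_of_subset hsub, h2, hRc]
    omega
  rw [Finset.sum_congr rfl fun z hz => (hconst z hz).1, Finset.sum_const, smul_eq_mul] at hfxsum
  rw [Finset.sum_congr rfl fun z hz => (hconst z hz).2, Finset.sum_const, smul_eq_mul] at hswsum
  have hratio : 2 * (sw (c₀, d₀)).card = (Fintype.card α - 4) * (fx (c₀, d₀)).card := by
    refine Nat.eq_of_mul_eq_mul_left (Finset.card_pos.2 ⟨_, hP₀⟩) ?_
    calc P.card * (2 * (sw (c₀, d₀)).card) = 2 * (P.card * (sw (c₀, d₀)).card) := by ring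
      _ = (Fintype.card α - 4) * (I.card * 2) := by rw [hswsum]; ring
      _ = _ := by rw [← hfxsum]; ring
  -- the involutions exchanging both pairs
  obtain ⟨v, hv2, hv1, hv⟩ := hpat (Equiv.swap 0 1 * Equiv.swap 2 3) (by decide) (by decide)
  have hva : v • a = b := by rw [ha, hv]; rfl
  have hvb : v • b = a := by rw [hb, hv]; rfl
  have hvc : v • c₀ = d₀ := by rw [hc₀, hv]; rfl
  have hvd : v • d₀ = c₀ := by rw [hd₀, hv]; rfl
  set q₀ : Finset α := {a, b, c₀, d₀} with hq₀
  set F := fixingSubgroup G (q₀ : Set α) with hF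
  have hFodd : ¬ 2 ∣ Nat.card F := fun h => by
    refine natCard_fixing_three_odd hE {a, b, c₀} ?_ (h.trans (Subgroup.card_dvd_of_le fun g hg => ?_))
    · rw [Finset.card_eq_three]
      exact ⟨a, b, c₀, hab, hlne 0 2 (by decide), hlne 1 2 (by decide), rfl⟩
    · exact mem_fix_iff.2 fun x hx => mem_fix_iff.1 hg x (by
        simp only [hq₀, Finset.mem_insert, Finset.mem_singleton] at hx ⊢; tauto)
  have hvnorm : ∀ f ∈ F, v * f * v⁻¹ ∈ F := by
    intro f hf
    have hvi : v⁻¹ = v := inv_eq_of_mul_eq_one_right (by rw [← sq]; exact hv2)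
    have hf' := mem_fix_iff.1 hf
    refine mem_fix_iff.2 fun x hx => ?_
    have hmem : v • x ∈ q₀ := by
      simp only [hq₀, Finset.mem_insert, Finset.mem_singleton] at hx ⊢
      rcases hx with rfl | rfl | rfl | rfl <;> simp [hva, hvb, hvc, hvd]
    rw [hvi, mul_smul, mul_smul, hf' _ hmem, hfsub v x hv2]
  have hswF : Nat.card {y : G // y ^ 2 = 1 ∧ y ≠ 1 ∧ y * v ∈ F} = (sw (c₀, d₀)).card := by
    rw [← Nat.card_eq_finsetCard]
    refine Nat.card_congr (Equiv.subtypeEquivRight fun y => ?_)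
    simp only [sw, hI, Finset.mem_filter, Finset.mem_univ, true_and]
    constructor
    · rintro ⟨h1, -, h3⟩
      have h := mem_fix_iff.1 h3
      refine ⟨⟨h1, ?_⟩, ?_⟩
      · have e := h b (by simp [hq₀]); rwa [mul_smul, hvb] at e
      · have e := h d₀ (by simp [hq₀]); rwa [mul_smul, hvd] at e
    · rintro ⟨⟨h1, h2⟩, h3⟩
      have hyb : y • b = a := by rw [← h2, hfsub y a h1]
      have hyd : y • d₀ = c₀ := by rw [← h3, hfsub y c₀ h1]
      refine ⟨h1, fun e => hab (by rw [← h2, e, one_smul]), mem_fix_iff.2 fun x hx => ?_⟩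
      simp only [hq₀, Finset.mem_insert, Finset.mem_singleton] at hx
      rcases hx with rfl | rfl | rfl | rfl <;> rw [mul_smul]
      · rw [hva, hyb]
      · rw [hvb, h2]
      · rw [hvc, hyd]
      · rw [hvd, h3]
  have hswdvd : (sw (c₀, d₀)).card ∣ Nat.card F := hswF ▸ natCard_coset_involutions_dvd F hFodd hv2 hv1 hvnorm
  -- a prime common to the fixer and the degree
  obtain ⟨p, hp, hpd⟩ := Nat.exists_prime_and_dvd (show (Fintype.card α - 4) / 2 ≠ 1 by omega)
  haveI := Fact.mk hp
  have hpF : p ∣ Nat.card F := by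
    refine (hpd.trans ?_).trans hswdvd
    refine ⟨(fx (c₀, d₀)).card, Nat.eq_of_mul_eq_mul_left two_pos ?_⟩
    rw [hratio, ← mul_assoc, Nat.mul_div_cancel' (by omega : 2 ∣ Fintype.card α - 4)]
  have hp2 : p ≠ 2 := fun e => hFodd (e ▸ hpF)
  -- a Klein four group normalising a Sylow subgroup
  obtain ⟨U⟩ : Nonempty (Sylow p F) := inferInstance
  set V := (U : Subgroup F).map F.subtype with hV
  have hVF : V ≤ F := Subgroup.map_subtype_le _
  have hVp : IsPGroup p V := U.2.map _
  have hV1 : V ≠ ⊥ := by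
    rw [hV, Ne, Subgroup.map_eq_bot_iff_of_injective _ F.subtype_injective]
    exact U.ne_bot_of_dvd_card hpF
  let L : Subgroup G := Subgroup.normalizer (V : Set G) ⊓
    { carrier := {g | (∀ x ∈ q₀, g • x ∈ q₀) ∧ ∀ x ∈ q₀, g⁻¹ • x ∈ q₀}
      one_mem' := ⟨fun x hx => by rwa [one_smul], fun x hx => by rwa [inv_one, one_smul]⟩
      mul_mem' := fun {g h} hg hh => ⟨fun x hx => by rw [mul_smul]; exact hg.1 _ (hh.1 x hx),
        fun x hx => by rw [mul_inv_rev, mul_smul]; exact hh.2 _ (hg.2 x hx)⟩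
      inv_mem' := fun {g} hg => ⟨hg.2, fun x hx => by rw [inv_inv]; exact hg.1 x hx⟩ }
  have hidx : ∀ x ∈ q₀, ∃ i, l i = x := by
    intro x hx
    simp only [hq₀, Finset.mem_insert, Finset.mem_singleton] at hx
    rcases hx with rfl | rfl | rfl | rfl <;> exact ⟨_, rfl⟩
  have hlq : ∀ i, l i ∈ q₀ := fun i => by fin_cases i <;> simp [hq₀, ha, hb, hc₀, hd₀]
  have hLl : ∀ (g : L) (i : Fin 4), ∃ j, l j = (g : G) • l i := fun g i => hidx _ (g.2.2.1 _ (hlq i))
  choose pf hpf using hLl
  have hpfinj : ∀ g, Function.Injective (pf g) := fun g i j e =>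
    l.injective (smul_left_cancel (g : G) (by rw [← hpf g i, ← hpf g j, e]))
  let φ : L →* Equiv.Perm (Fin 4) := MonoidHom.mk'
    (fun g => Equiv.ofBijective (pf g) (Finite.injective_iff_bijective.1 (hpfinj g))) fun g h => by
      refine Equiv.ext fun i => l.injective ?_
      show l (pf (g * h) i) = l (pf g (pf h i))
      rw [hpf, hpf, hpf, Subgroup.coe_mul, mul_smul]
  have hφ : ∀ (g : L) (i : Fin 4), (g : G) • l i = l (φ g i) := fun g i => (hpf g i).symm
  have hφsurj : Function.Surjective φ := by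
    intro π
    obtain ⟨g, hg, hgq⟩ := exists_extend h4 q hqc (Equiv.Perm.viaEmbedding π l) ((Equiv.injective _).injOn)
    set g' : G := ⟨g, hg⟩ with hg'
    have hgl : ∀ i, g' • l i = l (π i) := fun i => by
      show g (l i) = _
      rw [hgq _ (hl i), Equiv.Perm.viaEmbedding_apply]
    set V' := V.map (MulAut.conj g').toMonoidHom with hV'
    have hqinv : ∀ x ∈ q₀, g'⁻¹ • x ∈ q₀ := by
      intro x hx
      obtain ⟨i, rfl⟩ := hidx x hx
      rw [show g'⁻¹ • l i = l (π.symm i) from inv_smul_eq_iff.2 (by rw [hgl, Equiv.apply_symm_apply])]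
      exact hlq _
    have hV'F : V' ≤ F := by
      rintro _ ⟨x, hx, rfl⟩
      refine mem_fix_iff.2 fun z hz => ?_
      show (g' * x * g'⁻¹) • z = z
      rw [mul_smul, mul_smul, mem_fix_iff.1 (hVF hx) _ (hqinv z hz), smul_inv_smul]
    have hcard : Nat.card (V'.subgroupOf F) = p ^ (Nat.card F).factorization p := by
      rw [Nat.card_congr (Subgroup.subgroupOfEquivOfLe hV'F).toEquiv, hV',
        ← Nat.card_congr (V.equivMapOfInjective _ (MulAut.conj g').injective).toEquiv, hV,
        ← Nat.card_congr ((U : Subgroup F).equivMapOfInjective _ F.subtype_injective).toEquiv,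
        Sylow.card_eq_multiplicity]
    obtain ⟨h, hh⟩ := exists_smul_eq F (Sylow.ofCard (V'.subgroupOf F) hcard) U
    have hmap : V.map (MulAut.conj ((h : G) * g')).toMonoidHom = V := by
      refine Subgroup.eq_of_le_of_card_ge ?_ (le_of_eq
        (Nat.card_congr (V.equivMapOfInjective _ (MulAut.conj ((h : G) * g')).injective).toEquiv))
      rintro _ ⟨x, hx, rfl⟩
      have hx' : g' * x * g'⁻¹ ∈ F := hV'F ⟨x, hx, rfl⟩
      have h2 : MulAut.conj h • (⟨_, hx'⟩ : F) ∈ (U : Subgroup F) := by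
        rw [← hh, Sylow.coe_subgroup_smul]
        exact Subgroup.smul_mem_pointwise_smul _ _ _ (show (⟨_, hx'⟩ : F) ∈ V'.subgroupOf F from ⟨x, hx, rfl⟩)
      refine ⟨_, h2, ?_⟩
      show (h : G) * (g' * x * g'⁻¹) * (h : G)⁻¹ = (h : G) * g' * x * ((h : G) * g')⁻¹
      group
    have hhl : ∀ i, ((h : G) * g') • l i = l (π i) := fun i => by
      rw [mul_smul, hgl]
      exact mem_fix_iff.1 h.2 _ (hlq _)
    refine ⟨⟨(h : G) * g', Subgroup.mem_inf.2 ⟨?_, fun x hx => ?_, fun x hx => ?_⟩⟩, Equiv.ext fun i => l.injective ?_⟩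
    · rw [Subgroup.mem_normalizer_iff]
      intro x
      refine ⟨fun hx => hmap ▸ ⟨x, hx, rfl⟩, fun hx => ?_⟩
      rw [← hmap] at hx
      obtain ⟨y, hy, e⟩ := hx
      rwa [show x = y from ((MulAut.conj ((h : G) * g')).injective e).symm]
    · obtain ⟨i, rfl⟩ := hidx x hx
      rw [hhl]; exact hlq _
    · obtain ⟨i, rfl⟩ := hidx x hx
      rw [show ((h : G) * g')⁻¹ • l i = l (π.symm i) from inv_smul_eq_iff.2 (by rw [hhl, Equiv.apply_symm_apply])]
      exact hlq _
    · rw [← hφ, ← hhl]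
  set π₀ : Equiv.Perm (Fin 4) := Equiv.swap 0 1 * Equiv.swap 2 3 with hπ₀
  set C : Subgroup (Equiv.Perm (Fin 4)) := Subgroup.centralizer {π₀} with hC
  let ψ := φ.subgroupComap C
  have hψ : Function.Surjective ψ := MonoidHom.subgroupComap_surjective_of_surjective _ _ hφsurj
  haveI : Fact (Nat.Prime 2) := ⟨Nat.prime_two⟩
  obtain ⟨D⟩ : Nonempty (Sylow 2 (C.comap φ)) := inferInstance
  have hDtop : (D : Subgroup (C.comap φ)).map ψ = ⊤ := by
    have hC8 : Nat.card C = 2 ^ 3 := dihedral_eight.1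
    have hpg : IsPGroup 2 C := IsPGroup.of_card hC8
    have h := (D.mapSurjective hψ).coe_mk
    refine ((D.mapSurjective hψ).is_maximal' (Q := ⊤) (hpg.to_subgroup _) le_top).symm.trans ?_
    rfl
  have hlift : ∀ π : Equiv.Perm (Fin 4), π * π₀ = π₀ * π → ∃ g : L, (∃ x ∈ (D : Subgroup (C.comap φ)), ((x : C.comap φ) : L) = g) ∧ φ g = π := by
    intro π hπ
    have hmem : (⟨π, Subgroup.mem_centralizer_singleton_iff.2 hπ⟩ : C) ∈ (D : Subgroup (C.comap φ)).map ψ := by
      rw [hDtop]; exact Subgroup.mem_top _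
    obtain ⟨x, hx, e⟩ := hmem
    exact ⟨x, ⟨x, hx, rfl⟩, congrArg Subtype.val e⟩
  have huniq : ∀ g : L, (∃ x ∈ (D : Subgroup (C.comap φ)), ((x : C.comap φ) : L) = g) → φ g = 1 → g = 1 := by
    rintro _ ⟨x, hx, rfl⟩ h1
    obtain ⟨i, hi⟩ := D.2 ⟨x, hx⟩
    refine Subtype.ext (sq_fix_of_two_power hFodd (i := i) ?_ (mem_fix_iff.2 fun z hz => ?_))
    · exact congrArg (fun y : (D : Subgroup (C.comap φ)) => (((y : C.comap φ) : L) : G)) hi
    · obtain ⟨j, rfl⟩ := hidx z hz
      rw [hφ, h1]; rfl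
  have hd8 := dihedral_eight.2
  obtain ⟨s, hsD, hs⟩ := hlift _ (hd8 (Equiv.swap 0 1) (by simp))
  obtain ⟨t, htD, ht⟩ := hlift _ (hd8 (Equiv.swap 2 3) (by simp))
  obtain ⟨r, hrD, hr⟩ := hlift _ (hd8 (Equiv.swap 0 2 * Equiv.swap 1 3) (by simp))
  have hclosed : ∀ g h : L, (∃ x ∈ (D : Subgroup (C.comap φ)), ((x : C.comap φ) : L) = g) →
      (∃ x ∈ (D : Subgroup (C.comap φ)), ((x : C.comap φ) : L) = h) →
      (∃ x ∈ (D : Subgroup (C.comap φ)), ((x : C.comap φ) : L) = g * h) ∧
      (∃ x ∈ (D : Subgroup (C.comap φ)), ((x : C.comap φ) : L) = g⁻¹) := by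
    rintro _ _ ⟨x, hx, rfl⟩ ⟨y, hy, rfl⟩
    exact ⟨⟨x * y, mul_mem hx hy, rfl⟩, ⟨x⁻¹, inv_mem hx, rfl⟩⟩
  have heq : ∀ g h : L, (∃ x ∈ (D : Subgroup (C.comap φ)), ((x : C.comap φ) : L) = g) →
      (∃ x ∈ (D : Subgroup (C.comap φ)), ((x : C.comap φ) : L) = h) → φ g = φ h → g = h := by
    intro g h hg hh e
    refine (inv_mul_eq_one.1 (huniq _ (hclosed _ _ (hclosed h g hh hg).2 hg).1 ?_)).symm
    rw [map_mul, map_inv, e, inv_mul_cancel]
  have hone : (∃ x ∈ (D : Subgroup (C.comap φ)), ((x : C.comap φ) : L) = 1) := ⟨1, one_mem _, rfl⟩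
  have hstD := (hclosed s t hsD htD).1
  have hs_sq : s * s = 1 := heq _ _ (hclosed s s hsD hsD).1 hone (by rw [map_mul, map_one, hs, Equiv.swap_mul_self])
  have ht_sq : t * t = 1 := heq _ _ (hclosed t t htD htD).1 hone (by rw [map_mul, map_one, ht, Equiv.swap_mul_self])
  have hr_sq : r * r = 1 := heq _ _ (hclosed r r hrD hrD).1 hone (by rw [map_mul, map_one, hr]; decide)
  have hst_sq : s * t * (s * t) = 1 := heq _ _ (hclosed _ _ hstD hstD).1 hone (by
    rw [map_mul, map_mul, map_one, hs, ht]; decide)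
  have hs_st : s * (s * t) = s * t * s := heq _ _ (hclosed _ _ hsD hstD).1 (hclosed _ _ hstD hsD).1 (by
    simp only [map_mul, hs, ht]; decide)
  have hr_st : r * (s * t) = s * t * r := heq _ _ (hclosed _ _ hrD hstD).1 (hclosed _ _ hstD hrD).1 (by
    simp only [map_mul, hs, ht, hr]; decide)
  -- the two fixed points
  set w : G := ((s * t : L) : G) with hw
  have hw2 : w ^ 2 = 1 := by rw [sq, hw, ← Subgroup.coe_mul, hst_sq]; rfl
  have hwact : ∀ i, w • l i = l (π₀ i) := fun i => by rw [hw, hφ, map_mul, hs, ht]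
  have hw1 : w ≠ 1 := fun h => by
    have h' := hwact 0
    rw [h, one_smul] at h'
    exact absurd (l.injective h') (by decide)
  have hwfix : (fixFinset w : Finset α).card = 2 := by
    refine htwo w hw2 (l 0) (l 1) (l 2) (l 3) (List.nodup_ofFn.2 l.injective : (List.ofFn (l : Fin 4 → α)).Nodup) ?_ ?_
    · rw [hwact]; rfl
    · rw [hwact]; rfl
  obtain ⟨e, f, hef, hwef⟩ := Finset.card_eq_two.1 hwfix
  have hwmem : ∀ x, w • x = x ↔ x = e ∨ x = f := fun x => by
    rw [← mem_fixFinset (G := G), hwef, Finset.mem_insert, Finset.mem_singleton]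
  have heq₀ : ∀ x, x = e ∨ x = f → ∀ i, x ≠ l i := by
    intro x hx i h
    have h' := (hwmem x).2 hx
    rw [h, hwact] at h'
    have := l.injective h'
    revert this
    fin_cases i <;> decide
  have hcomm_fix : ∀ g : G, g * w = w * g → ∀ x, x = e ∨ x = f → g • x = e ∨ g • x = f := by
    intro g hg x hx
    rw [← hwmem, ← mul_smul, ← hg, mul_smul, (hwmem x).2 hx]
  set sG : G := (s : G) with hsG
  set rG : G := (r : G) with hrG
  have hscomm : sG * w = w * sG := congrArg Subtype.val hs_st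
  have hrcomm : rG * w = w * rG := congrArg Subtype.val hr_st
  have hs2 : sG ^ 2 = 1 := by rw [sq, hsG, ← Subgroup.coe_mul, hs_sq]; rfl
  have hr2 : rG ^ 2 = 1 := by rw [sq, hrG, ← Subgroup.coe_mul, hr_sq]; rfl
  have hsact : ∀ i, sG • l i = l (Equiv.swap 0 1 i) := fun i => by rw [hsG, hφ, hs]
  have hract : ∀ i, rG • l i = l ((Equiv.swap 0 2 * Equiv.swap 1 3 : Equiv.Perm (Fin 4)) i) := fun i => by rw [hrG, hφ, hr]
  have hs1 : sG ≠ 1 := fun h => by
    have h' := hsact 0
    rw [h, one_smul] at h'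
    exact absurd (l.injective h') (by decide)
  have hsfix : ∀ x, sG • x = x → ∃ i, x = l i := by
    intro x hx
    by_contra hno
    push Not at hno
    have h2 := Finset.card_le_card (s := ({x, l 2, l 3} : Finset α)) (t := fixFinset sG) (fun z hz => by
      simp only [Finset.mem_insert, Finset.mem_singleton] at hz
      rw [mem_fixFinset]
      rcases hz with rfl | rfl | rfl
      · exact hx
      · rw [hsact]; rfl
      · rw [hsact]; rfl)
    have hle := involution_fix_le_two hE hs2 hs1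
    rw [Finset.card_eq_three.2 ⟨x, l 2, l 3, hno 2, hno 3, hlne 2 3 (by decide), rfl⟩] at h2
    omega
  have hse : sG • e = f ∧ sG • f = e := by
    have h1 : sG • e = f := (hcomm_fix sG hscomm e (Or.inl rfl)).resolve_left fun h => by
      obtain ⟨i, hi⟩ := hsfix e h
      exact heq₀ e (Or.inl rfl) i hi
    exact ⟨h1, by rw [← h1, hfsub sG e hs2]⟩
  have hre : ∀ x, x = e ∨ x = f → rG • x = x := by
    have h1 : rG • e = e := by
      refine (hcomm_fix rG hrcomm e (Or.inl rfl)).resolve_right fun h => ?_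
      -- the four-cycle would fix `f`
      refine (hE ((rG * sG : G) : Equiv.Perm α) (rG * sG).2 (l 0) (l 3) (l 1) (l 2) f ?_).2 ⟨?_, ?_, ?_, ?_, ?_⟩
      · simp only [List.nodup_cons, List.mem_cons, List.not_mem_nil, or_false, not_or, List.nodup_nil, and_true,
          not_false_eq_true]
        have hf := heq₀ f (Or.inr rfl)
        exact ⟨⟨hlne _ _ (by decide), hlne _ _ (by decide), hlne _ _ (by decide), (hf 0).symm⟩,
          ⟨hlne _ _ (by decide), hlne _ _ (by decide), (hf 3).symm⟩, ⟨hlne _ _ (by decide), (hf 1).symm⟩, (hf 2).symm⟩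
      all_goals show (rG * sG : G) • (_ : α) = _; rw [mul_smul]
      · rw [hsact, hract]; rfl
      · rw [hsact, hract]; rfl
      · rw [hsact, hract]; rfl
      · rw [hsact, hract]; rfl
      · rw [hse.2, h]
    intro x hx
    rcases hx with rfl | rfl
    · exact h1
    · refine (hcomm_fix rG hrcomm x (Or.inr rfl)).resolve_left fun h => ?_
      exact hef (smul_left_cancel rG (h1.trans h.symm))
  -- a non-trivial element of the Sylow subgroup fixes both
  obtain ⟨x, hxV, hx1, g, hg2, hgfix, hgx⟩ : ∃ x ∈ V, x ≠ 1 ∧ ∃ g : G, g ^ 2 = 1 ∧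
      (g • e = e ∧ g • f = f ∧ g ≠ 1) ∧ g * x * g⁻¹ = x := by
    by_contra hno
    push Not at hno
    have hwN : w ∈ Subgroup.normalizer (V : Set G) := (s * t).2.1
    have hrN : rG ∈ Subgroup.normalizer (V : Set G) := r.2.1
    have hinv : ∀ g : G, g ^ 2 = 1 → g ≠ 1 → g ∈ Subgroup.normalizer (V : Set G) → g • e = e → g • f = f →
        ∀ x ∈ V, g * x * g⁻¹ = x⁻¹ := by
      intro g hg hg1 hgN hge hgf x hx
      let θ : V →* V := MonoidHom.mk' (fun y => ⟨g * y * g⁻¹, (Subgroup.mem_normalizer_iff.1 hgN _).1 y.2⟩)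
        fun y z => Subtype.ext (by show g * (y * z : G) * g⁻¹ = g * y * g⁻¹ * (g * z * g⁻¹); group)
      have hfp : MonoidHom.FixedPointFree θ := by
        intro y hy
        by_contra hy1
        exact hno y y.2 (fun e => hy1 (Subtype.ext e)) g hg ⟨hge, hgf, hg1⟩ (congrArg Subtype.val hy)
      have hinvol : Function.Involutive θ := fun y => Subtype.ext (by
        show g * (g * y * g⁻¹) * g⁻¹ = y
        rw [show g * (g * (y : G) * g⁻¹) * g⁻¹ = g ^ 2 * y * (g ^ 2)⁻¹ by simp [pow_two, mul_assoc], hg, one_mul, inv_one, mul_one])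
      exact congrArg Subtype.val (congrFun (hfp.coe_eq_inv_of_involutive hinvol) (⟨x, hx⟩ : V))
    have hwr1 : w * rG ≠ 1 := fun h => by
      have h' := congrArg (· • l 0) h
      simp only [mul_smul, hract, hwact, one_smul] at h'
      exact absurd (l.injective h') (by decide)
    have hwr2 : (w * rG) ^ 2 = 1 := by
      rw [sq, mul_assoc, ← mul_assoc rG, hrcomm, mul_assoc w rG rG, ← sq rG, hr2, mul_one, ← sq, hw2]
    have hr1 : rG ≠ 1 := fun h => by
      have h' := hract 0
      rw [h, one_smul] at h'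
      exact absurd (l.injective h') (by decide)
    obtain ⟨z, hz, hz1⟩ := (Subgroup.bot_or_exists_ne_one V).resolve_left hV1
    have e1 := hinv w hw2 hw1 hwN ((hwmem e).2 (Or.inl rfl)) ((hwmem f).2 (Or.inr rfl))
    have e2 := hinv rG hr2 hr1 hrN (hre e (Or.inl rfl)) (hre f (Or.inr rfl))
    have e3 := hinv (w * rG) hwr2 hwr1 (mul_mem hwN hrN)
      (by rw [mul_smul, hre e (Or.inl rfl), (hwmem e).2 (Or.inl rfl)])
      (by rw [mul_smul, hre f (Or.inr rfl), (hwmem f).2 (Or.inr rfl)]) z hz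
    rw [show w * rG * z * (w * rG)⁻¹ = w * (rG * z * rG⁻¹) * w⁻¹ by group, e2 z hz, e1 _ (inv_mem hz),
      inv_inv] at e3
    have hzz : z ^ 2 = 1 := by rw [sq]; exact mul_eq_one_iff_eq_inv.2 e3
    exact hz1 (sq_fix_of_two_power hFodd (i := 1) (by simpa using hzz) (hVF hz))
  have hxe : x • e = e ∧ x • f = f := by
    have hgw : (fixFinset g : Finset α) = {e, f} := by
      refine (Finset.eq_of_subset_of_card_le ?_ ?_).symm
      · intro z hz
        simp only [Finset.mem_insert, Finset.mem_singleton] at hz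
        rw [mem_fixFinset]
        rcases hz with rfl | rfl
        · exact hgfix.1
        · exact hgfix.2.1
      · rw [Finset.card_pair hef]
        exact involution_fix_le_two hE hg2 hgfix.2.2
    have hpres : ∀ z, z = e ∨ z = f → x • z = e ∨ x • z = f := by
      intro z hz
      have : x • z ∈ (fixFinset g : Finset α) := by
        rw [mem_fixFinset, ← mul_smul, show g * x = x * g from mul_inv_eq_iff_eq_mul.1 hgx, mul_smul]
        congr 1
        rcases hz with rfl | rfl
        · exact hgfix.1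
        · exact hgfix.2.1
      rwa [hgw, Finset.mem_insert, Finset.mem_singleton] at this
    obtain ⟨i, hi⟩ := hVp ⟨x, hxV⟩
    have hxi : x ^ p ^ i = 1 := congrArg Subtype.val hi
    obtain ⟨j, hj⟩ := (hp.odd_of_ne_two hp2).pow (n := i)
    rcases hpres e (Or.inl rfl) with h | h
    · refine ⟨h, (hpres f (Or.inr rfl)).resolve_left fun h' => hef ?_⟩
      exact smul_left_cancel x (h.trans h'.symm)
    · exfalso
      have h' : x • f = e := (hpres f (Or.inr rfl)).resolve_right fun h' => hef (smul_left_cancel x (h.trans h'.symm))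
      have hk : ∀ j : ℕ, x ^ (2 * j + 1) • e = f := by
        intro j
        induction j with
        | zero => simpa using h
        | succ j ih => rw [show 2 * (j + 1) + 1 = 2 + (2 * j + 1) by ring, pow_add, mul_smul, ih, sq, mul_smul, h', h]
      have h2 := hk j
      rw [← hj, hxi, one_smul] at h2
      exact hef h2
  -- a smaller group
  obtain ⟨i, hi⟩ := hVp ⟨x, hxV⟩
  obtain ⟨Φ, M, hΦ4, hΦn, hmodp, hM, hlift'⟩ := exists_restricted_transitive G (k := 4) (by norm_num) h4 (by omega)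
    (p := p) hx1 ⟨i, congrArg Subtype.val hi⟩ (by
      refine lt_of_lt_of_le ?_ (Finset.card_le_card (s := insert e q₀) fun z hz => ?_)
      · have he : e ∉ q₀ := fun h => by
          obtain ⟨i, hi⟩ := hidx e h
          exact heq₀ e (Or.inl rfl) i hi.symm
        rw [Finset.card_insert_of_notMem he]
        have : q₀.card = 4 := by
          simp [hq₀, ha, hb, hc₀, hd₀, hab, hlne]
        omega
      · rw [mem_fixFinset]
        rcases Finset.mem_insert.1 hz with rfl | hz
        · exact hxe.1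
        · exact mem_fix_iff.1 (hVF hxV) z hz)
  have hE' : EvenFive M := by
    intro m hm a b c d e hnd
    obtain ⟨g, hg, hgm⟩ := hlift' m hm
    have hnd' : [(a : α), (b : α), (c : α), (d : α), (e : α)].Nodup := hnd.map Subtype.val_injective
    have h := hE g hg a b c d e hnd'
    simp only [hgm, Subtype.coe_injective.eq_iff] at h
    exact h
  have h6 := ih Φ.card hΦn (Fintype.card_coe Φ) M hM hE' (by omega)
  rw [h6] at hmodp
  have hd := (Nat.modEq_iff_dvd' hn6).1 hmodp.symm
  have hd4 : p ∣ Fintype.card α - 4 := hpd.trans (Nat.div_dvd_of_dvd (by omega))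
  have hd2 := Nat.dvd_sub hd4 hd
  rw [show Fintype.card α - 4 - (Fintype.card α - 6) = 2 by omega] at hd2
  exact hp2 ((Nat.prime_dvd_prime_iff_eq hp Nat.prime_two).1 hd2)

end Cfsg.Agent.PermGroups
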