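import Mathlib

/-!
Homogeneous groups: Wielandt's theorem on descending homogeneity.
-/

set_option autoImplicit false

namespace Cfsg.Agent.PermGroups

open MulAction
open scoped Pointwise

variable {G α : Type*} [Group G] [MulAction G α] [DecidableEq α]

theorem exists_smul_finset_eq {k : ℕ} (h : IsPretransitive G (Set.powersetCard α k)) (s t : Finset α)
    (hs : s.card = k) (ht : t.card = k) : ∃ g : G, g • s = t := by
  obtain ⟨g, hg⟩ := h.exists_smul_eq (⟨s, hs⟩ : Set.powersetCard α k) ⟨t, ht⟩
  exact ⟨g, by simpa [Set.powersetCard.coe_smul] using congrArg (fun z : Set.powersetCard α k => (z : Finset α)) hg⟩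

theorem isPretransitive_powersetCard_of_exists {k : ℕ}
    (h : ∀ s t : Finset α, s.card = k → t.card = k → ∃ g : G, g • s = t) :
    IsPretransitive G (Set.powersetCard α k) := by
  refine ⟨fun s t => ?_⟩
  obtain ⟨g, hg⟩ := h s t s.2 t.2
  exact ⟨g, Subtype.ext (by rw [Set.powersetCard.coe_smul]; exact hg)⟩

theorem isPretransitive_of_one_homogeneous (h : IsPretransitive G (Set.powersetCard α 1)) :
    IsPretransitive G α := by
  refine ⟨fun a b => ?_⟩
  obtain ⟨g, hg⟩ := exists_smul_finset_eq h {a} {b} (Finset.card_singleton a) (Finset.card_singleton b)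
  rw [Finset.smul_finset_singleton, Finset.singleton_inj] at hg
  exact ⟨g, hg⟩

/-- `p` does not divide `C(k + p^a - 1, k)` when `p^a` divides `k`. -/
theorem choose_not_dvd {p : ℕ} (hp : p.Prime) : ∀ (a k : ℕ), p ^ a ∣ k →
    ¬ p ∣ (k + p ^ a - 1).choose k := by
  intro a
  haveI := Fact.mk hp
  induction a with
  | zero => intro k _; simpa using hp.ne_one
  | succ a ih =>
    intro k hk
    obtain ⟨c, rfl⟩ := hk
    have h1 : 0 < p ^ a := pow_pos hp.pos a
    have e1 : p ^ (a + 1) * c + p ^ (a + 1) - 1 = (p - 1) + p * (p ^ a * c + p ^ a - 1) := by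
      have e : p ^ (a + 1) * c + p ^ (a + 1) = p * (p ^ a * c + p ^ a) := by ring
      rw [e, Nat.mul_sub_one]
      have h3 : p ≤ p * (p ^ a * c + p ^ a) := Nat.le_mul_of_pos_right p (by omega)
      have := hp.pos
      omega
    have e2 : p ^ (a + 1) * c = p * (p ^ a * c) := by ring
    have h2 := Choose.choose_modEq_choose_mod_mul_choose_div_nat (p := p)
      (n := p ^ (a + 1) * c + p ^ (a + 1) - 1) (k := p ^ (a + 1) * c)
    rw [e1, e2, Nat.mul_mod_right, Nat.choose_zero_right, one_mul, Nat.add_mul_div_left _ _ hp.pos,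
      Nat.div_eq_of_lt (show p - 1 < p by have := hp.pos; omega), zero_add,
      Nat.mul_div_cancel_left _ hp.pos] at h2
    rw [e1, e2, h2.dvd_iff dvd_rfl]
    exact ih _ (dvd_mul_right _ _)

/-- **Wielandt**: descending homogeneity. -/
theorem homogeneous_pred [Fintype α] {k : ℕ} (hk : 1 ≤ k) (hkn : k ≤ Fintype.card α)
    (hG : IsPretransitive G (Set.powersetCard α k))
    (hq : ∀ q : ℕ, IsPrimePow q → q ∣ k → k + q - 1 ≤ Fintype.card α) :
    IsPretransitive G (Set.powersetCard α (k - 1)) := by
  classical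
  refine isPretransitive_powersetCard_of_exists fun A B hA hB => ?_
  set O : Finset (Finset α) := (Finset.univ.powersetCard (k - 1)).filter fun t => ∃ g : G, g • A = t with hO
  have hOmem : ∀ t, t ∈ O ↔ ∃ g : G, g • A = t := fun t => by
    simp only [hO, Finset.mem_filter, Finset.mem_powersetCard, Finset.subset_univ, true_and,
      and_iff_right_iff_imp]
    rintro ⟨g, rfl⟩
    rw [Finset.card_smul_finset, hA]
  have hOcard : ∀ t ∈ O, t.card = k - 1 := fun t ht => by
    obtain ⟨g, rfl⟩ := (hOmem t).1 ht
    rw [Finset.card_smul_finset, hA]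
  obtain ⟨s₀, hAs, hs₀⟩ := Finset.exists_superset_card_eq (s := A) (n := k) (by omega) hkn
  set cnt : Finset α → ℕ := fun s => (O.filter (· ⊆ s)).card with hcnt
  have hc : ∀ s : Finset α, s.card = k → cnt s = cnt s₀ := by
    suffices hle : ∀ s t : Finset α, s.card = k → t.card = k → cnt s ≤ cnt t from
      fun s hs => le_antisymm (hle s s₀ hs hs₀) (hle s₀ s hs₀ hs)
    intro s t hs ht
    obtain ⟨g, rfl⟩ := exists_smul_finset_eq hG s t hs ht
    refine Finset.card_le_card_of_injOn (g • ·) (fun u hu => ?_) (fun u _ v _ e => smul_left_cancel g e)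
    rw [Finset.coe_filter, Set.mem_ofPred_eq] at hu ⊢
    obtain ⟨x, hx⟩ := (hOmem u).1 hu.1
    exact ⟨(hOmem _).2 ⟨g * x, by rw [mul_smul, hx]⟩, Finset.smul_finset_subset_smul_finset hu.2⟩
  have hpos : 0 < cnt s₀ :=
    Finset.card_pos.2 ⟨A, Finset.mem_filter.2 ⟨(hOmem A).2 ⟨1, one_smul G A⟩, hAs⟩⟩
  have hsubpow : ∀ s : Finset α, s.card = k → O.filter (· ⊆ s) ⊆ s.powersetCard (k - 1) := fun s _ t ht =>
    Finset.mem_powersetCard.2 ⟨(Finset.mem_filter.1 ht).2, hOcard t (Finset.mem_filter.1 ht).1⟩
  have hle : cnt s₀ ≤ k := by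
    have := Finset.card_le_card (hsubpow s₀ hs₀)
    rw [Finset.card_powersetCard, hs₀, ← Nat.choose_symm (Nat.sub_le k 1), Nat.sub_sub_self hk,
      Nat.choose_one_right] at this
    exact this
  have hdvd : k ∣ cnt s₀ := by
    rw [Nat.dvd_iff_prime_pow_dvd_dvd]
    intro p j hp hpj
    rcases Nat.eq_zero_or_pos j with rfl | hj
    · simp
    have hm := hq (p ^ j) (hp.isPrimePow.pow (by omega)) hpj
    obtain ⟨R, -, hR⟩ := Finset.exists_subset_card_eq (s := (Finset.univ : Finset α))
      (n := k + p ^ j - 1) (by rwa [Finset.card_univ])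
    have key : (k + p ^ j - 1).choose k * cnt s₀ = (O.filter (· ⊆ R)).card * p ^ j := by
      have h1 := Finset.sum_card_bipartiteAbove_eq_sum_card_bipartiteBelow (fun (s t : Finset α) => t ⊆ s)
        (s := R.powersetCard k) (t := O.filter (· ⊆ R))
      have hl : ∀ s ∈ R.powersetCard k,
          (Finset.bipartiteAbove (fun (s t : Finset α) => t ⊆ s) (O.filter (· ⊆ R)) s).card = cnt s₀ := by
        intro s hs
        obtain ⟨hsR, hsc⟩ := Finset.mem_powersetCard.1 hs
        rw [← hc s hsc, hcnt]
        refine congrArg Finset.card (Finset.ext fun t => ?_)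
        simp only [Finset.bipartiteAbove, Finset.mem_filter]
        exact ⟨fun h => ⟨h.1.1, h.2⟩, fun h => ⟨⟨h.1, h.2.trans hsR⟩, h.2⟩⟩
      have hr : ∀ t ∈ O.filter (· ⊆ R),
          (Finset.bipartiteBelow (fun (s t : Finset α) => t ⊆ s) (R.powersetCard k) t).card = p ^ j := by
        intro t ht
        obtain ⟨htO, htR⟩ := Finset.mem_filter.1 ht
        have htc := hOcard t htO
        have : (Finset.bipartiteBelow (fun (s t : Finset α) => t ⊆ s) (R.powersetCard k) t) =
            (R \ t).image (insert · t) := by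
          ext s
          simp only [Finset.bipartiteBelow, Finset.mem_filter, Finset.mem_powersetCard, Finset.mem_image,
            Finset.mem_sdiff]
          constructor
          · rintro ⟨⟨hsR, hsc⟩, hts⟩
            obtain ⟨x, hx⟩ := Finset.card_eq_one.1 (show (s \ t).card = 1 by
              rw [Finset.card_sdiff_of_subset hts]; omega)
            have hxs : x ∈ s ∧ x ∉ t := Finset.mem_sdiff.1 (hx ▸ Finset.mem_singleton_self x)
            refine ⟨x, ⟨hsR hxs.1, hxs.2⟩, ?_⟩
            exact Finset.eq_of_subset_of_card_le (Finset.insert_subset hxs.1 hts)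
              (by rw [Finset.card_insert_of_notMem hxs.2]; omega)
          · rintro ⟨x, ⟨hxR, hxt⟩, rfl⟩
            exact ⟨⟨Finset.insert_subset hxR htR, by rw [Finset.card_insert_of_notMem hxt]; omega⟩,
              Finset.subset_insert x t⟩
        rw [this, Finset.card_image_of_injOn, Finset.card_sdiff_of_subset htR, hR, htc]
        · have := pow_pos hp.pos j
          omega
        · intro x hx y hy e
          have hx' := (Finset.mem_sdiff.1 hx).2
          have : x ∈ insert y t := by
            rw [show insert y t = insert x t from e.symm]; exact Finset.mem_insert_self x t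
          exact (Finset.mem_insert.1 this).resolve_right hx'
      rwa [Finset.sum_congr rfl hl, Finset.sum_congr rfl hr, Finset.sum_const, Finset.sum_const,
        smul_eq_mul, smul_eq_mul, Finset.card_powersetCard, hR] at h1
    exact ((hp.coprime_iff_not_dvd.2 (choose_not_dvd hp j k hpj)).pow_left j).dvd_of_dvd_mul_left
      ⟨_, key.trans (mul_comm _ _)⟩
  have hall : cnt s₀ = k := le_antisymm hle (Nat.le_of_dvd hpos hdvd)
  obtain ⟨s, hBs, hs⟩ := Finset.exists_superset_card_eq (s := B) (n := k) (by omega) hkn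
  have hBmem : B ∈ O.filter (· ⊆ s) := by
    rw [Finset.eq_of_subset_of_card_le (hsubpow s hs) (by
      rw [Finset.card_powersetCard, hs, ← Nat.choose_symm (Nat.sub_le k 1), Nat.sub_sub_self hk,
        Nat.choose_one_right, ← hall, ← hc s hs])]
    exact Finset.mem_powersetCard.2 ⟨hBs, hB⟩
  exact (hOmem B).1 (Finset.mem_filter.1 hBmem).1

/-- A `k`-homogeneous group with `2 * k ≤ n` is `j`-homogeneous for all `j ≤ k`. -/
theorem homogeneous_of_le [Fintype α] {k : ℕ} (hkn : 2 * k ≤ Fintype.card α)
    (hG : IsPretransitive G (Set.powersetCard α k)) :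
    ∀ j, j ≤ k → IsPretransitive G (Set.powersetCard α j) := by
  induction k with
  | zero => intro j hj; rwa [Nat.le_zero.1 hj]
  | succ k ih =>
    intro j hj
    rcases Nat.lt_or_ge j (k + 1) with h | h
    · refine ih (by omega) ?_ j (by omega)
      exact homogeneous_pred (k := k + 1) (by omega) (by omega) hG fun q _ hq => by
        have := Nat.le_of_dvd (by omega) hq
        omega
    · rwa [show j = k + 1 by omega]

/-- In a homogeneous group pointwise stabilisers of sets of equal size have equal orders. -/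
theorem natCard_fixingSubgroup_eq {k : ℕ} (hG : IsPretransitive G (Set.powersetCard α k))
    (s t : Finset α) (hs : s.card = k) (ht : t.card = k) :
    Nat.card (fixingSubgroup G (s : Set α)) = Nat.card (fixingSubgroup G (t : Set α)) := by
  obtain ⟨g, rfl⟩ := exists_smul_finset_eq hG s t hs ht
  refine Nat.card_congr
    { toFun := fun x => ⟨g * x * g⁻¹, fun y => ?_⟩
      invFun := fun x => ⟨g⁻¹ * x * g, fun y => ?_⟩
      left_inv := fun x => Subtype.ext (by simp [mul_assoc])
      right_inv := fun x => Subtype.ext (by simp [mul_assoc]) }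
  · obtain ⟨z, hz, hzy⟩ := Finset.mem_smul_finset.1 (Finset.mem_coe.1 y.2)
    rw [← hzy, mul_smul, mul_smul, inv_smul_smul, x.2 ⟨z, hz⟩]
  · rw [mul_smul, mul_smul, inv_smul_eq_iff]
    exact x.2 ⟨g • (y : α), Finset.smul_mem_smul_finset (Finset.mem_coe.1 y.2)⟩

end Cfsg.Agent.PermGroups
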