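import Mathlib
import Cfsg.Agent.PermGroups.PrimeSylow
import Cfsg.Agent.PermGroups.Transitivity
import Cfsg.Agent.PermGroups.FrobeniusKernel
import Cfsg.Agent.PermGroups.FixedSubsets
import Cfsg.Agent.PermGroups.DerangementIndex
import Cfsg.Agent.PermGroups.Homogeneous

/-!
Four-transitive groups in which five points have trivial stabiliser: apart from small degrees
they are five-transitive.
-/

set_option autoImplicit false
set_option linter.unusedSectionVars false
set_option linter.style.haveILetI false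

namespace Cfsg.Agent.PermGroups

open MulAction
open scoped Pointwise

/-- The residue condition of Sylow's theorem for a transitive group of prime degree. -/
theorem prime_degree_residue {p : ℕ} [hp : Fact p.Prime] {X β : Type*} [Group X] [Finite X]
    [Fintype β] [MulAction X β] [FaithfulSMul X β] [IsPretransitive X β]
    (hβ : Fintype.card β = p) {m : ℕ} (hX : Nat.card X = p * m) :
    ∃ e, e ∣ p - 1 ∧ e ∣ m ∧ m ≡ e [MOD p] := by
  classical
  let G : Subgroup (Equiv.Perm β) := (toPermHom X β).range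
  haveI : IsPretransitive G β :=
    ⟨fun x y => (exists_smul_eq X x y).imp' (fun g => ⟨toPermHom X β g, g, rfl⟩) fun _ h => h⟩
  have hG : Nat.card G = p * m := by
    rw [← hX]
    exact Nat.card_congr (MonoidHom.ofInjective (f := toPermHom X β) toPerm_injective).symm.toEquiv
  obtain ⟨P⟩ : Nonempty (Sylow p G) := inferInstance
  obtain ⟨e, he, heN⟩ := exists_natCard_normalizer hβ G P
  have h1 := P.card_eq_index_normalizer
  have h2 : Nat.card (Sylow p G) ≡ 1 [MOD p] := card_sylow_modEq_one p G
  have h3 := (Subgroup.normalizer ((P : Subgroup G) : Set G)).index_mul_card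
  rw [heN, hG] at h3
  have h3' : m = (Subgroup.normalizer ((P : Subgroup G) : Set G)).index * e := by
    apply Nat.eq_of_mul_eq_mul_left hp.out.pos
    rw [← h3]; ring
  refine ⟨e, he, ⟨_, h3'.trans (mul_comm _ _)⟩, ?_⟩
  rw [h3']
  have h4 := h2.mul_right e
  rw [one_mul] at h4
  rw [show ((Subgroup.normalizer ((P : Subgroup G) : Set G)).index) = Nat.card (Sylow p G) from h1.symm]
  exact h4

variable {G α : Type*} [Group G] [Finite G] [Fintype α] [DecidableEq α] [MulAction G α]

theorem mem_fix_iff {s : Finset α} {g : G} :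
    g ∈ fixingSubgroup G (s : Set α) ↔ ∀ x ∈ s, g • x = x := by
  simp [mem_fixingSubgroup_iff]

/-- Maps between ordered quadruples of distinct points. -/
theorem exists_move_four (h4 : IsMultiplyPretransitive G α 4) {a b c d a' b' c' d' : α}
    (h : [a, b, c, d].Nodup) (h' : [a', b', c', d'].Nodup) :
    ∃ g : G, g • a = a' ∧ g • b = b' ∧ g • c = c' ∧ g • d = d' := by
  let x : Fin 4 ↪ α := ⟨[a, b, c, d].get, List.nodup_iff_injective_get.1 h⟩
  let y : Fin 4 ↪ α := ⟨[a', b', c', d'].get, List.nodup_iff_injective_get.1 h'⟩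
  obtain ⟨g, hg⟩ := h4.exists_smul_eq x y
  exact ⟨g, congrArg (fun e : Fin 4 ↪ α => e 0) hg, congrArg (fun e : Fin 4 ↪ α => e 1) hg,
    congrArg (fun e : Fin 4 ↪ α => e 2) hg, congrArg (fun e : Fin 4 ↪ α => e 3) hg⟩

/-- The order of a stabiliser of a set in a multiply transitive group. -/
theorem natCard_fixingSubgroup_step {k : ℕ} (hk : IsMultiplyPretransitive G α k) (hkn : k ≤ Fintype.card α)
    (s : Finset α) (hs : s.card < k) {x : α} (hx : x ∉ s) :
    Nat.card (fixingSubgroup G (s : Set α)) =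
      (Fintype.card α - s.card) * Nat.card (fixingSubgroup G ((insert x s : Finset α) : Set α)) := by
  have h := natCard_orbit_mul_fixingSubgroup_insert (G := G) (s : Set α) x
  rw [← Finset.coe_insert] at h
  have horb : orbit (fixingSubgroup G (s : Set α)) x = ((s : Set α))ᶜ := by
    refine Set.Subset.antisymm (orbit_fixingSubgroup_subset_compl (by simpa using hx)) fun y hy => ?_
    have hk' : IsMultiplyPretransitive G α (s.card + 1) :=
      isMultiplyPretransitive_of_le (n := k) (by omega) (by rw [Nat.card_eq_fintype_card]; omega)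
    let e := (insert x s).equivFinOfCardEq (Finset.card_insert_of_notMem hx)
    let u : Fin (s.card + 1) ↪ α := e.symm.toEmbedding.trans (Function.Embedding.subtype _)
    let v : Fin (s.card + 1) ↪ α := ⟨fun i => Equiv.swap x y (u i), (Equiv.swap x y).injective.comp u.injective⟩
    obtain ⟨g, hg⟩ := hk'.exists_smul_eq u v
    have key : ∀ z ∈ insert x s, g • z = Equiv.swap x y z := by
      intro z hz
      have := congrArg (fun q : Fin (s.card + 1) ↪ α => q (e ⟨z, hz⟩)) hg
      simpa [u, v] using this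
    refine ⟨⟨g, mem_fix_iff.2 fun z hz => ?_⟩, (key x (Finset.mem_insert_self x s)).trans (Equiv.swap_apply_left x y)⟩
    rw [key z (Finset.mem_insert_of_mem hz)]
    exact Equiv.swap_apply_of_ne_of_ne (ne_of_mem_of_not_mem hz hx)
      (fun e' => hy (by rw [← e']; exact hz))
  rw [← h, horb, Nat.card_coe_set_eq, Set.ncard_compl, Set.ncard_coe_finset, Nat.card_eq_fintype_card]

/-- The fixed points of an element. -/
def fixFinset (g : G) : Finset α := Finset.univ.filter fun x => g • x = x

theorem mem_fixFinset {g : G} {x : α} : x ∈ fixFinset g ↔ g • x = x := by simp [fixFinset]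

theorem card_fixFinset_modEq_two {g : G} (hg : g * g = 1) :
    Fintype.card α ≡ (fixFinset g : Finset α).card [MOD 2] := by
  have h := card_modEq_card_filter_fixed (toPermHom G α g) Nat.prime_two
    (by rw [sq, ← map_mul, hg, map_one]) Finset.univ
    (Finset.image_univ_of_surjective (toPermHom G α g).surjective)
  exact h

theorem small_cases : ∀ Q ∈ Finset.range 23, ∀ H ∈ Finset.range 8,
    ¬ (9 ≤ Q ∧ Q % 2 = 0 ∧ H % 2 = 1 ∧ 1 < H ∧ 3 * H ≤ Q - 1 ∧ (Q - 1) % H = 0) ∨
    (Q + 1 = 11 ∨ Q + 1 = 17 ∨ Q + 1 = 23) ∧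
      ((Q = 10 ∧ H = 3) ∨ (Q = 16 ∧ (H = 3 ∨ H = 5)) ∨ (Q = 22 ∧ (H = 3 ∨ H = 7))) := by
  decide

section main

/-- The regular normal subgroup of the stabiliser of three points, as a set. -/
def InKernel (T : Finset α) (g : G) : Prop :=
  g ∈ fixingSubgroup G (T : Set α) ∧ (g = 1 ∨ ∀ x ∉ T, g • x ≠ x)

variable (h4 : IsMultiplyPretransitive G α 4)
  (hfix : ∀ (g : G) (s : Finset α), 5 ≤ s.card → (∀ x ∈ s, g • x = x) → g = 1)
include h4 hfix

theorem card_fix_le (g : G) (hg : g ≠ 1) : (fixFinset g : Finset α).card ≤ 4 := by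
  by_contra h
  exact hg (hfix g _ (by omega) fun x hx => mem_fixFinset.1 hx)

theorem exists_kernel_three (hn : 5 ≤ Fintype.card α) (T : Finset α) (hT : T.card = 3) :
    ∃ K : Subgroup G, (∀ g, g ∈ K ↔ InKernel T g) ∧ Nat.card K = Fintype.card α - 3 := by
  obtain ⟨d, hd⟩ : ∃ d, d ∉ T := Finset.exists_mem_notMem_of_card_lt_card (s := T) (t := Finset.univ)
    (by rw [Finset.card_univ]; omega) |>.imp fun _ h => h.2
  set F := fixingSubgroup G (T : Set α) with hF
  have hstep := natCard_fixingSubgroup_step h4 (by omega) T (by omega) hd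
  rw [hT] at hstep
  have htr : ∀ x ∉ T, ∃ g ∈ F, g • d = x := by
    intro x hx
    obtain ⟨a, b, c, hab, hac, hbc, rfl⟩ := Finset.card_eq_three.1 hT
    simp only [Finset.mem_insert, Finset.mem_singleton, not_or] at hd hx
    obtain ⟨g, ga, gb, gc, gd⟩ := exists_move_four h4 (a := a) (b := b) (c := c) (d := d)
      (a' := a) (b' := b) (c' := c) (d' := x)
      (by simp [hab, hac, hbc, Ne.symm hd.1, Ne.symm hd.2.1, Ne.symm hd.2.2])
      (by simp [hab, hac, hbc, Ne.symm hx.1, Ne.symm hx.2.1, Ne.symm hx.2.2])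
    exact ⟨g, mem_fix_iff.2 (by simp [ga, gb, gc]), gd⟩
  have hout : ∀ g ∈ F, ∀ x ∉ T, g • x ∉ T := by
    intro g hg x hx hgx
    have h1 := mem_fix_iff.1 hg _ hgx
    rw [smul_left_cancel g h1] at hgx
    exact hx hgx
  let H : Subgroup F := (stabilizer G d).subgroupOf F
  have hHmem : ∀ g : F, g ∈ H ↔ (g : G) • d = d := fun g => Iff.rfl
  have hHcard : Nat.card H = Nat.card (fixingSubgroup G ((insert d T : Finset α) : Set α)) := by
    refine Nat.card_congr
      { toFun := fun g => ⟨((g : F) : G), mem_fix_iff.2 fun x hx => ?_⟩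
        invFun := fun g => ⟨⟨g, mem_fix_iff.2 fun x hx => mem_fix_iff.1 g.2 x (Finset.mem_insert_of_mem hx)⟩,
          mem_fix_iff.1 g.2 d (Finset.mem_insert_self d T)⟩
        left_inv := fun g => rfl
        right_inv := fun g => rfl }
    rcases Finset.mem_insert.1 hx with rfl | hx
    · exact g.2
    · exact mem_fix_iff.1 (g : F).2 x hx
  by_cases hH : H = ⊥
  · refine ⟨F, fun g => ⟨fun hg => ⟨hg, or_iff_not_imp_left.2 fun hg1 x hx hgx => hg1 ?_⟩, And.left⟩, ?_⟩
    · obtain ⟨t, ht, rfl⟩ := htr x hx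
      have : (⟨t⁻¹ * g * t, F.mul_mem (F.mul_mem (F.inv_mem ht) hg) ht⟩ : F) ∈ H := by
        rw [hHmem]
        show (t⁻¹ * g * t) • d = d
        rw [mul_smul, mul_smul, hgx, inv_smul_smul]
      rw [hH, Subgroup.mem_bot] at this
      have e : t⁻¹ * g * t = 1 := congrArg Subtype.val this
      calc g = t * (t⁻¹ * g * t) * t⁻¹ := by group
        _ = 1 := by rw [e]; group
    · rw [hstep, ← hHcard, hH, Subgroup.card_bot, mul_one]
  have hfrob : Cfsg.IsFrobeniusComplement H := by
    refine ⟨hH, fun htop => ?_, fun g hg => ?_⟩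
    · obtain ⟨x, -, hx⟩ := Finset.exists_mem_notMem_of_card_lt_card (s := insert d T) (t := Finset.univ)
        (by rw [Finset.card_univ, Finset.card_insert_of_notMem hd]; omega)
      rw [Finset.mem_insert, not_or] at hx
      obtain ⟨t, ht, htx⟩ := htr x hx.2
      have h0 : t • d = d := (hHmem ⟨t, ht⟩).1 (htop ▸ Subgroup.mem_top _)
      exact hx.1 (htx.symm.trans h0)
    · rw [Subgroup.eq_bot_iff_forall]
      rintro x ⟨hx, hx'⟩
      have hx'' := mem_conj_smul.1 hx'
      rw [hHmem] at hx'' hg
      have hxd : (x : G) • d = d := hx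
      have hxe : (x : G) • (g : G) • d = (g : G) • d := by
        conv_rhs => rw [← hx'']
        show (x : G) • (g : G) • d = (g : G) • ((g : G)⁻¹ * (x : G) * (g : G)) • d
        rw [mul_smul, mul_smul, smul_inv_smul]
      refine Subtype.ext (hfix _ (insert ((g : G) • d) (insert d T)) ?_ fun y hy => ?_)
      · rw [Finset.card_insert_of_notMem, Finset.card_insert_of_notMem hd]
        · omega
        · rw [Finset.mem_insert, not_or]
          exact ⟨hg, hout _ g.2 d hd⟩
      · rcases Finset.mem_insert.1 hy with rfl | hy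
        · exact hxe
        rcases Finset.mem_insert.1 hy with rfl | hy
        · exact hxd
        · exact mem_fix_iff.1 x.2 y hy
  obtain ⟨N, hN, -, -⟩ := Frobenius.exists_kernel hfrob
  refine ⟨N.map F.subtype, fun g => ⟨?_, ?_⟩, ?_⟩
  · rintro ⟨u, hu, rfl⟩
    refine ⟨u.2, ?_⟩
    have hu' : u ∈ Cfsg.frobeniusKernel H := hN ▸ hu
    rcases mem_frobeniusKernel.1 hu' with h | h
    · exact Or.inl (congrArg Subtype.val h)
    · refine Or.inr fun x hx hux => ?_
      obtain ⟨t, ht, rfl⟩ := htr x hx
      refine h ⟨t, ht⟩ ?_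
      rw [hHmem]
      show (t⁻¹ * (u : G) * t) • d = d
      rw [mul_smul, mul_smul, show (u : G) • t • d = t • d from hux, inv_smul_smul]
  · rintro ⟨hg, hor⟩
    refine ⟨⟨g, hg⟩, ?_, rfl⟩
    show (⟨g, hg⟩ : F) ∈ N
    rw [← SetLike.mem_coe, hN, mem_frobeniusKernel]
    refine hor.imp (fun e => Subtype.ext e) fun h t ht => h _ (hout _ t.2 d hd) ?_
    rw [hHmem] at ht
    have e : ((t : G)⁻¹ * g * (t : G)) • d = d := ht
    rw [mul_smul, mul_smul, inv_smul_eq_iff] at e
    exact e
  · rw [Subgroup.card_map_of_injective F.subtype_injective]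
    have hi := Frobenius.natCard_kernel hfrob
    rw [← hN] at hi
    have h1 := H.index_mul_card
    rw [hstep, ← hHcard] at h1
    rw [show Nat.card N = H.index from hi]
    exact Nat.eq_of_mul_eq_mul_right Nat.card_pos h1

omit hfix in
theorem isMultiplyPretransitive_five {h : ℕ} (hn : 5 < Fintype.card α)
    (hh : ∀ s : Finset α, s.card = 4 → Nat.card (fixingSubgroup G (s : Set α)) = h)
    (hfull : h = Fintype.card α - 4)
    (hfix : ∀ (g : G) (s : Finset α), 5 ≤ s.card → (∀ x ∈ s, g • x = x) → g = 1) :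
    IsMultiplyPretransitive G α 5 := by
  refine isMultiplyPretransitive_of_fixator hn fun s hs u v hu hv => ?_
  have h1 := natCard_orbit_mul_fixingSubgroup_insert (G := G) (s : Set α) u
  have htriv : Nat.card (fixingSubgroup G (insert u (s : Set α))) = 1 := by
    refine Nat.card_eq_one_iff_unique.2 ⟨⟨fun x y => Subtype.ext ?_⟩, ⟨1⟩⟩
    have key : ∀ z : fixingSubgroup G (insert u (s : Set α)), (z : G) = 1 := fun z =>
      hfix _ (insert u s) (by rw [Finset.card_insert_of_notMem hu]; omega) fun w hw => by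
        refine z.2 ⟨w, ?_⟩
        simpa using hw
    rw [key x, key y]
  rw [htriv, mul_one, hh s (by omega)] at h1
  have horb : orbit (fixingSubgroup G (s : Set α)) u = ((s : Set α))ᶜ := by
    refine Set.eq_of_subset_of_ncard_le (orbit_fixingSubgroup_subset_compl (by simpa using hu)) ?_
    rw [← Nat.card_coe_set_eq (orbit _ u), h1, Set.ncard_compl, Set.ncard_coe_finset,
      Nat.card_eq_fintype_card, hfull]
    omega
  have hv' : v ∈ orbit (fixingSubgroup G (s : Set α)) u := by rw [horb]; simpa using hv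
  obtain ⟨⟨g, hg⟩, hgv⟩ := hv'
  exact ⟨g, fun x hx => mem_fix_iff.1 hg x hx, hgv⟩

set_option maxHeartbeats 2000000 in
/-- Four-transitive groups in which five points have trivial stabiliser. -/
theorem five_transitive_of_four_transitive (hn : 7 ≤ Fintype.card α) (hn11 : Fintype.card α ≠ 11) :
    IsMultiplyPretransitive G α 5 := by
  classical
  haveI := Fintype.ofFinite G
  haveI : FaithfulSMul G α := ⟨fun {g g'} e => by
    have := hfix (g'⁻¹ * g) Finset.univ (by rw [Finset.card_univ]; omega) fun x _ => by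
      rw [mul_smul, e, inv_smul_smul]
    exact (inv_mul_eq_one.1 this).symm⟩
  set n := Fintype.card α with hndef
  have hhom : IsPretransitive G (Set.powersetCard α 4) :=
    Set.powersetCard.isPretransitive_of_isMultiplyPretransitive _ h4
  obtain ⟨a, b, c, d, hnd⟩ : ∃ a b c d : α, [a, b, c, d].Nodup := by
    obtain ⟨s, -, hs⟩ := Finset.exists_subset_card_eq (s := (Finset.univ : Finset α)) (n := 4)
      (by rw [Finset.card_univ]; omega)
    match h : s.toList, (Finset.length_toList s).trans hs with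
    | [a, b, c, d], _ => exact ⟨a, b, c, d, h ▸ s.nodup_toList⟩
  simp only [List.nodup_cons, List.mem_cons, List.not_mem_nil, not_or, not_false_eq_true,
    List.nodup_nil, and_true] at hnd
  obtain ⟨⟨hab, hac, had⟩, ⟨hbc, hbd⟩, hcd⟩ := hnd
  set T : Finset α := {a, b, c} with hTdef
  have hT : T.card = 3 := Finset.card_eq_three.2 ⟨a, b, c, hab, hac, hbc, rfl⟩
  have hTmem : ∀ x, x ∈ T ↔ x = a ∨ x = b ∨ x = c := fun x => by simp [hTdef]
  have hdT : d ∉ T := by rw [hTmem]; rintro (h | h | h) <;> simp_all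
  set h := Nat.card (fixingSubgroup G ((insert d T : Finset α) : Set α)) with hhdef
  have hh : ∀ s : Finset α, s.card = 4 → Nat.card (fixingSubgroup G (s : Set α)) = h := fun s hs =>
    natCard_fixingSubgroup_eq hhom s _ hs (by rw [Finset.card_insert_of_notMem hdT, hT])
  have hhdvd : h ∣ n - 4 := by
    have hS : Nat.card (((insert d T : Finset α) : Set α)ᶜ : Set α) = n - 4 := by
      rw [Nat.card_coe_set_eq, Set.ncard_compl, Set.ncard_coe_finset, Nat.card_eq_fintype_card,
        Finset.card_insert_of_notMem hdT, hT]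
    rw [← hS]
    refine dvd_natCard_of_invariant (H := fixingSubgroup G ((insert d T : Finset α) : Set α)) _
      (fun g x hx => ?_) h fun x hx => ?_
    · intro hgx
      refine hx ?_
      have hgx' : (g : G) • x ∈ ((insert d T : Finset α) : Set α) := hgx
      have h1 := mem_fix_iff.1 g.2 _ (Finset.mem_coe.1 hgx')
      rwa [smul_left_cancel (g : G) h1] at hgx'
    · have h1 := natCard_orbit_mul_fixingSubgroup_insert (G := G) ((insert d T : Finset α) : Set α) x
      have htriv : Nat.card (fixingSubgroup G (insert x ((insert d T : Finset α) : Set α))) = 1 := by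
        refine Nat.card_eq_one_iff_unique.2 ⟨⟨fun u v => Subtype.ext ?_⟩, ⟨1⟩⟩
        have key : ∀ z : fixingSubgroup G (insert x ((insert d T : Finset α) : Set α)), (z : G) = 1 :=
          fun z => hfix _ (insert x (insert d T)) (by
            rw [Finset.card_insert_of_notMem (fun hh' => hx (Finset.mem_coe.2 hh')),
              Finset.card_insert_of_notMem hdT, hT]) fun w hw => z.2 ⟨w, by simpa using hw⟩
        rw [key u, key v]
      rw [htriv, mul_one] at h1
      exact dvd_of_eq h1.symm
  by_cases hfull : h = n - 4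
  · exact isMultiplyPretransitive_five h4 (by omega) hh hfull hfix
  exfalso
  obtain ⟨r, hr⟩ := hhdvd
  have hr2 : 2 ≤ r := by
    by_contra hlt
    interval_cases r <;> omega
  obtain ⟨K, hK, hKcard⟩ := exists_kernel_three h4 hfix (by omega) T hT
  set q := n - 3 with hqdef
  have hKfix : ∀ k ∈ K, ∀ x ∈ T, k • x = x := fun k hk x hx => mem_fix_iff.1 ((hK k).1 hk).1 x hx
  have hKout : ∀ k : K, (k : G) • d ∉ T := fun k hm => by
    have h1 := hKfix _ k.2 _ hm
    rw [smul_left_cancel (k : G) h1] at hm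
    exact hdT hm
  -- the kernel as a copy of the points outside `T`
  let pt : K → {x // x ∉ T} := fun k => ⟨(k : G) • d, hKout k⟩
  have hpt : Function.Bijective pt := by
    rw [Nat.bijective_iff_injective_and_card]
    refine ⟨fun k k' e => ?_, ?_⟩
    · have e' : (k : G) • d = (k' : G) • d := congrArg Subtype.val e
      have hm : (k' : G)⁻¹ * k ∈ K := K.mul_mem (K.inv_mem k'.2) k.2
      rcases ((hK _).1 hm).2 with h1 | h1
      · exact Subtype.ext (inv_mul_eq_one.1 h1).symm
      · exact absurd (by rw [mul_smul, e', inv_smul_smul]) (h1 d hdT)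
    · rw [hKcard, Nat.card_eq_fintype_card, Fintype.card_subtype_compl, Fintype.card_coe, hT]
  haveI := Fintype.ofFinite K
  -- conjugation by elements stabilising `T`
  have hconj : ∀ g : G, (∀ x ∈ T, g • x ∈ T) → ∀ k ∈ K, g * k * g⁻¹ ∈ K := by
    intro g hg k hk
    have hsurj : ∀ x ∈ T, ∃ y ∈ T, g • y = x := fun x hx => by
      have hi : T.image (g • ·) = T := Finset.eq_of_subset_of_card_le
        (fun y hy => by obtain ⟨z, hz, rfl⟩ := Finset.mem_image.1 hy; exact hg z hz)
        (Finset.card_image_of_injective _ (MulAction.injective g)).ge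
      rw [← hi] at hx
      exact Finset.mem_image.1 hx
    rw [hK]
    refine ⟨mem_fix_iff.2 fun x hx => ?_, ?_⟩
    · obtain ⟨y, hy, rfl⟩ := hsurj x hx
      rw [mul_smul, mul_smul, inv_smul_smul, hKfix k hk y hy]
    · rcases ((hK k).1 hk).2 with rfl | h1
      · exact Or.inl (by group)
      · refine Or.inr fun x hx e => h1 (g⁻¹ • x) (fun hm => hx ?_) ?_
        · simpa using hg _ hm
        · rw [mul_smul, mul_smul, ← eq_inv_smul_iff] at e
          exact e
  -- the fixed and inverted elements of the kernel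
  let C : G → Finset K := fun g => Finset.univ.filter fun k => g * (k : G) * g⁻¹ = k
  let I : G → Finset K := fun g => Finset.univ.filter fun k => g * (k : G) * g⁻¹ = (k : G)⁻¹
  have hCmem : ∀ g k, k ∈ C g ↔ g * (k : G) * g⁻¹ = k := fun g k => by simp [C]
  have hImem : ∀ g k, k ∈ I g ↔ g * (k : G) * g⁻¹ = (k : G)⁻¹ := fun g k => by simp [I]
  have hCfix : ∀ g : G, (∀ x ∈ T, g • x ∈ T) → g • d = d →
      (C g).card = ((fixFinset g : Finset α).filter (· ∉ T)).card := by
    intro g hg hgd
    refine Finset.card_bij (fun k _ => (k : G) • d) (fun k hk => ?_)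
      (fun k _ k' _ e => hpt.1 (Subtype.ext e)) fun x hx => ?_
    · refine Finset.mem_filter.2 ⟨mem_fixFinset.2 ?_, hKout k⟩
      conv_rhs => rw [← (hCmem g k).1 hk]
      rw [mul_smul, mul_smul, inv_smul_eq_iff.2 hgd.symm]
    · obtain ⟨hxf, hxT⟩ := Finset.mem_filter.1 hx
      obtain ⟨k, hk⟩ := hpt.2 ⟨x, hxT⟩
      have hk' : (k : G) • d = x := congrArg Subtype.val hk
      refine ⟨k, (hCmem g k).2 ?_, hk'⟩
      have e : (⟨g * (k : G) * g⁻¹, hconj g hg k k.2⟩ : K) = k := hpt.1 (Subtype.ext (by
        show (g * (k : G) * g⁻¹) • d = (k : G) • d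
        rw [mul_smul, mul_smul, inv_smul_eq_iff.2 hgd.symm, hk', mem_fixFinset.1 hxf]))
      exact congrArg Subtype.val e
  have hCI : ∀ g : G, (∀ x ∈ T, g • x ∈ T) → g * g = 1 → q ≤ (C g).card * (I g).card := by
    intro g hg hg2
    have hginv : g⁻¹ = g := inv_eq_of_mul_eq_one_right hg2
    let φ : K → K := fun k => ⟨(k : G)⁻¹ * (g * (k : G) * g⁻¹), K.mul_mem (K.inv_mem k.2) (hconj g hg k k.2)⟩
    have h1 := Finset.card_le_mul_card_image (f := φ) (Finset.univ : Finset K) (C g).card ?_
    · rw [Finset.card_univ, ← Nat.card_eq_fintype_card, hKcard] at h1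
      refine h1.trans (Nat.mul_le_mul_left _ (Finset.card_le_card fun k hk => ?_))
      obtain ⟨k', -, rfl⟩ := Finset.mem_image.1 hk
      rw [hImem]
      show g * ((k' : G)⁻¹ * (g * (k' : G) * g⁻¹)) * g⁻¹ = ((k' : G)⁻¹ * (g * (k' : G) * g⁻¹))⁻¹
      simp only [hginv, mul_inv_rev, inv_inv]
      calc g * ((k' : G)⁻¹ * (g * (k' : G) * g)) * g
          = g * (k' : G)⁻¹ * g * (k' : G) * (g * g) := by simp only [mul_assoc]
        _ = g * ((k' : G)⁻¹ * g) * (k' : G) := by rw [hg2, mul_one]; simp only [mul_assoc]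
    · intro y hy
      obtain ⟨k₀, -, rfl⟩ := Finset.mem_image.1 hy
      refine Finset.card_le_card_of_injOn (fun k => k * k₀⁻¹) (fun k hk => ?_)
        (fun k _ k' _ e => mul_right_cancel e)
      rw [Finset.mem_coe, Finset.mem_filter] at hk
      have e : (k : G)⁻¹ * (g * (k : G) * g⁻¹) = (k₀ : G)⁻¹ * (g * (k₀ : G) * g⁻¹) :=
        congrArg Subtype.val hk.2
      rw [Finset.mem_coe, hCmem]
      show g * ((k : G) * (k₀ : G)⁻¹) * g⁻¹ = (k : G) * (k₀ : G)⁻¹
      calc g * ((k : G) * (k₀ : G)⁻¹) * g⁻¹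
          = (k : G) * ((k : G)⁻¹ * (g * (k : G) * g⁻¹)) * (g * (k₀ : G) * g⁻¹)⁻¹ := by group
        _ = (k : G) * ((k₀ : G)⁻¹ * (g * (k₀ : G) * g⁻¹)) * (g * (k₀ : G) * g⁻¹)⁻¹ := by rw [e]
        _ = (k : G) * (k₀ : G)⁻¹ := by group
  have hII : ∀ g g' : G, I g ∩ I g' ⊆ C (g' * g) := by
    intro g g' k hk
    rw [Finset.mem_inter, hImem, hImem] at hk
    rw [hCmem]
    calc g' * g * (k : G) * (g' * g)⁻¹ = g' * (g * (k : G) * g⁻¹) * g'⁻¹ := by group
      _ = g' * (k : G)⁻¹ * g'⁻¹ := by rw [hk.1]
      _ = (g' * (k : G) * g'⁻¹)⁻¹ := by group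
      _ = k := by rw [hk.2, inv_inv]
  have hone : ∀ g : G, (1 : K) ∈ I g := fun g => by simp [hImem]
  have hCone : ∀ g : G, (1 : K) ∈ C g := fun g => by simp [hCmem]
  have hKbig : ∀ g : G, 8 ≤ n → (∀ x ∈ T, g • x ∈ T) → g • d = d → (C g) = Finset.univ → g = 1 := by
    intro g hn8 hg hgd hC
    refine hfix g Tᶜ (by rw [Finset.card_compl, hT]; omega) fun x hx => ?_
    obtain ⟨k, hk⟩ := hpt.2 ⟨x, Finset.mem_compl.1 hx⟩
    have hk' : (k : G) • d = x := congrArg Subtype.val hk
    have := (hCmem g k).1 (hC ▸ Finset.mem_univ k)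
    rw [← hk']
    conv_rhs => rw [← this, mul_smul, mul_smul, inv_smul_eq_iff.2 hgd.symm]
  rcases Nat.even_or_odd h with heven | hodd
  · -- an involution fixing four points
    have hn8 : 8 ≤ n := by
      have : 2 ∣ h * r := heven.two_dvd.mul_right r
      omega
    haveI : Fact (Nat.Prime 2) := ⟨Nat.prime_two⟩
    obtain ⟨⟨z, hz⟩, hz2⟩ := exists_prime_orderOf_dvd_card'
      (G := fixingSubgroup G ((insert d T : Finset α) : Set α)) 2 heven.two_dvd
    rw [Subgroup.orderOf_mk] at hz2
    have hzz : z * z = 1 := by rw [← sq, ← hz2, pow_orderOf_eq_one]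
    have hz1 : z ≠ 1 := fun e => by rw [e, orderOf_one] at hz2; omega
    have hzfix := mem_fix_iff.1 hz
    have hinv : ∀ y : G, y ≠ 1 → y * y = 1 → (∀ x ∈ insert d T, y • x = x) → I y = Finset.univ := by
      intro y hy1 hy2 hyfix
      have hyT : ∀ x ∈ T, y • x ∈ T := fun x hx => by
        rw [hyfix x (Finset.mem_insert_of_mem hx)]; exact hx
      have hC1 : (C y).card ≤ 1 := by
        rw [hCfix y hyT (hyfix d (Finset.mem_insert_self d T))]
        have h4' := card_fix_le h4 hfix y hy1
        have h1 : T ⊆ (fixFinset y : Finset α) := fun x hx =>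
          mem_fixFinset.2 (hyfix x (Finset.mem_insert_of_mem hx))
        rw [show (fixFinset y : Finset α).filter (· ∉ T) = fixFinset y \ T by ext; simp,
          Finset.card_sdiff_of_subset h1, hT]
        omega
      have h1 := hCI y hyT hy2
      have h2 := Nat.mul_le_mul_right (I y).card hC1
      refine Finset.eq_univ_of_card _ ?_
      have h3 := Finset.card_le_univ (I y)
      rw [← Nat.card_eq_fintype_card, hKcard] at h3 ⊢
      omega
    have huniq : ∀ y : G, y ≠ 1 → y * y = 1 → (∀ x ∈ insert d T, y • x = x) → y = z := by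
      intro y hy1 hy2 hyfix
      have e : z * y = 1 := by
        refine hKbig _ hn8 (fun x hx => ?_) ?_ (Finset.univ_subset_iff.1 ?_)
        · rw [mul_smul, hyfix x (Finset.mem_insert_of_mem hx), hzfix x (Finset.mem_insert_of_mem hx)]; exact hx
        · rw [mul_smul, hyfix d (Finset.mem_insert_self d T), hzfix d (Finset.mem_insert_self d T)]
        · have := hII y z
          rwa [hinv y hy1 hy2 hyfix, hinv z hz1 hzz hzfix, Finset.univ_inter] at this
      rw [← inv_eq_of_mul_eq_one_right e, inv_eq_of_mul_eq_one_right hzz]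
    obtain ⟨w, -, hw⟩ := Finset.exists_mem_notMem_of_card_lt_card (s := (fixFinset z : Finset α))
      (t := Finset.univ) (by
        have := card_fix_le h4 hfix z hz1
        rw [Finset.card_univ]; omega)
    rw [mem_fixFinset] at hw
    have hzwa : z • w ≠ a ∧ z • w ≠ b ∧ w ≠ a ∧ w ≠ b := by
      have ha := hzfix a (Finset.mem_insert_of_mem ((hTmem a).2 (Or.inl rfl)))
      have hb := hzfix b (Finset.mem_insert_of_mem ((hTmem b).2 (Or.inr (Or.inl rfl))))
      refine ⟨fun e => hw ?_, fun e => hw ?_, fun e => hw ?_, fun e => hw ?_⟩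
      · rw [smul_left_cancel z (e.trans ha.symm), ha]
      · rw [smul_left_cancel z (e.trans hb.symm), hb]
      · rw [e, ha]
      · rw [e, hb]
    obtain ⟨g, gw, gzw, ga, gb⟩ := exists_move_four h4 (a := w) (b := z • w) (c := a) (d := b)
      (a' := a) (b' := b) (c' := c) (d' := d)
      (by simp [Ne.symm hw, hzwa.1, hzwa.2.1, hzwa.2.2.1, hzwa.2.2.2, hab])
      (by simp [hab, hac, had, hbc, hbd, hcd])
    set σ := g * z * g⁻¹ with hσdef
    have hσapp : ∀ x : α, σ • g • x = g • z • x := fun x => by rw [hσdef, mul_smul, mul_smul, inv_smul_smul]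
    have hσa : σ • a = b := by rw [← gw, hσapp, gzw]
    have hσb : σ • b = a := by
      conv_lhs => rw [← gzw, hσapp, ← mul_smul z z, hzz, one_smul, gw]
    have hσc : σ • c = c := by
      rw [← ga, hσapp, hzfix a (Finset.mem_insert_of_mem ((hTmem a).2 (Or.inl rfl)))]
    have hσd : σ • d = d := by
      rw [← gb, hσapp, hzfix b (Finset.mem_insert_of_mem ((hTmem b).2 (Or.inr (Or.inl rfl))))]
    have hσ2 : σ * σ = 1 := by
      rw [hσdef, show g * z * g⁻¹ * (g * z * g⁻¹) = g * (z * z) * g⁻¹ by group, hzz]; group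
    have hσT : ∀ x ∈ T, σ • x ∈ T := by
      intro x hx
      rcases (hTmem x).1 hx with rfl | rfl | rfl
      · rw [hσa]; simp [hTdef]
      · rw [hσb]; simp [hTdef]
      · rw [hσc]; simp [hTdef]
    have hcomm : σ * z * σ⁻¹ = z := by
      refine huniq _ (fun e => hz1 ?_) ?_ fun x hx => ?_
      · calc z = σ⁻¹ * (σ * z * σ⁻¹) * σ := by group
          _ = 1 := by rw [e]; group
      · rw [show σ * z * σ⁻¹ * (σ * z * σ⁻¹) = σ * (z * z) * σ⁻¹ by group, hzz]; group
      · have hx' : σ⁻¹ • x ∈ insert d T := by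
          rw [inv_eq_of_mul_eq_one_right hσ2]
          rcases Finset.mem_insert.1 hx with rfl | hx'
          · rw [hσd]; exact Finset.mem_insert_self _ _
          · exact Finset.mem_insert_of_mem (hσT x hx')
        rw [mul_smul, mul_smul, hzfix _ hx', smul_inv_smul]
    have hC3 : ∀ y : G, y • a = b → y • b = a → y • c = c → y • d = d → (∀ x ∈ T, y • x ∈ T) →
        (C y).card ≤ 3 := by
      intro y hya hyb hyc hyd hyT
      rw [hCfix y hyT hyd]
      have h4' := card_fix_le h4 hfix y fun e => hab (by rw [← hya, e, one_smul])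
      have hsub : (fixFinset y : Finset α).filter (· ∉ T) ⊆ (fixFinset y).erase c := fun x hx =>
        Finset.mem_erase.2 ⟨fun e => (Finset.mem_filter.1 hx).2 (e ▸ (hTmem c).2 (Or.inr (Or.inr rfl))),
          (Finset.mem_filter.1 hx).1⟩
      have h2 := Finset.card_le_card hsub
      rw [Finset.card_erase_of_mem (mem_fixFinset.2 hyc)] at h2
      omega
    have hzT : ∀ x ∈ insert d T, (σ * z) • x = σ • x := fun x hx => by rw [mul_smul, hzfix x hx]
    have hIC : (I σ).card ≤ 3 := by
      refine le_trans (Finset.card_le_card (t := C (σ * z)) ?_) (hC3 (σ * z) ?_ ?_ ?_ ?_ ?_)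
      · have := hII z σ
        rwa [hinv z hz1 hzz hzfix, Finset.univ_inter] at this
      · rw [hzT a (by simp [hTdef]), hσa]
      · rw [hzT b (by simp [hTdef]), hσb]
      · rw [hzT c (by simp [hTdef]), hσc]
      · rw [hzT d (Finset.mem_insert_self d T), hσd]
      · intro x hx
        rw [hzT x (Finset.mem_insert_of_mem hx)]
        exact hσT x hx
    have hq9 : q ≤ 9 := (hCI σ hσT hσ2).trans (Nat.mul_le_mul (hC3 σ hσa hσb hσc hσd hσT) hIC)
    have hn12 : n = 12 := by
      let CS : Subgroup K :=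
        { carrier := {k | σ * (k : G) * σ⁻¹ = k}
          mul_mem' := fun {x y} hx hy => by
            show σ * ((x : G) * (y : G)) * σ⁻¹ = (x : G) * y
            calc σ * ((x : G) * (y : G)) * σ⁻¹ = (σ * (x : G) * σ⁻¹) * (σ * (y : G) * σ⁻¹) := by group
              _ = (x : G) * y := by rw [hx, hy]
          one_mem' := by simp
          inv_mem' := fun {x} hx => by
            show σ * (x : G)⁻¹ * σ⁻¹ = (x : G)⁻¹
            conv_rhs => rw [← (hx : σ * (x : G) * σ⁻¹ = x)]
            group }
      have hdvdC : (C σ).card ∣ q := by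
        have : Nat.card CS = (C σ).card := by
          rw [← Nat.card_eq_finsetCard]
          exact Nat.card_congr (Equiv.subtypeEquivRight fun k => (hCmem σ k).symm)
        rw [← this, ← hKcard]
        exact CS.card_subgroup_dvd_card
      have hC3' := hC3 σ hσa hσb hσc hσd hσT
      have hqb := (hCI σ hσT hσ2).trans (Nat.mul_le_mul_left _ hIC)
      have hC0 : 0 < (C σ).card := Finset.card_pos.2 ⟨1, hCone σ⟩
      rw [Nat.even_iff] at heven
      have hq2 : q % 2 = 1 := by
        have : 2 ∣ h * r := (Nat.dvd_of_mod_eq_zero heven).mul_right r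
        omega
      obtain ⟨t, ht⟩ := hdvdC
      rcases (show (C σ).card = 1 ∨ (C σ).card = 2 ∨ (C σ).card = 3 by omega) with e | e | e <;>
        rw [e] at ht hqb <;> omega
    have hh8 : h = 2 ∨ h = 4 := by
      have : h * r = 8 := by omega
      have hle : h ≤ 4 := by
        have := Nat.mul_le_mul_left h hr2
        omega
      rw [Nat.even_iff] at heven
      have : 0 < h := Nat.card_pos
      omega
    -- the stabiliser of a point has degree eleven
    set X := fixingSubgroup G (({a} : Finset α) : Set α)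
    have hba : b ∉ ({a} : Finset α) := by simp [Ne.symm hab]
    have hc2 : c ∉ ({b, a} : Finset α) := by simp [Ne.symm hac, Ne.symm hbc]
    have hXcard : Nat.card X = 11 * (10 * 9 * h) := by
      rw [natCard_fixingSubgroup_step h4 (by omega) {a} (by simp) hba,
        natCard_fixingSubgroup_step h4 (by omega) (insert b {a}) (by
          rw [Finset.card_insert_of_notMem hba, Finset.card_singleton]; omega) hc2,
        natCard_fixingSubgroup_step h4 (by omega) (insert c (insert b {a})) (by
          rw [Finset.card_insert_of_notMem hc2, Finset.card_insert_of_notMem hba, Finset.card_singleton]; omega)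
          (show d ∉ _ by simp [Ne.symm had, Ne.symm hbd, Ne.symm hcd]),
        hh _ (by simp [Ne.symm had, Ne.symm hbd, Ne.symm hcd, Ne.symm hac, Ne.symm hbc, Ne.symm hab])]
      rw [Finset.card_insert_of_notMem hc2, Finset.card_insert_of_notMem hba, Finset.card_singleton, ← hndef, hn12]
      ring
    haveI : Fact (Nat.Prime 11) := ⟨by norm_num⟩
    let β := SubMulAction.ofFixingSubgroup G (({a} : Finset α) : Set α)
    haveI : Fintype β := Fintype.ofFinite _
    haveI : IsPretransitive X β := by
      rw [← is_one_pretransitive_iff]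
      haveI := h4
      exact SubMulAction.ofFixingSubgroup.isMultiplyPretransitive' _
        (show (({a} : Finset α) : Set α).ncard + 1 ≤ 4 by simp) (by
          rw [ENat.card_eq_coe_natCard, Nat.card_eq_fintype_card]
          exact_mod_cast (show 4 ≤ n by omega))
    haveI : FaithfulSMul X β := ⟨fun {u v} e => Subtype.ext (eq_of_smul_eq_smul (α := α) fun x => by
      by_cases hx : x ∈ (({a} : Finset α) : Set α)
      · rw [u.2 ⟨x, hx⟩, v.2 ⟨x, hx⟩]
      · exact congrArg Subtype.val (e ⟨x, hx⟩))⟩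
    have hβ : Fintype.card β = 11 := by
      rw [← Nat.card_eq_fintype_card]
      have : Nat.card β = Nat.card ((({a} : Finset α) : Set α)ᶜ : Set α) := rfl
      rw [this, Nat.card_coe_set_eq, Set.ncard_compl, Set.ncard_coe_finset, Nat.card_eq_fintype_card,
        Finset.card_singleton]
      omega
    obtain ⟨e, he, -, hme⟩ := prime_degree_residue hβ hXcard
    have hele : e ≤ 10 := Nat.le_of_dvd (by norm_num) he
    rw [Nat.ModEq, Nat.mod_eq_of_lt (show e < 11 by omega)] at hme
    rcases hh8 with e' | e' <;> rw [e'] at hme <;> norm_num at hme <;> subst hme <;> norm_num at he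
  -- `h` is odd: swaps fixing two given points
  have hswap : ∀ s t u v : α, [s, t, u, v].Nodup →
      ∃ y : G, y * y = 1 ∧ y • s = t ∧ y • t = s ∧ y • u = u ∧ y • v = v := by
    intro s t u v hnd'
    have hnd2 : [t, s, u, v].Nodup := (List.Perm.swap t s [u, v]).nodup_iff.1 hnd'
    obtain ⟨g, gs, gt, gu, gv⟩ := exists_move_four h4 hnd' hnd2
    have hg2 : g * g ∈ fixingSubgroup G (([s, t, u, v].toFinset : Finset α) : Set α) :=
      mem_fix_iff.2 fun x hx => by
        simp only [List.mem_toFinset, List.mem_cons, List.not_mem_nil, or_false] at hx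
        rcases hx with rfl | rfl | rfl | rfl <;> rw [mul_smul]
        · rw [gs, gt]
        · rw [gt, gs]
        · rw [gu, gu]
        · rw [gv, gv]
    have hpow : (g * g) ^ h = 1 := by
      have hc := hh _ (List.toFinset_card_of_nodup hnd')
      rw [← hc]
      have h1 := pow_card_eq_one' (G := fixingSubgroup G (([s, t, u, v].toFinset : Finset α) : Set α))
        (x := ⟨g * g, hg2⟩)
      exact congrArg Subtype.val h1
    obtain ⟨i, hi⟩ := hodd
    have hgi : ∀ x : α, g • g • x = x → ∀ i : ℕ, (g ^ (2 * i + 1)) • x = g • x := by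
      intro x hx i
      induction i with
      | zero => rw [Nat.mul_zero, zero_add, pow_one]
      | succ i ih =>
        rw [show 2 * (i + 1) + 1 = 2 * i + 1 + 1 + 1 by ring, pow_succ, pow_succ, mul_smul, mul_smul, hx, ih]
    refine ⟨g ^ h, by rw [← (Commute.refl g).mul_pow, hpow], ?_, ?_, ?_, ?_⟩ <;> rw [hi, hgi]
    · exact gs
    · rw [gs, gt]
    · exact gt
    · rw [gt, gs]
    · exact gu
    · rw [gu, gu]
    · exact gv
    · rw [gv, gv]
  have hfix3 : ∀ y : G, y ≠ 1 → y * y = 1 → (fixFinset y : Finset α).card ≤ 3 := by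
    intro y hy1 hy2
    by_contra hlt
    have h4' := card_fix_le h4 hfix y hy1
    have hc := hh (fixFinset y) (by omega)
    have h1 := orderOf_dvd_natCard
      (⟨y, mem_fix_iff.2 fun x hx => mem_fixFinset.1 hx⟩ : fixingSubgroup G ((fixFinset y : Finset α) : Set α))
    rw [hc, Subgroup.orderOf_mk, orderOf_eq_prime (by rw [sq]; exact hy2) hy1] at h1
    rw [Nat.odd_iff] at hodd
    omega
  obtain ⟨u₁, u₁2, u₁a, u₁b, u₁c, u₁d⟩ := hswap a b c d (by simp [hab, hac, had, hbc, hbd, hcd])
  obtain ⟨u₂, u₂2, u₂a, u₂c, u₂b, u₂d⟩ := hswap a c b d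
    (by simp [hab, hac, had, Ne.symm hbc, hbd, hcd])
  obtain ⟨u₃, u₃2, u₃b, u₃c, u₃a, u₃d⟩ := hswap b c a d
    (by simp [Ne.symm hab, Ne.symm hac, had, hbc, hbd, hcd])
  have hT1 : ∀ x ∈ T, u₁ • x ∈ T := fun x hx => by
    rcases (hTmem x).1 hx with rfl | rfl | rfl
    · rw [u₁a]; simp [hTdef]
    · rw [u₁b]; simp [hTdef]
    · rw [u₁c]; simp [hTdef]
  have hT2 : ∀ x ∈ T, u₂ • x ∈ T := fun x hx => by
    rcases (hTmem x).1 hx with rfl | rfl | rfl
    · rw [u₂a]; simp [hTdef]
    · rw [u₂b]; simp [hTdef]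
    · rw [u₂c]; simp [hTdef]
  have hT3 : ∀ x ∈ T, u₃ • x ∈ T := fun x hx => by
    rcases (hTmem x).1 hx with rfl | rfl | rfl
    · rw [u₃a]; simp [hTdef]
    · rw [u₃b]; simp [hTdef]
    · rw [u₃c]; simp [hTdef]
  have hu1ne : u₁ ≠ 1 := fun e => hab (by rw [← u₁a, e, one_smul])
  have hu2ne : u₂ ≠ 1 := fun e => hac (by rw [← u₂a, e, one_smul])
  have hu3ne : u₃ ≠ 1 := fun e => hbc (by rw [← u₃b, e, one_smul])
  have hCswap : ∀ y : G, y ≠ 1 → y * y = 1 → ∀ t ∈ T, y • t = t → y • d = d → (∀ x ∈ T, y • x ∈ T) →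
      (C y).card ≤ 2 ∧ (n % 2 = 0 → (C y).card ≤ 1) := by
    intro y hy1 hy2 t ht hyt hyd hyT
    have hsub : (fixFinset y : Finset α).filter (· ∉ T) ⊆ (fixFinset y).erase t := fun x hx =>
      Finset.mem_erase.2 ⟨fun e => (Finset.mem_filter.1 hx).2 (e ▸ ht), (Finset.mem_filter.1 hx).1⟩
    have h2 := Finset.card_le_card hsub
    rw [Finset.card_erase_of_mem (mem_fixFinset.2 hyt), ← hCfix y hyT hyd] at h2
    have h3 := hfix3 y hy1 hy2
    have hpar := card_fixFinset_modEq_two (α := α) hy2
    rw [Nat.ModEq, ← hndef] at hpar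
    exact ⟨by omega, fun _ => by omega⟩
  have hC1 := hCswap u₁ hu1ne u₁2 c ((hTmem c).2 (Or.inr (Or.inr rfl))) u₁c u₁d hT1
  have hC2 := hCswap u₂ hu2ne u₂2 b ((hTmem b).2 (Or.inr (Or.inl rfl))) u₂b u₂d hT2
  have hC3 := hCswap u₃ hu3ne u₃2 a ((hTmem a).2 (Or.inl rfl)) u₃a u₃d hT3
  have hI1 := hCI u₁ hT1 u₁2
  have hI2 := hCI u₂ hT2 u₂2
  have hI3 := hCI u₃ hT3 u₃2
  rcases Nat.mod_two_eq_zero_or_one n with hneven | hnodd
  · -- the swaps invert the whole kernel
    have hall : ∀ {y : G}, (C y).card ≤ 1 → q ≤ (C y).card * (I y).card → I y = Finset.univ := by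
      intro y hy hy'
      have h2 := Nat.mul_le_mul_right (I y).card hy
      refine Finset.eq_univ_of_card _ ?_
      have h3 := Finset.card_le_univ (I y)
      rw [← Nat.card_eq_fintype_card, hKcard] at h3 ⊢
      omega
    have e := hII u₂ u₁
    rw [hall (hC1.2 hneven) hI1, hall (hC2.2 hneven) hI2, Finset.univ_inter] at e
    have h12 := hKbig (u₁ * u₂) (by omega) (fun x hx => by rw [mul_smul]; exact hT1 _ (hT2 x hx))
      (by rw [mul_smul, u₂d, u₁d]) (Finset.univ_subset_iff.1 e)
    have := congrArg (· • a) h12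
    simp only [mul_smul, u₂a, u₁c, one_smul] at this
    exact hac this.symm
  -- `n` is odd
  have hprod : ∀ y y' : G, (∀ x ∈ T, y • x ∈ T) → (∀ x ∈ T, y' • x ∈ T) → y • d = d → y' • d = d →
      y' * y ≠ 1 → (I y ∩ I y').card ≤ (fixFinset (y' * y) : Finset α).card := by
    intro y y' hy hy' hyd hy'd _
    refine (Finset.card_le_card (hII y y')).trans ?_
    rw [hCfix _ (fun x hx => by rw [mul_smul]; exact hy' _ (hy x hx)) (by rw [mul_smul, hyd, hy'd])]
    exact Finset.card_filter_le _ _
  have h12ne : u₂ * u₁ ≠ 1 := fun e => by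
    have := congrArg (· • a) e
    simp only [mul_smul, u₁a, u₂b, one_smul] at this
    exact hab this.symm
  have h13ne : u₃ * u₁ ≠ 1 := fun e => by
    have := congrArg (· • a) e
    simp only [mul_smul, u₁a, u₃b, one_smul] at this
    exact hac this.symm
  have h23ne : u₃ * u₂ ≠ 1 := fun e => by
    have := congrArg (· • a) e
    simp only [mul_smul, u₂a, u₃c, one_smul] at this
    exact hab this.symm
  have p12 := hprod u₁ u₂ hT1 hT2 u₁d u₂d h12ne
  have p13 := hprod u₁ u₃ hT1 hT3 u₁d u₃d h13ne
  have p23 := hprod u₂ u₃ hT2 hT3 u₂d u₃d h23ne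
  have f12 := card_fix_le h4 hfix _ h12ne
  have f13 := card_fix_le h4 hfix _ h13ne
  have f23 := card_fix_le h4 hfix _ h23ne
  -- inclusion and exclusion
  have hincl : ∀ A B D : Finset K, A.card + B.card + D.card + (A ∩ B ∩ D).card ≤
      q + (A ∩ B).card + (A ∩ D).card + (B ∩ D).card := by
    intro A B D
    have e1 := Finset.card_union_add_card_inter A B
    have e2 := Finset.card_union_add_card_inter (A ∪ B) D
    have e3 := Finset.card_union_add_card_inter (A ∩ D) (B ∩ D)
    rw [← Finset.union_inter_distrib_right, show A ∩ D ∩ (B ∩ D) = A ∩ B ∩ D by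
      rw [← Finset.inter_inter_distrib_right]] at e3
    have e4 := Finset.card_le_univ (A ∪ B ∪ D)
    rw [← Nat.card_eq_fintype_card, hKcard] at e4
    omega
  have hin := hincl (I u₁) (I u₂) (I u₃)
  have hI1' := hI1.trans (Nat.mul_le_mul_right (I u₁).card hC1.1)
  have hI2' := hI2.trans (Nat.mul_le_mul_right (I u₂).card hC2.1)
  have hI3' := hI3.trans (Nat.mul_le_mul_right (I u₃).card hC3.1)
  have htriple : 1 ≤ (I u₁ ∩ I u₂ ∩ I u₃).card :=
    Finset.card_pos.2 ⟨1, Finset.mem_inter.2 ⟨Finset.mem_inter.2 ⟨hone _, hone _⟩, hone _⟩⟩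
  by_cases hh1 : h = 1
  · -- one involution for each three points
    have hcard1 : ∀ (y : G) (s : Finset α), 4 ≤ s.card → (∀ x ∈ s, y • x = x) → y = 1 := by
      intro y s hs hys
      obtain ⟨s', hs', hs'c⟩ := Finset.exists_subset_card_eq hs
      have hc := hh s' hs'c
      rw [hh1, Nat.card_eq_one_iff_unique] at hc
      exact congrArg Subtype.val (hc.1.allEq (⟨y, mem_fix_iff.2 fun x hx => hys x (hs' hx)⟩ :
        fixingSubgroup G (s' : Set α)) 1)
    have hfix3' : ∀ y : G, y ≠ 1 → (fixFinset y : Finset α).card ≤ 3 := fun y hy => by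
      by_contra hlt
      exact hy (hcard1 y _ (by omega) fun x hx => mem_fixFinset.1 hx)
    have hex : ∀ T' : Finset α, T'.card = 3 → ∃ y : G, y ≠ 1 ∧ y * y = 1 ∧ ∀ x ∈ T', y • x = x := by
      intro T' hT'
      obtain ⟨K', hK', hK'c⟩ := exists_kernel_three h4 hfix (by omega) T' hT'
      haveI : Fact (Nat.Prime 2) := ⟨Nat.prime_two⟩
      obtain ⟨y, hy⟩ := exists_prime_orderOf_dvd_card' (G := K') 2 (by rw [hK'c]; omega)
      have hy' : orderOf (y : G) = 2 := by rw [Subgroup.orderOf_coe, hy]
      exact ⟨y, fun e => by rw [e, orderOf_one] at hy'; omega,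
        by rw [← sq, ← hy', pow_orderOf_eq_one], fun x hx => mem_fix_iff.1 ((hK' _).1 y.2).1 x hx⟩
    -- involutions fixing `a` and `b`
    let J : Finset G := Finset.univ.filter fun y => y ≠ 1 ∧ y * y = 1 ∧ y • a = a ∧ y • b = b
    have hJmem : ∀ y, y ∈ J ↔ y ≠ 1 ∧ y * y = 1 ∧ y • a = a ∧ y • b = b := fun y => by simp [J]
    have hab2 : ({a, b} : Finset α).card = 2 := Finset.card_pair hab
    have hJfix : ∀ y ∈ J, (fixFinset y : Finset α).card = 3 := by
      intro y hy
      rw [hJmem] at hy
      have h1 := hfix3' y hy.1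
      have h2 : ({a, b} : Finset α) ⊆ fixFinset y := by
        simp [Finset.insert_subset_iff, mem_fixFinset, hy.2.2.1, hy.2.2.2]
      have h3 := Finset.card_le_card h2
      have hpar := card_fixFinset_modEq_two (α := α) hy.2.1
      rw [Nat.ModEq, ← hndef] at hpar
      omega
    have hJcard : J.card * q = (q + 1) * q := by
      have hc2 : (Finset.univ \ {a, b} : Finset α).card = q + 1 := by
        rw [Finset.card_sdiff_of_subset (Finset.subset_univ _), Finset.card_univ, hab2, ← hndef]; omega
      have hoff : (Finset.univ \ {a, b} : Finset α).offDiag.card = (q + 1) * q := by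
        rw [Finset.offDiag_card, hc2, Nat.mul_succ]; omega
      rw [← hoff]
      have h1 : (J.sigma fun y => (Finset.univ \ fixFinset y : Finset α)).card = J.card * q := by
        rw [Finset.card_sigma, Finset.sum_congr rfl (g := fun _ => q) fun y hy => by
          rw [Finset.card_sdiff_of_subset (Finset.subset_univ _), Finset.card_univ, hJfix y hy]]
        rw [Finset.sum_const, smul_eq_mul]
      rw [← h1]
      refine Finset.card_bij (fun p _ => (p.2, p.1 • p.2)) ?_ ?_ ?_
      · rintro ⟨y, x⟩ hp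
        simp only [Finset.mem_sigma, Finset.mem_sdiff, Finset.mem_univ, true_and, mem_fixFinset] at hp
        obtain ⟨hyJ, hx⟩ := hp
        rw [hJmem] at hyJ
        simp only [Finset.mem_offDiag, Finset.mem_sdiff, Finset.mem_univ, true_and, Finset.mem_insert,
          Finset.mem_singleton, not_or]
        refine ⟨⟨fun e => hx (e ▸ hyJ.2.2.1), fun e => hx (e ▸ hyJ.2.2.2)⟩, ⟨fun e => hx ?_, fun e => hx ?_⟩,
          Ne.symm hx⟩
        · rw [smul_left_cancel y (e.trans hyJ.2.2.1.symm), hyJ.2.2.1]
        · rw [smul_left_cancel y (e.trans hyJ.2.2.2.symm), hyJ.2.2.2]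
      · rintro ⟨y, x⟩ hp ⟨y', x'⟩ hp' e
        simp only [Finset.mem_sigma, Finset.mem_sdiff, Finset.mem_univ, true_and, mem_fixFinset] at hp hp'
        obtain ⟨hyJ, hx⟩ := hp
        obtain ⟨hy'J, -⟩ := hp'
        rw [hJmem] at hyJ hy'J
        simp only [Prod.mk.injEq] at e
        obtain ⟨rfl, e⟩ := e
        have hxa : x ≠ a := fun e' => hx (e' ▸ hyJ.2.2.1)
        have hxb : x ≠ b := fun e' => hx (e' ▸ hyJ.2.2.2)
        have hyx : y • y • x = x := by rw [← mul_smul, hyJ.2.1, one_smul]
        have hy'x : y' • y' • x = x := by rw [← mul_smul, hy'J.2.1, one_smul]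
        have h1 : y' * y = 1 := by
          refine hcard1 _ {a, b, x, y • x} ?_ ?_
          · rw [Finset.card_insert_of_notMem, Finset.card_insert_of_notMem, Finset.card_pair (Ne.symm hx)]
            · simp only [Finset.mem_insert, Finset.mem_singleton, not_or]
              exact ⟨Ne.symm hxb, fun e' => hxb (by rw [← hyx, ← e', hyJ.2.2.2])⟩
            · simp only [Finset.mem_insert, Finset.mem_singleton, not_or]
              exact ⟨hab, Ne.symm hxa, fun e' => hxa (by rw [← hyx, ← e', hyJ.2.2.1])⟩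
          · intro w hw
            simp only [Finset.mem_insert, Finset.mem_singleton] at hw
            rcases hw with rfl | rfl | rfl | rfl
            · rw [mul_smul, hyJ.2.2.1, hy'J.2.2.1]
            · rw [mul_smul, hyJ.2.2.2, hy'J.2.2.2]
            · rw [mul_smul, e, hy'x]
            · rw [mul_smul, hyx, e]
        have : y = y' := by
          rw [← inv_eq_of_mul_eq_one_right h1, inv_eq_of_mul_eq_one_right hy'J.2.1]
        subst this
        rfl
      · rintro ⟨x, x'⟩ hp
        simp only [Finset.mem_offDiag, Finset.mem_sdiff, Finset.mem_univ, true_and, Finset.mem_insert,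
          Finset.mem_singleton, not_or] at hp
        obtain ⟨⟨hxa, hxb⟩, ⟨hx'a, hx'b⟩, hne⟩ := hp
        obtain ⟨y, y2, yx, yx', ya, yb⟩ := hswap x x' a b (by simp [hxa, hxb, hx'a, hx'b, hne, hab])
        refine ⟨⟨y, x⟩, ?_, by simp [yx]⟩
        simp only [Finset.mem_sigma, Finset.mem_sdiff, Finset.mem_univ, true_and, mem_fixFinset, hJmem]
        exact ⟨⟨fun e => hne (by rw [← yx, e, one_smul]), y2, ya, yb⟩, fun e => hne (e.symm.trans yx)⟩
    have hJq : J.card = q + 1 := Nat.eq_of_mul_eq_mul_right (by omega) hJcard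
    have huni : ∀ y ∈ J, ∀ y' ∈ J, y • c = c → y' • c = c → y = y' := by
      let f : G → Finset α := fun y => fixFinset y
      have hsub : (Finset.univ \ {a, b} : Finset α).image (fun e => insert e ({a, b} : Finset α)) ⊆ J.image f := by
        intro T' hT'
        obtain ⟨e, he, rfl⟩ := Finset.mem_image.1 hT'
        rw [Finset.mem_sdiff] at he
        have hc3 : (insert e ({a, b} : Finset α)).card = 3 := by
          rw [Finset.card_insert_of_notMem he.2, hab2]
        obtain ⟨y, y1, y2, yfix⟩ := hex _ hc3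
        have hyJ : y ∈ J := (hJmem y).2 ⟨y1, y2, yfix a (by simp), yfix b (by simp)⟩
        refine Finset.mem_image.2 ⟨y, hyJ, (Finset.eq_of_subset_of_card_le
          (fun x hx => mem_fixFinset.2 (yfix x hx)) ?_).symm⟩
        rw [hJfix y hyJ, hc3]
      have hcI : ((Finset.univ \ {a, b} : Finset α).image (fun e => insert e ({a, b} : Finset α))).card = q + 1 := by
        rw [Finset.card_image_of_injOn, Finset.card_sdiff_of_subset (Finset.subset_univ _), Finset.card_univ,
          hab2, ← hndef]
        · omega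
        · intro e he e' he' hee
          rw [Finset.mem_coe, Finset.mem_sdiff] at he he'
          have : e ∈ insert e' ({a, b} : Finset α) := by
            rw [← show insert e ({a, b} : Finset α) = insert e' {a, b} from hee]
            exact Finset.mem_insert_self e _
          exact (Finset.mem_insert.1 this).resolve_right he.2
      have hinj : Set.InjOn f J := Finset.injOn_of_card_image_eq (le_antisymm Finset.card_image_le
        (by have := Finset.card_le_card hsub; omega))
      intro y hy y' hy' hyc hy'c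
      refine hinj hy hy' ?_
      have key : ∀ z ∈ J, z • c = c → f z = T := fun z hz hzc => by
        refine (Finset.eq_of_subset_of_card_le (fun x hx => mem_fixFinset.2 ?_) (by rw [hJfix z hz, hT])).symm
        rcases (hTmem x).1 hx with rfl | rfl | rfl
        · exact ((hJmem z).1 hz).2.2.1
        · exact ((hJmem z).1 hz).2.2.2
        · exact hzc
      rw [key y hy hyc, key y' hy' hy'c]
    haveI : Fact (Nat.Prime 2) := ⟨Nat.prime_two⟩
    obtain ⟨z, hz⟩ := exists_prime_orderOf_dvd_card' (G := K) 2 (by rw [hKcard]; omega)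
    have hz' : orderOf (z : G) = 2 := by rw [Subgroup.orderOf_coe, hz]
    have hz1 : (z : G) ≠ 1 := fun e => by rw [e, orderOf_one] at hz'; omega
    have hzz : (z : G) * z = 1 := by rw [← sq, ← hz', pow_orderOf_eq_one]
    have hzJ : (z : G) ∈ J := (hJmem _).2 ⟨hz1, hzz, hKfix _ z.2 a (by simp [hTdef]),
      hKfix _ z.2 b (by simp [hTdef])⟩
    have hzcentral : ∀ y : G, (∀ x ∈ T, y • x ∈ T) → y * z * y⁻¹ = z := by
      intro y hy
      have hm := hconj y hy z z.2
      refine huni _ ((hJmem _).2 ⟨fun e => hz1 ?_, ?_, hKfix _ hm a (by simp [hTdef]),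
        hKfix _ hm b (by simp [hTdef])⟩) _ hzJ (hKfix _ hm c (by simp [hTdef])) (hKfix _ z.2 c (by simp [hTdef]))
      · calc (z : G) = y⁻¹ * (y * z * y⁻¹) * y := by group
          _ = 1 := by rw [e]; group
      · rw [show y * (z : G) * y⁻¹ * (y * z * y⁻¹) = y * ((z : G) * z) * y⁻¹ by group, hzz]; group
    have hzI : ∀ y : G, (∀ x ∈ T, y • x ∈ T) → z ∈ I y := fun y hy => by
      rw [hImem, hzcentral y hy]
      exact (inv_eq_of_mul_eq_one_right hzz).symm
    have hpair : ∀ y y' : G, (∀ x ∈ T, y • x ∈ T) → (∀ x ∈ T, y' • x ∈ T) → y • d = d → y' • d = d →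
        y' * y ≠ 1 → (I y ∩ I y').card ≤ 2 := by
      intro y y' hy hy' hyd hy'd hne
      refine (Finset.card_le_card (hII y y')).trans ?_
      have hC := (hCfix _ (fun x hx => by rw [mul_smul]; exact hy' _ (hy x hx))
        (by rw [mul_smul, hyd, hy'd])).le.trans ((Finset.card_filter_le _ _).trans (hfix3' _ hne))
      -- a subgroup with an involution has even order
      have hzC : z ∈ C (y' * y) := by
        rw [hCmem, hzcentral _ fun x hx => by rw [mul_smul]; exact hy' _ (hy x hx)]
      by_contra hlt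
      obtain ⟨k, hk, hk1⟩ := Finset.exists_mem_notMem_of_card_lt_card (s := ({1, z} : Finset K))
        (t := C (y' * y)) (lt_of_le_of_lt Finset.card_le_two (by omega))
      simp only [Finset.mem_insert, Finset.mem_singleton, not_or] at hk1
      have hkz : k * z ∈ C (y' * y) := by
        rw [hCmem] at hk hzC ⊢
        rw [Subgroup.coe_mul, show y' * y * ((k : G) * z) * (y' * y)⁻¹ =
          (y' * y * (k : G) * (y' * y)⁻¹) * (y' * y * z * (y' * y)⁻¹) by group, hk, hzC]
      have hz1' : z ≠ 1 := fun e => hz1 (congrArg Subtype.val e)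
      have : ({1, z, k, k * z} : Finset K) ⊆ C (y' * y) := by
        simp [Finset.insert_subset_iff, hCone, hzC, hk, hkz]
      have h4c := Finset.card_le_card this
      rw [Finset.card_insert_of_notMem, Finset.card_insert_of_notMem, Finset.card_pair] at h4c
      · omega
      · exact fun e => hz1' (left_eq_mul.1 e)
      · simp only [Finset.mem_insert, Finset.mem_singleton, not_or]
        exact ⟨Ne.symm hk1.2, fun e => hk1.1 (right_eq_mul.1 e)⟩
      · simp only [Finset.mem_insert, Finset.mem_singleton, not_or]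
        refine ⟨Ne.symm hz1', Ne.symm hk1.1, fun e => hk1.2 ?_⟩
        calc k = 1 * z⁻¹ := by rw [e]; group
          _ = z := by rw [one_mul]; exact Subtype.ext (inv_eq_of_mul_eq_one_right hzz)
    have q12 := hpair u₁ u₂ hT1 hT2 u₁d u₂d h12ne
    have q13 := hpair u₁ u₃ hT1 hT3 u₁d u₃d h13ne
    have q23 := hpair u₂ u₃ hT2 hT3 u₂d u₃d h23ne
    have ht2 : 2 ≤ (I u₁ ∩ I u₂ ∩ I u₃).card := by
      have : ({1, z} : Finset K) ⊆ I u₁ ∩ I u₂ ∩ I u₃ := by
        simp [Finset.insert_subset_iff, hone, hzI u₁ hT1, hzI u₂ hT2, hzI u₃ hT3]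
      have h2 := Finset.card_le_card this
      rwa [Finset.card_pair (fun e => hz1 (congrArg Subtype.val e.symm))] at h2
    -- the product of two swaps has order three
    have hτT : ∀ x ∈ T, (u₂ * u₁) • x ∈ T := fun x hx => by rw [mul_smul]; exact hT2 _ (hT1 x hx)
    have hτd : (u₂ * u₁) • d = d := by rw [mul_smul, u₁d, u₂d]
    have hτa : (u₂ * u₁) • a = b := by rw [mul_smul, u₁a, u₂b]
    have hτb : (u₂ * u₁) • b = c := by rw [mul_smul, u₁b, u₂a]
    have hτc : (u₂ * u₁) • c = a := by rw [mul_smul, u₁c, u₂c]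
    have hτ3 : (u₂ * u₁) ^ 3 = 1 := hcard1 _ (insert d T)
      (by rw [Finset.card_insert_of_notMem hdT, hT]) fun x hx => by
        rw [pow_succ, pow_two, mul_smul, mul_smul]
        rcases Finset.mem_insert.1 hx with rfl | hx
        · rw [hτd, hτd, hτd]
        rcases (hTmem x).1 hx with rfl | rfl | rfl
        · rw [hτa, hτb, hτc]
        · rw [hτb, hτc, hτa]
        · rw [hτc, hτa, hτb]
    have hCτ : (C (u₂ * u₁)).card ≤ 3 := by
      rw [hCfix _ hτT hτd]
      exact (Finset.card_filter_le _ _).trans (hfix3' _ h12ne)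
    have hCτ2 : (C (u₂ * u₁)).card = 2 := by
      have hzC : z ∈ C (u₂ * u₁) := by rw [hCmem, hzcentral _ hτT]
      have hlow : 2 ≤ (C (u₂ * u₁)).card := by
        have : ({1, z} : Finset K) ⊆ C (u₂ * u₁) := by simp [Finset.insert_subset_iff, hCone, hzC]
        have h2 := Finset.card_le_card this
        rwa [Finset.card_pair (fun e => hz1 (congrArg Subtype.val e.symm))] at h2
      by_contra hne
      obtain ⟨k, hk, hk1⟩ := Finset.exists_mem_notMem_of_card_lt_card (s := ({1, z} : Finset K))
        (t := C (u₂ * u₁)) (lt_of_le_of_lt Finset.card_le_two (by omega))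
      simp only [Finset.mem_insert, Finset.mem_singleton, not_or] at hk1
      have hz1' : z ≠ 1 := fun e => hz1 (congrArg Subtype.val e)
      have hkz : k * z ∈ C (u₂ * u₁) := by
        rw [hCmem] at hk hzC ⊢
        rw [Subgroup.coe_mul, show u₂ * u₁ * ((k : G) * z) * (u₂ * u₁)⁻¹ =
          (u₂ * u₁ * (k : G) * (u₂ * u₁)⁻¹) * (u₂ * u₁ * z * (u₂ * u₁)⁻¹) by group, hk, hzC]
      have : ({1, z, k, k * z} : Finset K) ⊆ C (u₂ * u₁) := by
        simp [Finset.insert_subset_iff, hCone, hzC, hk, hkz]
      have h4c := Finset.card_le_card this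
      rw [Finset.card_insert_of_notMem, Finset.card_insert_of_notMem, Finset.card_pair] at h4c
      · omega
      · exact fun e => hz1' (left_eq_mul.1 e)
      · simp only [Finset.mem_insert, Finset.mem_singleton, not_or]
        exact ⟨Ne.symm hk1.2, fun e => hk1.1 (right_eq_mul.1 e)⟩
      · simp only [Finset.mem_insert, Finset.mem_singleton, not_or]
        refine ⟨Ne.symm hz1', Ne.symm hk1.1, fun e => hk1.2 ?_⟩
        calc k = 1 * z⁻¹ := by rw [e]; group
          _ = z := by rw [one_mul]; exact Subtype.ext (inv_eq_of_mul_eq_one_right hzz)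
    have hmod3 := card_modEq_card_filter_fixed (toPermHom G α (u₂ * u₁)) Nat.prime_three
      (by rw [← map_pow, hτ3, map_one]) Finset.univ
      (Finset.image_univ_of_surjective (toPermHom G α (u₂ * u₁)).surjective)
    have hfixT : (fixFinset (u₂ * u₁) : Finset α).filter (· ∉ T) = fixFinset (u₂ * u₁) := by
      refine Finset.filter_eq_self.2 fun x hx hxT => ?_
      rw [mem_fixFinset] at hx
      rcases (hTmem x).1 hxT with rfl | rfl | rfl
      · exact hab (hx.symm.trans hτa)
      · exact hbc (hx.symm.trans hτb)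
      · exact hac (hτc.symm.trans hx)
    have hfτ : (fixFinset (u₂ * u₁) : Finset α).card = 2 := by
      rw [← hfixT, ← hCfix _ hτT hτd, hCτ2]
    have hmod3' : n % 3 = (fixFinset (u₂ * u₁) : Finset α).card % 3 := hmod3
    rw [hfτ] at hmod3'
    omega
  -- `h > 1`: a finite list of cases
  have hq22 : q ≤ 22 := by omega
  have hh3 : 3 * h ≤ q - 1 := by
    have hr3 : 3 ≤ r := by
      rcases Nat.lt_or_ge r 3 with hlt | hge
      · exfalso
        obtain rfl : r = 2 := by omega
        omega
      · exact hge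
    have := Nat.mul_le_mul_left h hr3
    omega
  have hcases : (q + 1 = 11 ∨ q + 1 = 17 ∨ q + 1 = 23) ∧
      ((q = 10 ∧ h = 3) ∨ (q = 16 ∧ (h = 3 ∨ h = 5)) ∨ (q = 22 ∧ (h = 3 ∨ h = 7))) := by
    have hdq : (q - 1) % h = 0 := by
      rw [show q - 1 = h * r by omega]; exact Nat.mul_mod_right h r
    have hh0 : 0 < h := Nat.card_pos
    exact (small_cases q (Finset.mem_range.2 (by omega)) h (Finset.mem_range.2 (by omega))).resolve_left
      (fun hn' => hn' ⟨by omega, by omega, Nat.odd_iff.1 hodd, by omega, hh3, hdq⟩)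
  haveI : Fact (q + 1).Prime := ⟨by rcases hcases.1 with e | e | e <;> rw [e] <;> norm_num⟩
  have hba : b ∉ ({a} : Finset α) := by simp [Ne.symm hab]
  have hc2 : c ∉ (insert b {a} : Finset α) := by simp [Ne.symm hac, Ne.symm hbc]
  set X := fixingSubgroup G ((insert b {a} : Finset α) : Set α)
  have hXcard : Nat.card X = (q + 1) * (q * h) := by
    rw [natCard_fixingSubgroup_step h4 (by omega) (insert b {a}) (by
        rw [Finset.card_insert_of_notMem hba, Finset.card_singleton]; omega) hc2,
      natCard_fixingSubgroup_step h4 (by omega) (insert c (insert b {a})) (by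
        rw [Finset.card_insert_of_notMem hc2, Finset.card_insert_of_notMem hba, Finset.card_singleton]; omega)
        (show d ∉ _ by simp [Ne.symm had, Ne.symm hbd, Ne.symm hcd]),
      hh _ (by simp [Ne.symm had, Ne.symm hbd, Ne.symm hcd, Ne.symm hac, Ne.symm hbc, Ne.symm hab])]
    rw [Finset.card_insert_of_notMem hc2, Finset.card_insert_of_notMem hba, Finset.card_singleton, ← hndef,
      show n - (1 + 1) = q + 1 by omega, show n - (1 + 1 + 1) = q by omega]
  let β := SubMulAction.ofFixingSubgroup G ((insert b {a} : Finset α) : Set α)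
  haveI : Fintype β := Fintype.ofFinite _
  haveI : IsPretransitive X β := by
    rw [← is_one_pretransitive_iff]
    haveI := h4
    exact SubMulAction.ofFixingSubgroup.isMultiplyPretransitive' _
      (show ((insert b {a} : Finset α) : Set α).ncard + 1 ≤ 4 by
        rw [Set.ncard_coe_finset, Finset.card_insert_of_notMem hba, Finset.card_singleton]; omega) (by
        rw [ENat.card_eq_coe_natCard, Nat.card_eq_fintype_card]
        exact_mod_cast (show 4 ≤ n by omega))
  haveI : FaithfulSMul X β := ⟨fun {u v} e => Subtype.ext (eq_of_smul_eq_smul (α := α) fun x => by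
    by_cases hx : x ∈ ((insert b {a} : Finset α) : Set α)
    · rw [u.2 ⟨x, hx⟩, v.2 ⟨x, hx⟩]
    · exact congrArg Subtype.val (e ⟨x, hx⟩))⟩
  have hβ : Fintype.card β = q + 1 := by
    rw [← Nat.card_eq_fintype_card]
    have : Nat.card β = Nat.card (((insert b {a} : Finset α) : Set α)ᶜ : Set α) := rfl
    rw [this, Nat.card_coe_set_eq, Set.ncard_compl, Set.ncard_coe_finset, Nat.card_eq_fintype_card,
      Finset.card_insert_of_notMem hba, Finset.card_singleton]
    omega
  obtain ⟨e, he, -, hme⟩ := prime_degree_residue hβ hXcard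
  rw [Nat.add_sub_cancel] at he
  have hele : e ≤ q := Nat.le_of_dvd (by omega) he
  rw [Nat.ModEq, Nat.mod_eq_of_lt (show e < q + 1 by omega)] at hme
  rcases hcases.2 with ⟨e1, e2⟩ | ⟨e1, e2 | e2⟩ | ⟨e1, e2 | e2⟩ <;>
    rw [e1, e2] at hme <;> rw [e1] at he <;> norm_num at hme <;> subst hme <;> norm_num at he

end main

end Cfsg.Agent.PermGroups
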