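import Mathlib
import Cfsg.Agent.PermGroups.NormalTransitive
import Cfsg.Agent.PermGroups.DerangementIndex

/-!
Normal subgroups of doubly and triply transitive groups; Wagner's theorem.
-/

set_option autoImplicit false
set_option linter.style.haveILetI false

namespace Cfsg.Agent.PermGroups

open MulAction
open scoped Pointwise

universe u v

variable {G : Type u} [Group G] {α : Type v} [MulAction G α] [Finite G] [Finite α] [FaithfulSMul G α]

/-- A non-regular normal subgroup of a triply transitive group is doubly transitive. -/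
theorem two_transitive_of_nonregular_normal (h3 : 3 ≤ Nat.card α)
    (hG : IsMultiplyPretransitive G α 3) (N : Subgroup G) [hN : N.Normal] {a : α}
    (ha : stabilizer N a ≠ ⊥) : IsMultiplyPretransitive N α 2 := by
  have hN0 : N ≠ ⊥ := by
    intro e
    refine ha ((Subgroup.eq_bot_iff_forall _).2 fun x _ => Subtype.ext ?_)
    exact Subgroup.mem_bot.1 (e ▸ x.2)
  have hG2 : IsMultiplyPretransitive G α 2 := isMultiplyPretransitive_of_le (n := 3) (by omega) h3
  haveI hprim : IsPreprimitive G α := isPreprimitive_of_is_two_pretransitive hG2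
  haveI : IsPretransitive N α := pretransitive_of_normal N hN0
  haveI := faithful_ofStabilizer (G := G) a
  haveI : IsPretransitive G α := hprim.toIsPretransitive
  haveI : IsPreprimitive (stabilizer G a) (SubMulAction.ofStabilizer G a) :=
    isPreprimitive_of_is_two_pretransitive
      ((SubMulAction.ofStabilizer.isMultiplyPretransitive (a := a)).1 hG)
  apply multiplyPretransitive_succ_of_subgroupOf N a
  rw [is_one_pretransitive_iff]
  refine pretransitive_of_normal _ fun e => ha ((Subgroup.eq_bot_iff_forall _).2 fun x hx => ?_)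
  have : (⟨((x : N) : G), hx⟩ : stabilizer G a) ∈ N.subgroupOf (stabilizer G a) := x.2
  rw [e, Subgroup.mem_bot] at this
  exact Subtype.ext (congrArg (fun z : stabilizer G a => (z : G)) this)

/-- Wagner's theorem. -/
theorem three_transitive_of_normal (hodd : Odd (Nat.card α)) (h5 : 5 ≤ Nat.card α)
    (hG : IsMultiplyPretransitive G α 3) (N : Subgroup G) [hN : N.Normal] (hN0 : N ≠ ⊥) :
    IsMultiplyPretransitive N α 3 := by
  classical
  have hG2 : IsMultiplyPretransitive G α 2 := isMultiplyPretransitive_of_le (n := 3) (by omega) (by omega)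
  haveI hprim : IsPreprimitive G α := isPreprimitive_of_is_two_pretransitive hG2
  haveI hNt : IsPretransitive N α := pretransitive_of_normal N hN0
  -- `N` is not regular
  obtain ⟨a₀, ha₀⟩ : ∃ a : α, stabilizer N a ≠ ⊥ := by
    by_contra hreg
    push Not at hreg
    have h2p : IsMultiplyPreprimitive G α 2 :=
      isMultiplyPreprimitive_of_isMultiplyPretransitive_succ G α (by
        rw [ENat.card_eq_coe_natCard]; exact_mod_cast (show 2 + 1 ≤ Nat.card α by omega))
    rcases two_primitive_regular_normal (by omega) h2p N hNt hreg with h | ⟨-, -, m, hm⟩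
    · omega
    · rw [hm, Nat.odd_iff] at hodd
      rcases m with _ | m
      · omega
      · rw [pow_succ] at hodd; omega
  have h2N := two_transitive_of_nonregular_normal (by omega) hG N ha₀
  have h2t : ∀ {a b c d : α}, a ≠ b → c ≠ d → ∃ g : N, g • a = c ∧ g • b = d :=
    is_two_pretransitive_iff.1 h2N
  -- it is enough that the two-point stabilisers are transitive on the other points
  suffices key : ∀ a b c d : α, a ≠ b → a ≠ c → b ≠ c → a ≠ d → b ≠ d →
      ∃ g : N, g • a = a ∧ g • b = b ∧ g • c = d by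
    refine ⟨fun x y => ?_⟩
    have hx : ∀ i j : Fin 3, i ≠ j → x i ≠ x j := fun i j h e => h (x.injective e)
    have hy : ∀ i j : Fin 3, i ≠ j → y i ≠ y j := fun i j h e => h (y.injective e)
    obtain ⟨g, g0, g1⟩ := h2t (hx 0 1 (by decide)) (hy 0 1 (by decide))
    obtain ⟨k, k0, k1, k2⟩ := key (y 0) (y 1) (g • x 2) (y 2) (hy 0 1 (by decide))
      (fun e => hx 0 2 (by decide) (smul_left_cancel g (g0.trans e)))
      (fun e => hx 1 2 (by decide) (smul_left_cancel g (g1.trans e)))
      (hy 0 2 (by decide)) (hy 1 2 (by decide))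
    refine ⟨k * g, Function.Embedding.ext fun i => ?_⟩
    show (k * g) • x i = y i
    fin_cases i
    · show (k * g) • x 0 = y 0
      rw [mul_smul, g0, k0]
    · show (k * g) • x 1 = y 1
      rw [mul_smul, g1, k1]
    · show (k * g) • x 2 = y 2
      rw [mul_smul, k2]
  intro a b c d hab hac hbc had hbd
  -- the stabiliser of the two points
  set L : Subgroup N := stabilizer N a ⊓ stabilizer N b with hL
  by_contra hno
  have hnotmem : d ∉ orbit L c := by
    rintro ⟨⟨g, hg⟩, hgc⟩
    exact hno ⟨g, hg.1, hg.2, hgc⟩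
  have h3t : ∀ u v : α, a ≠ u → b ≠ u → a ≠ v → b ≠ v →
      ∃ g : G, g • a = a ∧ g • b = b ∧ g • u = v := by
    intro u v h1 h2 h3 h4
    let x : Fin 3 ↪ α := ⟨![a, b, u], fun i j e => by
      fin_cases i <;> fin_cases j <;> simp_all [h1.symm, h2.symm, hab.symm]⟩
    let y : Fin 3 ↪ α := ⟨![a, b, v], fun i j e => by
      fin_cases i <;> fin_cases j <;> simp_all [h3.symm, h4.symm, hab.symm]⟩
    obtain ⟨g, hg⟩ := hG.exists_smul_eq x y
    exact ⟨g, congrArg (fun e : Fin 3 ↪ α => e 0) hg, congrArg (fun e : Fin 3 ↪ α => e 1) hg,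
      congrArg (fun e : Fin 3 ↪ α => e 2) hg⟩
  set S : Set α := {u | a ≠ u ∧ b ≠ u} with hS
  have hSL : ∀ (g : L) (u : α), u ∈ S → g • u ∈ S := by
    rintro ⟨g, hga, hgb⟩ u ⟨h1, h2⟩
    exact ⟨fun e => h1 (smul_left_cancel g (hga.trans e)), fun e => h2 (smul_left_cancel g (hgb.trans e))⟩
  have hScard : Nat.card S = Nat.card α - 2 := by
    rw [Nat.card_coe_set_eq, show S = ({a, b} : Set α)ᶜ by ext u; simp [hS, eq_comm],
      Set.ncard_compl, Set.ncard_pair hab]
  -- conjugation carries orbits to orbits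
  have horb : ∀ g : G, g • a = a → g • b = b → ∀ u : α, (g • ·) '' orbit L u = orbit L (g • u) := by
    have hsub : ∀ g : G, g • a = a → g • b = b → ∀ u : α, (g • ·) '' orbit L u ⊆ orbit L (g • u) := by
      rintro g ga gb u _ ⟨_, ⟨⟨⟨m, hm⟩, hma, hmb⟩, rfl⟩, rfl⟩
      refine ⟨⟨⟨g * m * g⁻¹, hN.conj_mem m hm g⟩, ?_, ?_⟩, ?_⟩
      · show (g * m * g⁻¹) • a = a
        rw [mul_smul, mul_smul, inv_smul_eq_iff.2 ga.symm, show m • a = a from hma, ga]
      · show (g * m * g⁻¹) • b = b
        rw [mul_smul, mul_smul, inv_smul_eq_iff.2 gb.symm, show m • b = b from hmb, gb]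
      · show (g * m * g⁻¹) • g • u = g • m • u
        rw [mul_smul, mul_smul, inv_smul_smul]
    intro g ga gb u
    refine Set.Subset.antisymm (hsub g ga gb u) fun w hw => ⟨g⁻¹ • w, ?_, smul_inv_smul g w⟩
    have h := hsub g⁻¹ (by rw [inv_smul_eq_iff, ga]) (by rw [inv_smul_eq_iff, gb]) (g • u) ⟨w, hw, rfl⟩
    rwa [inv_smul_smul] at h
  have hsize : ∀ u ∈ S, Nat.card (orbit L u) = Nat.card (orbit L c) := by
    intro u hu
    obtain ⟨g, ga, gb, rfl⟩ := h3t c u hac hbc hu.1 hu.2
    rw [Nat.card_coe_set_eq, Nat.card_coe_set_eq, ← horb g ga gb,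
      Set.ncard_image_of_injective _ (MulAction.injective g)]
  have hsodd : Odd (Nat.card (orbit L c)) := by
    have h1 : Nat.card (orbit L c) ∣ Nat.card S :=
      dvd_natCard_of_invariant S hSL _ fun u hu => (hsize u hu).symm.dvd
    rw [hScard] at h1
    refine Odd.of_dvd_nat ?_ h1
    rw [Nat.odd_iff] at hodd ⊢
    omega
  -- an element swapping `a` and `b` maps each orbit onto itself
  have hswapL : ∀ y : N, y • a = b → y • b = a → ∀ g : L, y * (g : N) * y⁻¹ ∈ L := by
    intro y hya hyb g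
    refine ⟨?_, ?_⟩
    · show (y * (g : N) * y⁻¹) • a = a
      rw [mul_smul, mul_smul, inv_smul_eq_iff.2 hyb.symm, show (g : N) • b = b from g.2.2, hyb]
    · show (y * (g : N) * y⁻¹) • b = b
      rw [mul_smul, mul_smul, inv_smul_eq_iff.2 hya.symm, show (g : N) • a = a from g.2.1, hya]
  have hyorb : ∀ y : N, y • a = b → y • b = a → ∀ u v : α, v ∈ orbit L u → y • v ∈ orbit L (y • u) := by
    rintro y hya hyb u _ ⟨g, rfl⟩
    refine ⟨⟨_, hswapL y hya hyb g⟩, ?_⟩
    show (y * (g : N) * y⁻¹) • y • u = y • (g : N) • u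
    rw [mul_smul, mul_smul, inv_smul_smul]
  have hpres : ∀ y : N, y • a = b → y • b = a → ∀ u ∈ S, y • u ∈ orbit L u := by
    intro y hya hyb
    -- some orbit is kept
    obtain ⟨u₀, hu₀, hyu₀⟩ : ∃ u ∈ S, y • u ∈ orbit L u := by
      by_contra hh
      push Not at hh
      let T : Set (Set α) := (fun u => orbit L u) '' S
      let τ : T → T := fun O => ⟨(y • ·) '' O.1, by
        obtain ⟨u, hu, hO⟩ := O.2
        refine ⟨y • u, ⟨fun e => hu.2 (smul_left_cancel y (hyb.trans e)),
          fun e => hu.1 (smul_left_cancel y (hya.trans e))⟩, ?_⟩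
        show orbit L (y • u) = (y • ·) '' O.1
        rw [← hO]
        refine Set.Subset.antisymm (fun w hw => ?_) ?_
        · obtain ⟨g, rfl⟩ := hw
          refine ⟨y⁻¹ • (g : N) • y • u, ?_, smul_inv_smul _ _⟩
          have h := hswapL y⁻¹ (by rw [inv_smul_eq_iff, hyb]) (by rw [inv_smul_eq_iff, hya]) g
          rw [inv_inv] at h
          exact ⟨⟨_, h⟩, show (y⁻¹ * (g : N) * y) • u = _ by rw [mul_smul, mul_smul]⟩
        · rintro _ ⟨v, hv, rfl⟩
          exact hyorb y hya hyb u v hv⟩
      have hinv : Function.Involutive τ := by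
        rintro ⟨O, u, hu, rfl⟩
        apply Subtype.ext
        show (y • ·) '' ((y • ·) '' orbit L u) = orbit L u
        rw [← Set.image_comp]
        have hmem : y * y ∈ L := ⟨by show (y * y) • a = a; rw [mul_smul, hya, hyb],
          by show (y * y) • b = b; rw [mul_smul, hyb, hya]⟩
        have : ((fun x : α => y • x) ∘ fun x => y • x) = fun x => (⟨y * y, hmem⟩ : L) • x :=
          funext fun x => smul_smul y y x
        rw [this]
        exact smul_orbit (⟨y * y, hmem⟩ : L) u
      haveI := Fintype.ofFinite T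
      have hTodd : Odd (Nat.card T) := by
        have h1 : Nat.card S = Nat.card T * Nat.card (orbit L c) := by
          let f : (Σ O : T, (O.1 : Set α)) → S := fun x => ⟨x.2.1, by
            obtain ⟨u, hu, hO⟩ := x.1.2
            have h2 : (x.2.1 : α) ∈ orbit L u := (Set.ext_iff.1 hO _).2 x.2.2
            obtain ⟨g, hg⟩ := h2
            exact hg ▸ hSL g u hu⟩
          have hf : Function.Bijective f := by
            constructor
            · rintro ⟨⟨O, u, hu, rfl⟩, ⟨w, hw⟩⟩ ⟨⟨O', u', hu', rfl⟩, ⟨w', hw'⟩⟩ e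
              obtain rfl : w = w' := congrArg Subtype.val e
              refine Sigma.subtype_ext (Subtype.ext ?_) rfl
              show orbit L u = orbit L u'
              rw [← orbit_eq_iff.2 hw, orbit_eq_iff.2 hw']
            · rintro ⟨u, hu⟩
              exact ⟨⟨⟨_, u, hu, rfl⟩, ⟨u, mem_orbit_self u⟩⟩, rfl⟩
          have hTc : ∀ O ∈ (Finset.univ : Finset T), Nat.card (O.1 : Set α) = Nat.card (orbit L c) := by
            rintro ⟨O, u, hu, rfl⟩ -
            exact hsize u hu
          rw [← Nat.card_congr (Equiv.ofBijective f hf), Nat.card_sigma, Finset.sum_congr rfl hTc,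
            Finset.sum_const, Finset.card_univ, ← Nat.card_eq_fintype_card, smul_eq_mul]
        refine Odd.of_dvd_nat ?_ ⟨_, h1⟩
        rw [hScard, Nat.odd_iff]; rw [Nat.odd_iff] at hodd; omega
      obtain ⟨⟨O, u, hu, rfl⟩, hfix⟩ : ∃ O : T, τ O = O := by
        by_contra hh'
        push Not at hh'
        have hpow : (Function.Involutive.toPerm τ hinv) ^ 2 = 1 := Equiv.ext fun O => by
          rw [sq, Equiv.Perm.mul_apply]; exact hinv O
        have hmod := Equiv.Perm.card_fixedPoints_modEq (p := 2) (n := 1) (f := (τ : Function.End T))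
          (funext fun O => hinv O)
        have h0 : Fintype.card (Function.fixedPoints (τ : Function.End T)) = 0 :=
          Fintype.card_eq_zero_iff.2 ⟨fun z => hh' z.1 z.2⟩
        rw [h0, ← Nat.card_eq_fintype_card] at hmod
        rw [Nat.odd_iff] at hTodd
        rw [Nat.ModEq] at hmod
        omega
      refine hh u hu ?_
      have h1 : y • u ∈ (y • ·) '' orbit L u := ⟨u, mem_orbit_self u, rfl⟩
      have h2 : (y • ·) '' orbit L u = orbit L u := congrArg Subtype.val hfix
      rwa [h2] at h1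
    intro u hu
    obtain ⟨g, ga, gb, rfl⟩ := h3t u₀ u hu₀.1 hu₀.2 hu.1 hu.2
    -- the conjugate of `y` by `g` differs from `y` by an element of `L`
    set y' : N := ⟨g * (y : G) * g⁻¹, hN.conj_mem _ y.2 g⟩ with hy'
    have hy'a : y' • a = b := by
      show (g * (y : G) * g⁻¹) • a = b
      rw [mul_smul, mul_smul, inv_smul_eq_iff.2 ga.symm, show (y : G) • a = b from hya, gb]
    have hy'b : y' • b = a := by
      show (g * (y : G) * g⁻¹) • b = a
      rw [mul_smul, mul_smul, inv_smul_eq_iff.2 gb.symm, show (y : G) • b = a from hyb, ga]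
    have hmem : y * y'⁻¹ ∈ L := ⟨by
        show (y * y'⁻¹) • a = a
        rw [mul_smul, inv_smul_eq_iff.2 hy'b.symm, hyb],
      by
        show (y * y'⁻¹) • b = b
        rw [mul_smul, inv_smul_eq_iff.2 hy'a.symm, hya]⟩
    have h1 : y' • g • u₀ ∈ orbit L (g • u₀) := by
      rw [← horb g ga gb]
      refine ⟨(y : G) • u₀, hyu₀, ?_⟩
      show g • (y : G) • u₀ = (g * (y : G) * g⁻¹) • g • u₀
      rw [mul_smul, mul_smul, inv_smul_smul]
    have h2 : y • g • u₀ = (⟨y * y'⁻¹, hmem⟩ : L) • y' • g • u₀ := by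
      show _ = (y * y'⁻¹) • y' • g • u₀
      rw [mul_smul, inv_smul_smul]
    rw [h2]
    exact mem_orbit_of_mem_orbit _ h1
  -- a Sylow 2-subgroup of `L` and a 2-element normalising it that swaps `a` and `b`
  haveI : Fact (Nat.Prime 2) := ⟨Nat.prime_two⟩
  obtain ⟨P⟩ : Nonempty (Sylow 2 L) := inferInstance
  let P' : Subgroup N := P.1.map L.subtype
  obtain ⟨y₀, hy₀a, hy₀b⟩ := h2t hab hab.symm
  obtain ⟨y, hya, hyb, hyP⟩ : ∃ y : N, y • a = b ∧ y • b = a ∧ ∀ z ∈ P', y * z * y⁻¹ ∈ P' := by
    let φ : L →* L := MonoidHom.mk' (fun g => ⟨_, hswapL y₀ hy₀a hy₀b g⟩)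
      fun g g' => Subtype.ext (by simp [mul_assoc])
    have hφ : Function.Injective φ := fun g g' e => Subtype.ext (by
      simpa [φ] using congrArg Subtype.val e)
    have hφs : Function.Surjective φ := Finite.injective_iff_surjective.1 hφ
    let Q : Sylow 2 L := P.mapSurjective hφs
    obtain ⟨h, hh⟩ := MulAction.exists_smul_eq L Q P
    refine ⟨(h : N) * y₀, by rw [mul_smul, hy₀a]; exact h.2.2, by rw [mul_smul, hy₀b]; exact h.2.1, ?_⟩
    rintro _ ⟨z, hz, rfl⟩
    refine ⟨(MulAut.conj h) (φ z), ?_, ?_⟩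
    · rw [← hh, Sylow.coe_subgroup_smul]
      exact Subgroup.smul_mem_pointwise_smul _ _ _ ⟨z, hz, rfl⟩
    · show (h : N) * (y₀ * (z : N) * y₀⁻¹) * (h : N)⁻¹ = (h : N) * y₀ * (z : N) * ((h : N) * y₀)⁻¹
      group
  obtain ⟨e, m, hm, hord⟩ := Nat.exists_eq_two_pow_mul_odd (orderOf_pos y).ne'
  set x := y ^ m with hxdef
  have hxswap : x • a = b ∧ x • b = a := by
    rw [hxdef]
    obtain ⟨i, rfl⟩ := hm
    have hy2 : ∀ i : ℕ, (y ^ (2 * i)) • a = a ∧ (y ^ (2 * i)) • b = b := by
      intro i
      induction i with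
      | zero => simp
      | succ i ih =>
        rw [show 2 * (i + 1) = 2 * i + 1 + 1 by ring, pow_succ, pow_succ, mul_smul, mul_smul, mul_smul,
          mul_smul, hya, hyb, hya]
        exact ih
    rw [pow_succ', mul_smul, mul_smul, (hy2 i).1, (hy2 i).2]
    exact ⟨hya, hyb⟩
  have hxP : ∀ z ∈ P', x * z * x⁻¹ ∈ P' := by
    have hall : ∀ i : ℕ, ∀ z ∈ P', y ^ i * z * (y ^ i)⁻¹ ∈ P' := by
      intro i
      induction i with
      | zero => intro z hz; simpa using hz
      | succ i ih =>
        intro z hz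
        rw [show y ^ (i + 1) * z * (y ^ (i + 1))⁻¹ = y * (y ^ i * z * (y ^ i)⁻¹) * y⁻¹ by
          rw [pow_succ']; group]
        exact hyP _ (ih z hz)
    exact hall m
  have hx2 : IsPGroup 2 (Subgroup.zpowers x) := by
    refine IsPGroup.of_card (n := e) ?_
    rw [Nat.card_zpowers, hxdef, orderOf_pow_of_dvd (by rintro rfl; simp at hm) ⟨2 ^ e, by rw [hord, mul_comm]⟩,
      hord, Nat.mul_div_cancel]
    exact hm.pos
  have hP'p : IsPGroup 2 P' := P.2.map L.subtype
  set R : Subgroup N := P' ⊔ Subgroup.zpowers x with hR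
  have hRp : IsPGroup 2 R := by
    refine IsPGroup.to_sup_of_normal_left' hP'p hx2 ?_
    rw [Subgroup.zpowers_le, Subgroup.mem_normalizer_iff]
    intro z
    refine ⟨hxP z, fun hz => ?_⟩
    have hmap : P'.map (MulAut.conj x).toMonoidHom = P' :=
      Subgroup.eq_of_le_of_card_ge (by rintro _ ⟨w, hw, rfl⟩; exact hxP w hw)
        (Subgroup.card_map_of_injective (f := (MulAut.conj x).toMonoidHom) (MulAut.conj x).injective).ge
    rw [← hmap] at hz
    obtain ⟨w, hw, hwz⟩ := hz
    have : w = z := by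
      have hwz' : x * w * x⁻¹ = x * z * x⁻¹ := hwz
      simpa using hwz'
    exact this ▸ hw
  -- fixed points in every orbit
  have hFix : ∀ u ∈ S, ∃ v ∈ orbit L u, ∀ z ∈ R, z • v = v := by
    intro u hu
    have hinv : ∀ z ∈ R, ∀ v ∈ orbit L u, z • v ∈ orbit L u := by
      have hle : R ≤ stabilizer N (orbit L u) := by
        rw [hR, sup_le_iff, Subgroup.zpowers_le]
        refine ⟨?_, ?_⟩
        · rintro _ ⟨z, -, rfl⟩
          exact mem_stabilizer_iff.2 (smul_orbit z u)
        · rw [mem_stabilizer_iff]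
          refine Set.eq_of_subset_of_ncard_le ?_ (by rw [Set.ncard_smul_set])
          rintro _ ⟨v, hv, rfl⟩
          have h1 := hyorb x hxswap.1 hxswap.2 u v hv
          rwa [orbit_eq_iff.2 (hpres x hxswap.1 hxswap.2 u hu)] at h1
      intro z hz v hv
      have h1 := mem_stabilizer_iff.1 (hle hz)
      exact h1 ▸ Set.smul_mem_smul_set hv
    let T : SubMulAction R α := ⟨orbit L u, fun z {v} hv => hinv z z.2 v hv⟩
    have hT : Nat.card T = Nat.card (orbit L c) := hsize u hu
    have hmod := hRp.card_modEq_card_fixedPoints (α := T)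
    have hne : Nat.card (fixedPoints R T) ≠ 0 := by
      intro h0
      rw [h0, hT, Nat.ModEq] at hmod
      rw [Nat.odd_iff] at hsodd
      omega
    obtain ⟨⟨v, hv⟩⟩ := (Nat.card_pos_iff.1 (Nat.pos_of_ne_zero hne)).1
    exact ⟨v.1, v.2, fun z hz => congrArg Subtype.val (hv ⟨z, hz⟩)⟩
  obtain ⟨v, hv, hvR⟩ := hFix c ⟨hac, hbc⟩
  obtain ⟨w, hw, hwR⟩ := hFix d ⟨had, hbd⟩
  have hvw : v ≠ w := fun e => hnotmem (by
    rw [← orbit_eq_iff.2 hv, e, orbit_eq_iff.2 hw]; exact mem_orbit_self d)
  -- `R` is a 2-subgroup of a conjugate of `L`, hence not larger than `P'`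
  obtain ⟨t, t1, t2⟩ := h2t hvw hab
  have hRle : R.map (MulAut.conj t).toMonoidHom ≤ L := by
    rintro _ ⟨z, hz, rfl⟩
    refine ⟨?_, ?_⟩
    · show (t * z * t⁻¹) • a = a
      rw [mul_smul, mul_smul, inv_smul_eq_iff.2 t1.symm, hvR z hz, t1]
    · show (t * z * t⁻¹) • b = b
      rw [mul_smul, mul_smul, inv_smul_eq_iff.2 t2.symm, hwR z hz, t2]
  obtain ⟨Q, hQ⟩ := ((hRp.map (MulAut.conj t).toMonoidHom).of_equiv
    (Subgroup.subgroupOfEquivOfLe hRle).symm).exists_le_sylow
  have hcardR : Nat.card R ≤ Nat.card P' := by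
    rw [← Subgroup.card_map_of_injective (K := R) (f := (MulAut.conj t).toMonoidHom)
      (fun p q h => (MulAut.conj t).injective h),
      ← Nat.card_congr (Subgroup.subgroupOfEquivOfLe hRle).toEquiv, Subgroup.card_subtype,
      P.card_eq_multiplicity, ← Q.card_eq_multiplicity]
    exact Subgroup.card_le_of_le hQ
  have hxP' : x ∈ P' := by
    rw [Subgroup.eq_of_le_of_card_ge (le_sup_left : P' ≤ R) hcardR]
    exact le_sup_right (b := Subgroup.zpowers x) (Subgroup.mem_zpowers x)
  obtain ⟨g, -, hg⟩ := hxP'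
  refine hab ?_
  rw [← hxswap.1, ← hg]
  exact g.2.1.symm

end Cfsg.Agent.PermGroups
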