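import Mathlib
import Cfsg.Agent.PermGroups.FourTransitive
import Cfsg.Agent.S0744
import Cfsg.Agent.S0710
import Cfsg.Agent.PermGroups.Wagner

/-!
The Livingstone-Wagner theorem: a `k`-homogeneous group with `2 * k ≤ n` is `(k-1)`-transitive.
-/

set_option autoImplicit false
set_option linter.unusedSectionVars false
set_option linter.style.haveILetI false

namespace Cfsg.Agent.PermGroups

open MulAction
open scoped Pointwise

variable {G α : Type*} [Group G] [Finite G] [Fintype α] [DecidableEq α] [MulAction G α] [FaithfulSMul G α]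

theorem natCard_eq_descFactorial_mul {k : ℕ} (hk : IsMultiplyPretransitive G α k)
    (hkn : k ≤ Fintype.card α) :
    ∀ j, ∀ s : Finset α, s.card = j → j ≤ k →
      Nat.card G = (Fintype.card α).descFactorial j * Nat.card (fixingSubgroup G (s : Set α)) := by
  intro j
  induction j with
  | zero =>
    intro s hs _
    rw [Finset.card_eq_zero.1 hs, Nat.descFactorial_zero, one_mul, Finset.coe_empty]
    exact (Nat.card_congr ((Equiv.subtypeUnivEquiv fun g : G =>
      (mem_fixingSubgroup_iff G).2 fun y (hy : y ∈ (∅ : Set α)) => absurd hy (Set.notMem_empty y)))).symm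
  | succ j ih =>
    intro s hs hj
    obtain ⟨x, hx⟩ := Finset.card_pos.1 (show 0 < s.card by omega)
    have hc : (s.erase x).card = j := by rw [Finset.card_erase_of_mem hx, hs, Nat.add_sub_cancel]
    rw [ih (s.erase x) hc (by omega), natCard_fixingSubgroup_step hk hkn _ (by omega) (Finset.notMem_erase x s),
      Finset.insert_erase hx, hc, Nat.descFactorial_succ]
    ring

/-- The residue condition for the stabiliser of a set with a complement of prime order. -/
theorem residue_of_fixing {k : ℕ} (hk : IsMultiplyPretransitive G α k) (hkn : k ≤ Fintype.card α)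
    (s : Finset α) (hs : s.card < k) {p m : ℕ} [Fact p.Prime] (hp : Fintype.card α = p + s.card)
    (hcard : Nat.card (fixingSubgroup G (s : Set α)) = p * m) :
    ∃ e, e ∣ p - 1 ∧ e ∣ m ∧ m ≡ e [MOD p] := by
  let β := SubMulAction.ofFixingSubgroup G (s : Set α)
  haveI : Fintype β := Fintype.ofFinite _
  haveI : IsPretransitive (fixingSubgroup G (s : Set α)) β := by
    rw [← is_one_pretransitive_iff]
    haveI := hk
    exact SubMulAction.ofFixingSubgroup.isMultiplyPretransitive' _
      (show (s : Set α).ncard + 1 ≤ k by rw [Set.ncard_coe_finset]; omega) (by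
        rw [ENat.card_eq_coe_natCard, Nat.card_eq_fintype_card]
        exact_mod_cast hkn)
  haveI : FaithfulSMul (fixingSubgroup G (s : Set α)) β :=
    ⟨fun {u v} e => Subtype.ext (eq_of_smul_eq_smul (α := α) fun x => by
      by_cases hx : x ∈ (s : Set α)
      · rw [u.2 ⟨x, hx⟩, v.2 ⟨x, hx⟩]
      · exact congrArg Subtype.val (e ⟨x, hx⟩))⟩
  refine prime_degree_residue (X := fixingSubgroup G (s : Set α)) (β := β) ?_ hcard
  rw [← Nat.card_eq_fintype_card]
  have : Nat.card β = Nat.card ((s : Set α)ᶜ : Set α) := rfl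
  rw [this, Nat.card_coe_set_eq, Set.ncard_compl, Set.ncard_coe_finset, Nat.card_eq_fintype_card]
  omega

/-- `C(n, k)` divides the order of a `k`-homogeneous group. -/
theorem choose_dvd_natCard {k : ℕ} (hkn : k ≤ Fintype.card α)
    (hh : IsPretransitive G (Set.powersetCard α k)) : (Fintype.card α).choose k ∣ Nat.card G := by
  obtain ⟨s, -, hs⟩ := Finset.exists_subset_card_eq (s := (Finset.univ : Finset α)) (n := k)
    (by rwa [Finset.card_univ])
  let s' : Set.powersetCard α k := ⟨s, hs⟩
  have hc : Nat.card (Set.powersetCard α k) = (Fintype.card α).choose k := by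
    rw [Set.powersetCard.card, Nat.card_eq_fintype_card]
  rw [← hc, ← index_stabilizer_of_transitive G s', ← (stabilizer G s').index_mul_card]
  exact dvd_mul_right _ _

theorem candidates_four : ∀ M ∈ Finset.range 25, ∀ r ∈ Finset.range 25,
    ¬ (1 ≤ M ∧ 2 ≤ r ∧ 24 % (r * M) = 0 ∧ (M + 1) % r = 0 ∧ 6 % r = 0) ∨
      M = 1 ∨ (M = 2 ∧ r = 3) ∨ (M = 3 ∧ r = 2) ∨ (M = 8 ∧ r = 3) := by
  decide +kernel

theorem candidates_five : ∀ M ∈ Finset.range 121, ∀ r ∈ Finset.range 25,
    ¬ (1 ≤ M ∧ 2 ≤ r ∧ 120 % (r * M) = 0 ∧ (M + 1) % r = 0 ∧ 24 % r = 0) ∨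
      M = 1 ∨ (M = 2 ∧ r = 3) ∨ (M = 3 ∧ (r = 2 ∨ r = 4)) ∨ (M = 5 ∧ (r = 2 ∨ r = 3 ∨ r = 6)) ∨
      (M = 8 ∧ r = 3) ∨ (M = 15 ∧ (r = 2 ∨ r = 4 ∨ r = 8)) ∨ (M = 20 ∧ r = 3) := by
  decide +kernel

/-- In a transitive action on a set of subsets, the order of a setwise stabiliser. -/
theorem natCard_stabilizer_mul {k : ℕ} (hh : IsPretransitive G (Set.powersetCard α k)) (t : Finset α)
    (ht : t.card = k) : (Fintype.card α).choose k * Nat.card (stabilizer G t) = Nat.card G := by
  let t' : Set.powersetCard α k := ⟨t, ht⟩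
  have hc : Nat.card (Set.powersetCard α k) = (Fintype.card α).choose k := by
    rw [Set.powersetCard.card, Nat.card_eq_fintype_card]
  have he : stabilizer G t' = stabilizer G t := by
    ext g
    rw [mem_stabilizer_iff, mem_stabilizer_iff, Subtype.ext_iff, Set.powersetCard.coe_smul]
  rw [← hc, ← index_stabilizer_of_transitive G t', ← he, Subgroup.index_mul_card]

/-- An involution cannot keep a set of a family on which the group acts regularly or with an odd
stabiliser. -/
theorem involution_stabilizer_even {k : ℕ} (hh : IsPretransitive G (Set.powersetCard α k)) (t : Finset α)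
    (ht : t.card = k) (y : G) (hy : orderOf y = 2) (hyt : ∀ x ∈ t, y • x ∈ t) {m : ℕ} (hm : Odd m)
    (hcard : Nat.card G = (Fintype.card α).choose k * m) : False := by
  have hk : k ≤ Fintype.card α := ht ▸ Finset.card_le_univ t
  have hmem : y ∈ stabilizer G t := by
    rw [mem_stabilizer_iff]
    refine Finset.eq_of_subset_of_card_le (fun z hz => ?_) (by rw [Finset.card_smul_finset])
    obtain ⟨x, hx, rfl⟩ := Finset.mem_smul_finset.1 hz
    exact hyt x hx
  have h1 : Nat.card (stabilizer G t) = m :=
    Nat.eq_of_mul_eq_mul_left (Nat.choose_pos hk) ((natCard_stabilizer_mul hh t ht).trans hcard)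
  have h2 := Subgroup.orderOf_dvd_natCard _ hmem
  rw [hy, h1] at h2
  rw [Nat.odd_iff] at hm
  omega

/-- No triply transitive group of degree `7` and order `210`. -/
theorem no_sharply_three_transitive_seven (h3 : IsMultiplyPretransitive G α 3) (hn : Fintype.card α = 7)
    (hG : Nat.card G = 210) (hfix : ∀ (g : G) (s : Finset α), 3 ≤ s.card → (∀ x ∈ s, g • x = x) → g = 1) :
    False := by
  classical
  haveI : Fact (Nat.Prime 2) := ⟨Nat.prime_two⟩
  obtain ⟨y, hy⟩ := exists_prime_orderOf_dvd_card' (G := G) 2 (by rw [hG]; norm_num)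
  have hy1 : y ≠ 1 := fun e => by rw [e, orderOf_one] at hy; omega
  have hyy : y * y = 1 := by rw [← sq, ← hy, pow_orderOf_eq_one]
  let f := toPermHom G α
  have hpar := card_fixFinset_modEq_two (α := α) hyy
  rw [hn] at hpar
  have hle : (fixFinset y : Finset α).card ≤ 2 := by
    by_contra hlt
    exact hy1 (hfix y _ (by omega) fun x hx => mem_fixFinset.1 hx)
  have hsupp : (f y).support.card = 6 := by
    have h1 : (f y).support = Finset.univ \ (fixFinset y : Finset α) := by
      ext x
      rw [Equiv.Perm.mem_support, Finset.mem_sdiff, mem_fixFinset]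
      simp [f, toPermHom_apply, toPerm_apply]
    rw [h1, Finset.card_sdiff_of_subset (Finset.subset_univ _), Finset.card_univ, hn]
    rw [Nat.ModEq] at hpar
    omega
  have hsign : Equiv.Perm.sign (f y) = -1 := by
    have h2 : (f y) ^ 2 = 1 := by rw [sq, ← map_mul, hyy, map_one]
    have hne : f y ≠ 1 := fun e => by
      rw [e, Equiv.Perm.support_one, Finset.card_empty] at hsupp
      omega
    have hord : orderOf (f y) = 2 := orderOf_eq_prime h2 hne
    obtain ⟨m, hm⟩ := Equiv.Perm.cycleType_prime_order (σ := f y) (by rw [hord]; exact Nat.prime_two)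
    have hs := Equiv.Perm.sum_cycleType (f y)
    rw [hm, Multiset.sum_replicate, hord, smul_eq_mul, hsupp] at hs
    rw [Equiv.Perm.sign_of_cycleType, hm, Multiset.sum_replicate, Multiset.card_replicate, hord, smul_eq_mul,
      show m + 1 = 3 by omega]
    decide
  let N : Subgroup G := ((Equiv.Perm.sign).comp f).ker
  have hN2 : N.index = 2 := by
    rw [Subgroup.index_ker]
    have : ((Equiv.Perm.sign).comp f).range = ⊤ := by
      refine eq_top_iff.2 fun u _ => ?_
      rcases Int.units_eq_one_or u with e | e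
      · exact ⟨1, by simp [e]⟩
      · exact ⟨y, by simpa [e] using hsign⟩
    rw [this]
    simp
  have hNc := N.index_mul_card
  rw [hN2, hG] at hNc
  have hn' : Nat.card α = 7 := by rw [Nat.card_eq_fintype_card, hn]
  have hN0 : N ≠ ⊥ := fun e => by rw [e, Subgroup.card_bot] at hNc; omega
  have hN3 := three_transitive_of_normal (α := α) (by rw [hn']; decide) (by omega) h3 N hN0
  obtain ⟨s, -, hs⟩ := Finset.exists_subset_card_eq (s := (Finset.univ : Finset α)) (n := 3)
    (by rw [Finset.card_univ, hn]; omega)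
  have h1 := natCard_eq_descFactorial_mul hN3 (by omega) 3 s hs le_rfl
  rw [hn, show (7 : ℕ).descFactorial 3 = 210 from rfl] at h1
  have : 210 ∣ Nat.card N := ⟨_, h1⟩
  rw [show Nat.card N = 105 by omega] at this
  norm_num at this

/-- No triply transitive group of degree `9` with three-point stabilisers of order two in which
four points have trivial stabiliser. -/
theorem no_three_transitive_nine (h3 : IsMultiplyPretransitive G α 3) (hn : Fintype.card α = 9)
    (hfix : ∀ (g : G) (s : Finset α), 4 ≤ s.card → (∀ x ∈ s, g • x = x) → g = 1)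
    (hh : ∀ s : Finset α, s.card = 3 → Nat.card (fixingSubgroup G (s : Set α)) = 2) : False := by
  classical
  obtain ⟨s, -, hs⟩ := Finset.exists_subset_card_eq (s := (Finset.univ : Finset α)) (n := 3)
    (by rw [Finset.card_univ, hn]; omega)
  obtain ⟨a, b, c, hab, hac, hbc, rfl⟩ := Finset.card_eq_three.1 hs
  haveI : Fact (Nat.Prime 2) := ⟨Nat.prime_two⟩
  obtain ⟨⟨z, hz⟩, hz2⟩ := exists_prime_orderOf_dvd_card'
    (G := fixingSubgroup G (({a, b, c} : Finset α) : Set α)) 2 (by rw [hh _ hs])
  rw [Subgroup.orderOf_mk] at hz2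
  have hz1 : z ≠ 1 := fun e => by rw [e, orderOf_one] at hz2; omega
  have hzz : z * z = 1 := by rw [← sq, ← hz2, pow_orderOf_eq_one]
  have hza : z • a = a := mem_fix_iff.1 hz a (by simp)
  have hzc : z • c = c := mem_fix_iff.1 hz c (by simp)
  have hfix3 : (fixFinset z : Finset α).card = 3 := by
    have h1 : ({a, b, c} : Finset α) ⊆ fixFinset z := fun x hx => mem_fixFinset.2 (mem_fix_iff.1 hz x hx)
    have h2 := Finset.card_le_card h1
    by_contra hne
    exact hz1 (hfix z _ (by omega) fun x hx => mem_fixFinset.1 hx)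
  obtain ⟨w, -, hw⟩ := Finset.exists_mem_notMem_of_card_lt_card (s := (fixFinset z : Finset α))
    (t := Finset.univ) (by rw [hfix3, Finset.card_univ, hn]; omega)
  rw [mem_fixFinset] at hw
  -- a conjugate swapping `a` and `b` and fixing `c`
  have hwa : w ≠ a := fun e => hw (by rw [e, hza])
  have hzwa : z • w ≠ a := fun e => hwa (smul_left_cancel z (e.trans hza.symm))
  let x : Fin 3 ↪ α := ⟨[w, z • w, a].get, List.nodup_iff_injective_get.1 (by simp [Ne.symm hw, hwa, hzwa])⟩
  let x' : Fin 3 ↪ α := ⟨[a, b, c].get, List.nodup_iff_injective_get.1 (by simp [hab, hac, hbc])⟩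
  obtain ⟨g, hg⟩ := h3.exists_smul_eq x x'
  have gw : g • w = a := congrArg (fun e : Fin 3 ↪ α => e 0) hg
  have gzw : g • z • w = b := congrArg (fun e : Fin 3 ↪ α => e 1) hg
  have ga : g • a = c := congrArg (fun e : Fin 3 ↪ α => e 2) hg
  set σ := g * z * g⁻¹ with hσdef
  have hσapp : ∀ x : α, σ • g • x = g • z • x := fun x => by rw [hσdef, mul_smul, mul_smul, inv_smul_smul]
  have hσa : σ • a = b := by rw [← gw, hσapp, gzw]
  have hσb : σ • b = a := by
    conv_lhs => rw [← gzw, hσapp, ← mul_smul z z, hzz, one_smul, gw]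
  have hσc : σ • c = c := by rw [← ga, hσapp, hza]
  have hσfix : (fixFinset σ : Finset α).card = 3 := by
    rw [← hfix3]
    refine (Finset.card_bij (fun x _ => g • x) (fun x hx => ?_) (fun x _ y _ e => smul_left_cancel g e)
      fun x hx => ⟨g⁻¹ • x, ?_, smul_inv_smul g x⟩).symm
    · rw [mem_fixFinset] at hx ⊢
      rw [hσapp, hx]
    · rw [mem_fixFinset] at hx ⊢
      have := hσapp (g⁻¹ • x)
      rw [smul_inv_smul, hx] at this
      exact smul_left_cancel g (this.symm.trans (smul_inv_smul g x).symm)
  -- the Sylow seven subgroup of the stabiliser of `a`, `b`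
  set X := fixingSubgroup G (({a, b} : Finset α) : Set α) with hXdef
  have hca : c ∉ ({a, b} : Finset α) := by simp [Ne.symm hac, Ne.symm hbc]
  have hins : insert c ({a, b} : Finset α) = {a, b, c} := by ext y; simp [or_comm, or_left_comm]
  have hX : Nat.card X = 14 := by
    rw [hXdef, natCard_fixingSubgroup_step h3 (by omega) _ (by rw [Finset.card_pair hab]; omega) hca,
      hins, hh _ hs, Finset.card_pair hab, hn]
  haveI : Fact (Nat.Prime 7) := ⟨by norm_num⟩
  obtain ⟨P⟩ : Nonempty (Sylow 7 X) := inferInstance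
  obtain ⟨p, hp⟩ := exists_prime_orderOf_dvd_card' (G := X) 7 (by rw [hX]; norm_num)
  have hpidx : (Subgroup.zpowers p).index = 2 := by
    have := (Subgroup.zpowers p).index_mul_card
    rw [Nat.card_zpowers, hp, hX] at this
    omega
  haveI := Subgroup.normal_of_index_eq_two hpidx
  -- conjugation by `σ` maps `p` to a power
  have hσX : ∀ u ∈ X, σ * u * σ⁻¹ ∈ X := by
    intro u hu
    rw [mem_fix_iff] at hu ⊢
    have hi : σ⁻¹ • a = b ∧ σ⁻¹ • b = a := ⟨by rw [inv_smul_eq_iff, hσb], by rw [inv_smul_eq_iff, hσa]⟩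
    intro y hy
    simp only [Finset.mem_insert, Finset.mem_singleton] at hy
    rcases hy with rfl | rfl <;> rw [mul_smul, mul_smul]
    · rw [hi.1, hu b (by simp), hσb]
    · rw [hi.2, hu a (by simp), hσa]
  let q : X := ⟨σ * (p : G) * σ⁻¹, hσX p p.2⟩
  have hq : q ∈ Subgroup.zpowers p := by
    have hq7 : q ^ 7 = 1 := Subtype.ext (by
      show (σ * (p : G) * σ⁻¹) ^ 7 = 1
      rw [conj_pow, ← Subgroup.coe_pow, ← hp, pow_orderOf_eq_one, Subgroup.coe_one, mul_one, mul_inv_cancel])
    have h1 : (QuotientGroup.mk' (Subgroup.zpowers p) q) ^ 7 = 1 := by rw [← map_pow, hq7, map_one]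
    have h2 : (QuotientGroup.mk' (Subgroup.zpowers p) q) ^ 2 = 1 := by
      have := pow_card_eq_one' (G := X ⧸ Subgroup.zpowers p) (x := QuotientGroup.mk' (Subgroup.zpowers p) q)
      rwa [← Subgroup.index_eq_card, hpidx] at this
    have h3' : (QuotientGroup.mk' (Subgroup.zpowers p) q) = 1 := by
      have := (pow_gcd_eq_one (a := QuotientGroup.mk' (Subgroup.zpowers p) q) (m := 7) (n := 2)).2 ⟨h1, h2⟩
      simpa using this
    exact (QuotientGroup.eq_one_iff q).1 h3'
  obtain ⟨j, hjmem⟩ := Subgroup.mem_zpowers_iff.1 hq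
  have hσj : σ * (p : G) * σ⁻¹ = (p : G) ^ j := by
    rw [← Subgroup.coe_zpow, hjmem]
  have hσσ : σ * σ = 1 := by
    rw [hσdef, show g * z * g⁻¹ * (g * z * g⁻¹) = g * (z * z) * g⁻¹ by group, hzz]; group
  have hjj : (7 : ℤ) ∣ j * j - 1 := by
    have h1 : (p : G) ^ (j * j) = (p : G) := by
      rw [zpow_mul, ← hσj, conj_zpow, ← hσj,
        show σ * (σ * (p : G) * σ⁻¹) * σ⁻¹ = (σ * σ) * (p : G) * (σ * σ)⁻¹ by group, hσσ]
      group
    have h2 : (p : G) ^ (j * j - 1) = 1 := by rw [zpow_sub, h1, zpow_one, mul_inv_cancel]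
    have h4 := orderOf_dvd_iff_zpow_eq_one.2 h2
    rwa [Subgroup.orderOf_coe, hp] at h4
  -- the powers of `p` carry `c` to all other points
  have hinjp : ∀ i : ℤ, (p : G) ^ i • c = c → (7 : ℤ) ∣ i := by
    intro i hi
    have hmem : (p : G) ^ i ∈ fixingSubgroup G (({a, b, c} : Finset α) : Set α) := by
      rw [mem_fix_iff, ← hins]
      intro y hy
      rcases Finset.mem_insert.1 hy with rfl | hy
      · exact hi
      · exact mem_fix_iff.1 (X.zpow_mem p.2 i) y hy
    have h1 := Subgroup.orderOf_dvd_natCard _ hmem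
    rw [hh _ hs] at h1
    by_contra hni
    have h2 : orderOf ((p : G) ^ i) = 7 := by
      have h7 : ((p : G) ^ i) ^ 7 = 1 := by
        rw [← zpow_natCast, ← zpow_mul, mul_comm, zpow_mul, zpow_natCast, ← Subgroup.coe_pow, ← hp,
          pow_orderOf_eq_one, Subgroup.coe_one, one_zpow]
      refine orderOf_eq_prime h7 fun e => hni ?_
      have := orderOf_dvd_iff_zpow_eq_one.2 e
      rwa [Subgroup.orderOf_coe, hp] at this
    rw [h2] at h1
    norm_num at h1
  have hp7 : Prime (7 : ℤ) := by norm_num
  have hσi : ∀ i : ℤ, σ • (p : G) ^ i • c = (p : G) ^ (j * i) • c := by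
    intro i
    rw [zpow_mul, ← hσj, conj_zpow, mul_smul (σ * (p : G) ^ i) σ⁻¹, inv_smul_eq_iff.2 hσc.symm,
      mul_smul σ]
  rcases (hp7.dvd_or_dvd (show (7 : ℤ) ∣ (j - 1) * (j + 1) by rwa [show (j - 1) * (j + 1) = j * j - 1 by ring]))
    with hj | hj
  · -- `σ` centralises
    refine hab ?_
    have hall : σ = 1 := by
      refine hfix σ ((Finset.range 7).image fun i : ℕ => (p : G) ^ (i : ℤ) • c) ?_ fun y hy => ?_
      · rw [Finset.card_image_of_injOn, Finset.card_range]
        · norm_num
        · intro i hi i' hi' e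
          rw [Finset.mem_coe, Finset.mem_range] at hi hi'
          have h1 := hinjp ((i : ℤ) - i') (by
            have e' : (p : G) ^ (i : ℤ) • c = (p : G) ^ (i' : ℤ) • c := e
            rw [sub_eq_neg_add, zpow_add, mul_smul, e', ← mul_smul, ← zpow_add, neg_add_cancel, zpow_zero, one_smul])
          omega
      · obtain ⟨i, -, rfl⟩ := Finset.mem_image.1 hy
        rw [hσi]
        obtain ⟨u, hu⟩ := hj
        rw [show j * (i : ℤ) = (i : ℤ) + ((orderOf (p : G) : ℕ) : ℤ) * (u * i) by
          rw [Subgroup.orderOf_coe, hp, Nat.cast_ofNat, show j = 1 + 7 * u by omega]; ring,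
          zpow_add, zpow_mul, zpow_natCast (p : G) (orderOf (p : G)), pow_orderOf_eq_one, one_zpow, mul_one]
    rw [← hσa, hall, one_smul]
  · -- `σ` inverts and fixes only `c`
    have hsub : (fixFinset σ : Finset α) ⊆ {c} := by
      intro y hy
      rw [mem_fixFinset] at hy
      rw [Finset.mem_singleton]
      have hyab : y ∉ ({a, b} : Finset α) := by
        intro hm
        simp only [Finset.mem_insert, Finset.mem_singleton] at hm
        rcases hm with rfl | rfl
        · exact hab (hy.symm.trans hσa)
        · exact hab (hσb.symm.trans hy)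
      have hS : ((Finset.range 7).image fun i : ℕ => (p : G) ^ (i : ℤ) • c) = Finset.univ \ ({a, b} : Finset α) := by
        refine Finset.eq_of_subset_of_card_le (fun y hy => ?_) ?_
        · obtain ⟨i, -, rfl⟩ := Finset.mem_image.1 hy
          refine Finset.mem_sdiff.2 ⟨Finset.mem_univ _, fun hm => hca ?_⟩
          have h1 := mem_fix_iff.1 (X.zpow_mem p.2 (i : ℤ)) _ hm
          rwa [smul_left_cancel ((p : G) ^ (i : ℤ)) h1] at hm
        · rw [Finset.card_image_of_injOn, Finset.card_range, Finset.card_sdiff_of_subset (Finset.subset_univ _),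
            Finset.card_univ, hn, Finset.card_pair hab]
          intro i hi i' hi' e
          rw [Finset.mem_coe, Finset.mem_range] at hi hi'
          have h1 := hinjp ((i : ℤ) - i') (by
            have e' : (p : G) ^ (i : ℤ) • c = (p : G) ^ (i' : ℤ) • c := e
            rw [sub_eq_neg_add, zpow_add, mul_smul, e', ← mul_smul, ← zpow_add, neg_add_cancel, zpow_zero, one_smul])
          omega
      have hyS : y ∈ (Finset.range 7).image fun i : ℕ => (p : G) ^ (i : ℤ) • c := by
        rw [hS]; exact Finset.mem_sdiff.2 ⟨Finset.mem_univ _, hyab⟩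
      obtain ⟨i, hi, rfl⟩ := Finset.mem_image.1 hyS
      rw [hσi] at hy
      have h1 := hinjp (j * (i : ℤ) - i) (by
        rw [sub_eq_neg_add, zpow_add, mul_smul, hy, ← mul_smul, ← zpow_add, neg_add_cancel, zpow_zero, one_smul])
      have h2 : (7 : ℤ) ∣ 2 * (i : ℤ) := by
        have := dvd_sub (hj.mul_right (i : ℤ)) h1
        rwa [show (j + 1) * (i : ℤ) - (j * i - i) = 2 * i by ring] at this
      rw [Finset.mem_range] at hi
      obtain rfl : i = 0 := by omega
      simp
    have := Finset.card_le_card hsub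
    rw [hσfix, Finset.card_singleton] at this
    omega

/-- Groups as in the Livingstone-Wagner theorem in which `k - 1` points have trivial stabiliser. -/
theorem trivial_fixer_cases {k : ℕ} (hk : 3 ≤ k) (hkn : k ≤ Fintype.card α)
    (hh1 : IsPretransitive G (Set.powersetCard α (k - 1)))
    (hh : IsPretransitive G (Set.powersetCard α k)) (hD : IsMultiplyPretransitive G α (k - 2))
    (hfix : ∀ (g : G) (s : Finset α), k - 1 ≤ s.card → (∀ x ∈ s, g • x = x) → g = 1)
    (hnt : ¬ IsMultiplyPretransitive G α (k - 1)) :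
    (k = Fintype.card α ∧ 2 * Nat.card G = (Fintype.card α).factorial) ∨
      (Fintype.card α = 5 ∧ k = 4 ∧ Nat.card G = 20) ∨ (Fintype.card α = 6 ∧ k = 5 ∧ Nat.card G = 120) ∨
      (Fintype.card α = 9 ∧ k = 5 ∧ (Nat.card G = 504 ∨ Nat.card G = 1512)) := by
  classical
  set n := Fintype.card α with hndef
  have hhD : IsPretransitive G (Set.powersetCard α (k - 2)) :=
    Set.powersetCard.isPretransitive_of_isMultiplyPretransitive _ hD
  obtain ⟨Δ, -, hΔ⟩ := Finset.exists_subset_card_eq (s := (Finset.univ : Finset α)) (n := k - 2)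
    (by rw [Finset.card_univ]; omega)
  set h := Nat.card (fixingSubgroup G (Δ : Set α)) with hhdef
  have hhs : ∀ s : Finset α, s.card = k - 2 → Nat.card (fixingSubgroup G (s : Set α)) = h :=
    fun s hs => natCard_fixingSubgroup_eq hhD s Δ hs hΔ
  have horb : ∀ s : Finset α, s.card = k - 2 → ∀ x ∉ s,
      Nat.card (orbit (fixingSubgroup G (s : Set α)) x) = h := by
    intro s hs x hx
    have h1 := natCard_orbit_mul_fixingSubgroup_insert (G := G) (s : Set α) x
    rw [← Finset.coe_insert] at h1
    have htriv : Nat.card (fixingSubgroup G ((insert x s : Finset α) : Set α)) = 1 := by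
      refine Nat.card_eq_one_iff_unique.2 ⟨⟨fun u v => Subtype.ext ?_⟩, ⟨1⟩⟩
      rw [hfix _ (insert x s) (by rw [Finset.card_insert_of_notMem hx]; omega) (mem_fix_iff.1 u.2),
        hfix _ (insert x s) (by rw [Finset.card_insert_of_notMem hx]; omega) (mem_fix_iff.1 v.2)]
    rw [htriv, mul_one, hhs s hs] at h1
    exact h1
  have hdvd : ∀ s : Finset α, s.card = k - 2 → h ∣ n - (k - 2) := by
    intro s hs
    have h1 : h ∣ Nat.card ((s : Set α)ᶜ : Set α) :=
      dvd_natCard_of_invariant (H := fixingSubgroup G (s : Set α)) ((s : Set α)ᶜ)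
        (fun g x hx hgx => hx (by
          have h1 := mem_fix_iff.1 g.2 _ (Finset.mem_coe.1 hgx)
          have : ((g : G) • x : α) ∈ (s : Set α) := hgx
          have e : (g : G) • x = x := smul_left_cancel (g : G) h1
          rwa [e] at this)) h
        fun x hx => dvd_of_eq (horb s hs x (fun h' => hx (Finset.mem_coe.2 h'))).symm
    rwa [Nat.card_coe_set_eq, Set.ncard_compl, Set.ncard_coe_finset, Nat.card_eq_fintype_card, hs] at h1
  have hfull : h ≠ n - (k - 2) := by
    intro hfull
    refine hnt (isMultiplyPretransitive_of_fixator (by omega) fun s hs u v hu hv => ?_)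
    have hs' : s.card = k - 2 := by omega
    have ho : orbit (fixingSubgroup G (s : Set α)) u = ((s : Set α))ᶜ := by
      refine Set.eq_of_subset_of_ncard_le (orbit_fixingSubgroup_subset_compl (by simpa using hu)) ?_
      rw [← Nat.card_coe_set_eq (orbit _ u), horb s hs' u hu, Set.ncard_compl, Set.ncard_coe_finset,
        Nat.card_eq_fintype_card, hfull, hs']
    have hv' : v ∈ orbit (fixingSubgroup G (s : Set α)) u := by rw [ho]; simpa using hv
    obtain ⟨⟨g, hg⟩, hgv⟩ := hv'
    exact ⟨g, fun x hx => mem_fix_iff.1 hg x hx, hgv⟩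
  obtain ⟨r, hr⟩ := hdvd Δ hΔ
  have hh0 : 0 < h := Nat.card_pos
  have hr2 : 2 ≤ r := by
    by_contra hlt
    interval_cases r <;> omega
  set M := n - (k - 1) with hM
  have hM1 : n - (k - 2) = M + 1 := by omega
  have hG : Nat.card G = n.descFactorial (k - 2) * h := natCard_eq_descFactorial_mul hD (by omega) (k - 2) Δ hΔ le_rfl
  have hdpos : 0 < n.descFactorial (k - 2) :=
    Nat.pos_of_ne_zero fun e0 => by rw [Nat.descFactorial_eq_zero_iff_lt] at e0; omega
  have hd1 : n.descFactorial (k - 1) = n.descFactorial (k - 2) * (M + 1) := by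
    rw [show k - 1 = k - 2 + 1 by omega, Nat.descFactorial_succ, hM1]; ring
  -- the divisibilities
  have hrk : r ∣ (k - 1).factorial := by
    obtain ⟨u, hu⟩ := choose_dvd_natCard (G := G) (show k - 1 ≤ n by omega) hh1
    rw [hG, ← hndef] at hu
    have h2 : n.descFactorial (k - 2) * ((k - 1).factorial * h) = n.descFactorial (k - 2) * ((M + 1) * u) := by
      calc n.descFactorial (k - 2) * ((k - 1).factorial * h) = (k - 1).factorial * (n.descFactorial (k - 2) * h) := by ring
        _ = (k - 1).factorial * n.choose (k - 1) * u := by rw [hu]; ring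
        _ = n.descFactorial (k - 1) * u := by rw [Nat.descFactorial_eq_factorial_mul_choose]
        _ = _ := by rw [hd1]; ring
    have h3 := Nat.eq_of_mul_eq_mul_left hdpos h2
    refine ⟨u, Nat.eq_of_mul_eq_mul_right hh0 ?_⟩
    rw [h3, ← hM1, hr]; ring
  have hrM : r * M ∣ k.factorial := by
    obtain ⟨u, hu⟩ := choose_dvd_natCard (G := G) hkn hh
    rw [hG, ← hndef] at hu
    have h1 : n.descFactorial k = n.descFactorial (k - 2) * ((M + 1) * M) := by
      conv_lhs => rw [show k = k - 1 + 1 by omega, Nat.descFactorial_succ, hd1]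
      ring
    have h2 : n.descFactorial (k - 2) * (k.factorial * h) = n.descFactorial (k - 2) * ((M + 1) * M * u) := by
      calc n.descFactorial (k - 2) * (k.factorial * h) = k.factorial * (n.descFactorial (k - 2) * h) := by ring
        _ = k.factorial * n.choose k * u := by rw [hu]; ring
        _ = n.descFactorial k * u := by rw [Nat.descFactorial_eq_factorial_mul_choose]
        _ = _ := by rw [h1]; ring
    have h3 := Nat.eq_of_mul_eq_mul_left hdpos h2
    refine ⟨u, Nat.eq_of_mul_eq_mul_right hh0 ?_⟩
    rw [h3, ← hM1, hr]; ring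
  have hMr : (M + 1) % r = 0 := by rw [← hM1, hr]; exact Nat.mul_mod_left h r
  have hM0 : 1 ≤ M := by omega
  have hrMle : r * M ≤ k.factorial := Nat.le_of_dvd k.factorial_pos hrM
  have hMb : 2 * M ≤ k.factorial := (Nat.mul_le_mul_right M hr2).trans hrMle
  have hhr : h * r = M + 1 := by omega
  by_cases hM1' : M = 1
  · refine Or.inl ⟨by omega, ?_⟩
    have hle2 : h * 2 ≤ 2 := by
      have := Nat.mul_le_mul_left h hr2
      omega
    have hh1' : h = 1 := by omega
    have e := Nat.factorial_mul_descFactorial (show k - 2 ≤ n by omega)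
    rw [show n - (k - 2) = 2 by omega, Nat.factorial_two] at e
    rw [hG, hh1', mul_one, e]
  rcases (show k = 3 ∨ k = 4 ∨ k = 5 ∨ 6 ≤ k by omega) with hk' | hk' | hk' | hk'
  · subst hk'
    have hf : Nat.factorial 3 = 6 := rfl
    have hf2 : Nat.factorial (3 - 1) = 2 := rfl
    rw [hf] at hrM hrMle
    rw [hf2] at hrk
    obtain rfl : r = 2 := by have := Nat.le_of_dvd (by norm_num) hrk; omega
    obtain hM3 | hM3 : M = 3 ∨ M = 2 := by omega
    · exfalso
      have hn5 : n = 5 := by omega
      have hh2 : h = 2 := by omega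
      have hG' : Nat.card G = 10 := by rw [hG, hn5, hh2]; rfl
      haveI : Fact (Nat.Prime 2) := ⟨Nat.prime_two⟩
      obtain ⟨y, hy⟩ := exists_prime_orderOf_dvd_card' (G := G) 2 (by rw [hG']; norm_num)
      have hyy : y * y = 1 := by rw [← sq, ← hy, pow_orderOf_eq_one]
      obtain ⟨x, hx⟩ : ∃ x : α, y • x ≠ x := by
        by_contra hall
        push Not at hall
        rw [eq_of_smul_eq_smul (α := α) (show ∀ x : α, y • x = (1 : G) • x from fun x => by rw [hall, one_smul]),
          orderOf_one] at hy
        omega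
      refine involution_stabilizer_even hh1 {x, y • x} (Finset.card_pair (Ne.symm hx)) y hy (fun w hw => ?_)
        odd_one (by rw [hG', ← hndef, hn5]; rfl)
      simp only [Finset.mem_insert, Finset.mem_singleton] at hw ⊢
      rcases hw with rfl | rfl
      · exact Or.inr rfl
      · exact Or.inl (by rw [← mul_smul, hyy, one_smul])
    · rw [hM3] at hMr
      omega
  · subst hk'
    have hf : Nat.factorial 4 = 24 := rfl
    have hf2 : Nat.factorial (4 - 1) = 6 := rfl
    rw [hf] at hrM hrMle hMb
    rw [hf2] at hrk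
    have hr6 := Nat.le_of_dvd (by norm_num) hrk
    rcases candidates_four M (Finset.mem_range.2 (by omega)) r (Finset.mem_range.2 (by omega)) with
      hno | e1 | ⟨e1, e2⟩ | ⟨e1, e2⟩ | ⟨e1, e2⟩
    · exact absurd ⟨hM0, hr2, Nat.mod_eq_zero_of_dvd hrM, hMr, Nat.mod_eq_zero_of_dvd hrk⟩ hno
    · exact absurd e1 hM1'
    · refine Or.inr (Or.inl ⟨by omega, rfl, ?_⟩)
      rw [hG, show n = 5 by omega, show h = 1 by rw [e2] at hhr; omega]; rfl
    · exfalso
      have hn6 : n = 6 := by omega
      have hh2 : h = 2 := by rw [e2] at hhr; omega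
      haveI : Fact (Nat.Prime 2) := ⟨Nat.prime_two⟩
      obtain ⟨⟨y, hymem⟩, hy⟩ := exists_prime_orderOf_dvd_card' (G := fixingSubgroup G (Δ : Set α)) 2
        (by rw [← hhdef, hh2])
      rw [Subgroup.orderOf_mk] at hy
      have hyy : y * y = 1 := by rw [← sq, ← hy, pow_orderOf_eq_one]
      obtain ⟨a, ha⟩ := Finset.card_pos.1 (show 0 < Δ.card by omega)
      have hya := mem_fix_iff.1 hymem a ha
      obtain ⟨x, hx⟩ : ∃ x : α, y • x ≠ x := by
        by_contra hall
        push Not at hall
        rw [eq_of_smul_eq_smul (α := α) (show ∀ x : α, y • x = (1 : G) • x from fun x => by rw [hall, one_smul]),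
          orderOf_one] at hy
        omega
      refine involution_stabilizer_even hh1 {a, x, y • x} ?_ y hy (fun w hw => ?_) (m := 3) (by decide)
        (by rw [hG, ← hndef, hn6, hh2]; rfl)
      · refine Finset.card_eq_three.2 ⟨a, x, y • x, fun e => hx (e ▸ hya), fun e => hx ?_, Ne.symm hx, rfl⟩
        rw [← smul_left_cancel y (hya.trans e), hya]
      · simp only [Finset.mem_insert, Finset.mem_singleton] at hw ⊢
        rcases hw with rfl | rfl | rfl
        · exact Or.inl hya
        · exact Or.inr (Or.inr rfl)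
        · exact Or.inr (Or.inl (by rw [← mul_smul, hyy, one_smul]))
    · exfalso
      have hn11 : n = 11 := by omega
      have hh3 : h = 3 := by rw [e2] at hhr; omega
      haveI : Fact (Nat.Prime 11) := ⟨by norm_num⟩
      obtain ⟨e, he, -, hme⟩ := residue_of_fixing (G := G) hD (by omega) (∅ : Finset α)
        (by simp) (p := 11) (m := 30) (by simp [← hndef, hn11]) (by
          have h0 := natCard_eq_descFactorial_mul hD (by omega) 0 ∅ (by simp) (by omega)
          rw [Nat.descFactorial_zero, one_mul] at h0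
          rw [← h0, hG, hn11, hh3]; rfl)
      have hele : e ≤ 10 := Nat.le_of_dvd (by norm_num) he
      rw [Nat.ModEq, Nat.mod_eq_of_lt (show e < 11 by omega)] at hme
      subst hme
      norm_num at he
  · subst hk'
    have hf : Nat.factorial 5 = 120 := rfl
    have hf2 : Nat.factorial (5 - 1) = 24 := rfl
    rw [hf] at hrM hrMle hMb
    rw [hf2] at hrk
    have hr24 := Nat.le_of_dvd (by norm_num) hrk
    have h0 : Nat.card G = Nat.card (fixingSubgroup G (((∅ : Finset α)) : Set α)) := by
      have h0 := natCard_eq_descFactorial_mul hD (by omega) 0 ∅ (by simp) (by omega)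
      rwa [Nat.descFactorial_zero, one_mul] at h0
    obtain ⟨a, ha⟩ := Finset.card_pos.1 (show 0 < Δ.card by omega)
    have h1 : Nat.card G = n * Nat.card (fixingSubgroup G (({a} : Finset α) : Set α)) := by
      have h1 := natCard_eq_descFactorial_mul hD (by omega) 1 {a} (by simp) (by omega)
      rwa [Nat.descFactorial_one] at h1
    rcases candidates_five M (Finset.mem_range.2 (by omega)) r (Finset.mem_range.2 (by
        have : r ≠ 24 := fun e => by
          rw [e] at hMr hrM
          have := Nat.le_of_dvd (by norm_num) hrM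
          omega
        omega)) with
      hno | e1 | ⟨e1, e2⟩ | ⟨e1, e2 | e2⟩ | ⟨e1, e2 | e2 | e2⟩ | ⟨e1, e2⟩ | ⟨e1, e2⟩ | ⟨e1, e2⟩
    · exact absurd ⟨hM0, hr2, Nat.mod_eq_zero_of_dvd hrM, hMr, Nat.mod_eq_zero_of_dvd hrk⟩ hno
    · exact absurd e1 hM1'
    · refine Or.inr (Or.inr (Or.inl ⟨by omega, rfl, ?_⟩))
      rw [hG, show n = 6 by omega, show h = 1 by rw [e2] at hhr; omega]; rfl
    · -- degree 7, order 420
      exfalso
      have hn' : n = 7 := by omega
      have hh' : h = 2 := by rw [e2] at hhr; omega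
      haveI : Fact (Nat.Prime 7) := ⟨by norm_num⟩
      obtain ⟨e, he, -, hme⟩ := residue_of_fixing (G := G) hD (by omega) (∅ : Finset α)
        (by simp) (p := 7) (m := 60) (by simp [← hndef, hn']) (by rw [← h0, hG, hn', hh']; rfl)
      have hele : e ≤ 6 := Nat.le_of_dvd (by norm_num) he
      rw [Nat.ModEq, Nat.mod_eq_of_lt (show e < 7 by omega)] at hme
      subst hme
      norm_num at he
    · -- degree 7, order 210
      exfalso
      have hn' : n = 7 := by omega
      have hh' : h = 1 := by rw [e2] at hhr; omega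
      refine no_sharply_three_transitive_seven hD hn' (by rw [hG, hn', hh']; rfl) fun g s hs hgs => ?_
      obtain ⟨s', hs', hs'c⟩ := Finset.exists_subset_card_eq hs
      have hc := hhs s' hs'c
      rw [hh', Nat.card_eq_one_iff_unique] at hc
      exact congrArg Subtype.val (hc.1.allEq
        (⟨g, mem_fix_iff.2 fun x hx => hgs x (hs' hx)⟩ : fixingSubgroup G (s' : Set α)) 1)
    · refine Or.inr (Or.inr (Or.inr ⟨by omega, rfl, Or.inr ?_⟩))
      rw [hG, show n = 9 by omega, show h = 3 by rw [e2] at hhr; omega]; rfl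
    · exfalso
      have hh' : h = 2 := by rw [e2] at hhr; omega
      exact no_three_transitive_nine hD (show Fintype.card α = 9 by omega) hfix
        fun s hs => (hhs s hs).trans hh'
    · refine Or.inr (Or.inr (Or.inr ⟨by omega, rfl, Or.inl ?_⟩))
      rw [hG, show n = 9 by omega, show h = 1 by rw [e2] at hhr; omega]; rfl
    · -- degree 12
      exfalso
      have hn' : n = 12 := by omega
      have hh' : h = 3 := by rw [e2] at hhr; omega
      haveI : Fact (Nat.Prime 11) := ⟨by norm_num⟩
      obtain ⟨e, he, -, hme⟩ := residue_of_fixing (G := G) hD (by omega) ({a} : Finset α)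
        (by simp) (p := 11) (m := 30) (by simp [← hndef, hn']) (by
          apply Nat.eq_of_mul_eq_mul_left (show 0 < n by omega)
          rw [← h1, hG, hn', hh']; rfl)
      have hele : e ≤ 10 := Nat.le_of_dvd (by norm_num) he
      rw [Nat.ModEq, Nat.mod_eq_of_lt (show e < 11 by omega)] at hme
      subst hme
      norm_num at he
    · -- degree 19
      exfalso
      have hn' : n = 19 := by omega
      haveI : Fact (Nat.Prime 19) := ⟨by norm_num⟩
      obtain ⟨e, he, -, hme⟩ := residue_of_fixing (G := G) hD (by omega) (∅ : Finset α)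
        (by simp) (p := 19) (m := 18 * 17 * h) (by simp [← hndef, hn']) (by
          rw [← h0, hG, hn']
          simp [Nat.descFactorial_succ]; ring)
      have hele : e ≤ 18 := Nat.le_of_dvd (by norm_num) he
      rw [Nat.ModEq, Nat.mod_eq_of_lt (show e < 19 by omega)] at hme
      have hh' : h = 8 ∨ h = 4 ∨ h = 2 := by
        rcases e2 with e2 | e2 | e2 <;> rw [e2] at hhr <;> omega
      rcases hh' with e' | e' | e' <;> rw [e'] at hme <;> norm_num at hme <;> subst hme <;> norm_num at he
    · -- degree 24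
      exfalso
      have hn' : n = 24 := by omega
      have hh' : h = 7 := by rw [e2] at hhr; omega
      haveI : Fact (Nat.Prime 23) := ⟨by norm_num⟩
      obtain ⟨e, he, -, hme⟩ := residue_of_fixing (G := G) hD (by omega) ({a} : Finset α)
        (by simp) (p := 23) (m := 154) (by simp [← hndef, hn']) (by
          apply Nat.eq_of_mul_eq_mul_left (show 0 < n by omega)
          rw [← h1, hG, hn', hh']; rfl)
      have hele : e ≤ 22 := Nat.le_of_dvd (by norm_num) he
      rw [Nat.ModEq, Nat.mod_eq_of_lt (show e < 23 by omega)] at hme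
      subst hme
      norm_num at he
  · -- `k ≥ 6`
    exfalso
    by_cases h11 : n - (k - 6) = 11
    · -- six points: a group of degree 13 and order `13 * 12 * 11 * 10 * 9 * 8`
      have hM6 : M = 6 := by omega
      have hr7 : r = 7 ∧ h = 1 := by
        rw [hM6] at hhr
        have h7 : r ∣ 7 := ⟨h, by rw [mul_comm]; omega⟩
        rcases (Nat.dvd_prime (show Nat.Prime 7 by norm_num)).1 h7 with e | e
        · omega
        · subst e; exact ⟨rfl, by omega⟩
      have hk8 : 8 ≤ k := by
        rw [hr7.1] at hrk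
        have := (Nat.Prime.dvd_factorial (show Nat.Prime 7 by norm_num)).1 hrk
        omega
      obtain ⟨s, -, hs⟩ := Finset.exists_subset_card_eq (s := (Finset.univ : Finset α)) (n := k - 8)
        (by rw [Finset.card_univ]; omega)
      set X := fixingSubgroup G (s : Set α) with hXdef
      let β := SubMulAction.ofFixingSubgroup G (s : Set α)
      haveI : Fintype β := Fintype.ofFinite _
      have hβ : Fintype.card β = 13 := by
        rw [← Nat.card_eq_fintype_card]
        have : Nat.card β = Nat.card ((s : Set α)ᶜ : Set α) := rfl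
        rw [this, Nat.card_coe_set_eq, Set.ncard_compl, Set.ncard_coe_finset, Nat.card_eq_fintype_card, hs]
        omega
      haveI : IsPretransitive X β := by
        rw [← is_one_pretransitive_iff]
        haveI := hD
        exact SubMulAction.ofFixingSubgroup.isMultiplyPretransitive' _
          (show (s : Set α).ncard + 1 ≤ k - 2 by rw [Set.ncard_coe_finset, hs]; omega) (by
            rw [ENat.card_eq_coe_natCard, Nat.card_eq_fintype_card]
            exact_mod_cast (show k - 2 ≤ n by omega))
      haveI : FaithfulSMul X β := ⟨fun {u v} e => Subtype.ext (eq_of_smul_eq_smul (α := α) fun x => by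
        by_cases hx : x ∈ (s : Set α)
        · rw [u.2 ⟨x, hx⟩, v.2 ⟨x, hx⟩]
        · exact congrArg Subtype.val (e ⟨x, hx⟩))⟩
      let Y : Subgroup (Equiv.Perm β) := (toPermHom X β).range
      haveI : IsPretransitive Y β :=
        ⟨fun x y => (exists_smul_eq X x y).imp' (fun g => ⟨toPermHom X β g, g, rfl⟩) fun _ h => h⟩
      refine Cfsg.Agent.S0710.result hβ Y ?_
      rw [← Nat.card_congr (MonoidHom.ofInjective (f := toPermHom X β) toPerm_injective).toEquiv]
      have hcard := natCard_eq_descFactorial_mul hD (by omega) (k - 8) s hs (by omega)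
      rw [hG, hr7.2, mul_one, ← hndef, ← hXdef] at hcard
      have e := Nat.descFactorial_mul_descFactorial (n := n) (k := k - 8) (m := k - 2) (by omega)
      rw [show n - (k - 8) = 13 by omega, show k - 2 - (k - 8) = 6 by omega] at e
      have hpos : 0 < n.descFactorial (k - 8) :=
        Nat.pos_of_ne_zero fun e0 => by rw [Nat.descFactorial_eq_zero_iff_lt] at e0; omega
      apply Nat.eq_of_mul_eq_mul_left hpos
      rw [← hcard, ← e, mul_comm]
      rfl
    apply hfull
    obtain ⟨s₀, hs₀Δ, hs₀⟩ := Finset.exists_subset_card_eq (s := Δ) (n := k - 6) (by omega)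
    let X := fixingSubgroup G (s₀ : Set α)
    let β := SubMulAction.ofFixingSubgroup G (s₀ : Set α)
    haveI : Fintype β := Fintype.ofFinite _
    have hβ : Fintype.card β = n - (k - 6) := by
      rw [← Nat.card_eq_fintype_card]
      have : Nat.card β = Nat.card ((s₀ : Set α)ᶜ : Set α) := rfl
      rw [this, Nat.card_coe_set_eq, Set.ncard_compl, Set.ncard_coe_finset, Nat.card_eq_fintype_card, hs₀]
    have h4 : IsMultiplyPretransitive X β 4 := by
      haveI := hD
      exact SubMulAction.ofFixingSubgroup.isMultiplyPretransitive' _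
        (show (s₀ : Set α).ncard + 4 ≤ k - 2 by rw [Set.ncard_coe_finset, hs₀]; omega) (by
          rw [ENat.card_eq_coe_natCard, Nat.card_eq_fintype_card]
          exact_mod_cast (show k - 2 ≤ n by omega))
    have hfix5 : ∀ (g : X) (t : Finset β), 5 ≤ t.card → (∀ x ∈ t, g • x = x) → g = 1 := by
      intro g t ht hgt
      refine Subtype.ext (hfix (g : G) (s₀ ∪ t.image Subtype.val) ?_ fun x hx => ?_)
      · rw [Finset.card_union_of_disjoint, Finset.card_image_of_injective _ Subtype.val_injective, hs₀]
        · omega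
        · rw [Finset.disjoint_left]
          intro x hx hx'
          obtain ⟨y, -, rfl⟩ := Finset.mem_image.1 hx'
          exact y.2 hx
      · rcases Finset.mem_union.1 hx with hx | hx
        · exact mem_fix_iff.1 g.2 x hx
        · obtain ⟨y, hy, rfl⟩ := Finset.mem_image.1 hx
          exact congrArg Subtype.val (hgt y hy)
    have h5 := five_transitive_of_four_transitive (G := X) (α := β) h4 hfix5 (by omega) (by omega)
    -- so the fixer of `k - 2` points is transitive on the rest
    obtain ⟨x, hx⟩ : ∃ x, x ∉ Δ := (Finset.exists_mem_notMem_of_card_lt_card (s := Δ) (t := Finset.univ)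
      (by rw [Finset.card_univ, hΔ]; omega)).imp fun _ h => h.2
    have ho : orbit (fixingSubgroup G (Δ : Set α)) x = ((Δ : Set α))ᶜ := by
      refine Set.Subset.antisymm (orbit_fixingSubgroup_subset_compl (by simpa using hx)) fun y hy => ?_
      have hy' : y ∉ Δ := by simpa using hy
      set s₁ := Δ \ s₀ with hs₁def
      have hs₁ : s₁.card = 4 := by rw [hs₁def, Finset.card_sdiff_of_subset hs₀Δ, hΔ, hs₀]; omega
      have hout : ∀ z ∈ insert x s₁, z ∉ (s₀ : Set α) := by
        intro z hz
        rcases Finset.mem_insert.1 hz with rfl | hz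
        · exact fun hm => hx (hs₀Δ (Finset.mem_coe.1 hm))
        · exact fun hm => (Finset.mem_sdiff.1 hz).2 (Finset.mem_coe.1 hm)
      have hxs₁ : x ∉ s₁ := fun hm => hx (Finset.mem_sdiff.1 hm).1
      let e := (insert x s₁).equivFinOfCardEq (show _ = 5 by rw [Finset.card_insert_of_notMem hxs₁, hs₁])
      have hswap : ∀ z ∈ insert x s₁, Equiv.swap x y z ∉ (s₀ : Set α) := by
        intro z hz hm
        rcases Finset.mem_insert.1 hz with rfl | hz
        · rw [Equiv.swap_apply_left] at hm
          exact hy' (hs₀Δ (Finset.mem_coe.1 hm))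
        · rw [Equiv.swap_apply_of_ne_of_ne (ne_of_mem_of_not_mem hz hxs₁)
            (fun e' => hy' (by rw [← e']; exact (Finset.mem_sdiff.1 hz).1))] at hm
          exact (Finset.mem_sdiff.1 hz).2 (Finset.mem_coe.1 hm)
      let u : Fin 5 ↪ β := ⟨fun i => ⟨(e.symm i : α), hout _ (e.symm i).2⟩,
        fun i j h' => e.symm.injective (Subtype.ext (congrArg Subtype.val h' :))⟩
      let v : Fin 5 ↪ β := ⟨fun i => ⟨Equiv.swap x y (e.symm i : α), hswap _ (e.symm i).2⟩,
        fun i j h' => e.symm.injective (Subtype.ext ((Equiv.swap x y).injective (congrArg Subtype.val h' :)))⟩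
      obtain ⟨g, hg⟩ := h5.exists_smul_eq u v
      have key : ∀ z ∈ insert x s₁, (g : G) • z = Equiv.swap x y z := by
        intro z hz
        have h' : (g : G) • ((e.symm (e ⟨z, hz⟩) : α)) = Equiv.swap x y (e.symm (e ⟨z, hz⟩) : α) :=
          congrArg (fun q : Fin 5 ↪ β => ((q (e ⟨z, hz⟩) : β) : α)) hg
        rwa [Equiv.symm_apply_apply] at h'
      refine ⟨⟨(g : G), mem_fix_iff.2 fun z hz => ?_⟩, ?_⟩
      · by_cases hz0 : z ∈ s₀
        · exact mem_fix_iff.1 g.2 z hz0
        · rw [key z (Finset.mem_insert_of_mem (Finset.mem_sdiff.2 ⟨hz, hz0⟩))]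
          exact Equiv.swap_apply_of_ne_of_ne (ne_of_mem_of_not_mem hz hx) (ne_of_mem_of_not_mem hz hy')
      · show (g : G) • x = y
        rw [key x (Finset.mem_insert_self x s₁), Equiv.swap_apply_left]
    rw [← horb Δ hΔ x hx, ho, Nat.card_coe_set_eq, Set.ncard_compl, Set.ncard_coe_finset,
      Nat.card_eq_fintype_card, hΔ]

/-- Theorem of Livingstone and Wagner on groups that are homogeneous but not transitive. -/
theorem homogeneous_not_transitive_cases {β : Type*} [Fintype β] [DecidableEq β] (H : Subgroup (Equiv.Perm β))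
    {k : ℕ} (hk : 3 ≤ k) (hkn : k ≤ Fintype.card β)
    (hh1 : IsPretransitive H (Set.powersetCard β (k - 1))) (hh : IsPretransitive H (Set.powersetCard β k))
    (hD : IsMultiplyPretransitive H β (k - 2)) (hnt : ¬ IsMultiplyPretransitive H β (k - 1)) :
    (k = Fintype.card β ∧ 2 * Nat.card H = (Fintype.card β).factorial) ∨
      (Fintype.card β = 5 ∧ k = 4 ∧ Nat.card H = 20) ∨ (Fintype.card β = 6 ∧ k = 5 ∧ Nat.card H = 120) ∨
      (Fintype.card β = 9 ∧ k = 5 ∧ (Nat.card H = 504 ∨ Nat.card H = 1512)) := by
  obtain ⟨Γ, -, hΓ⟩ := Finset.exists_subset_card_eq (s := (Finset.univ : Finset β)) (n := k - 1)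
    (by rw [Finset.card_univ]; omega)
  obtain ⟨Γ', -, hΓ'⟩ := Finset.exists_subset_card_eq (s := (Finset.univ : Finset β)) (n := k)
    (by rw [Finset.card_univ]; omega)
  by_cases hl : 1 < Nat.card (fixingSubgroup H (Γ : Set β))
  · exact absurd (Cfsg.Agent.S0744.result H (by omega) hkn _ _ hl
      (fun s hs => natCard_fixingSubgroup_eq hh1 s Γ hs hΓ)
      (fun s hs => natCard_fixingSubgroup_eq hh s Γ' hs hΓ')) hnt
  · refine trivial_fixer_cases hk hkn hh1 hh hD (fun g s hs hgs => ?_) hnt
    obtain ⟨s', hs', hs'c⟩ := Finset.exists_subset_card_eq hs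
    have hc := natCard_fixingSubgroup_eq hh1 s' Γ hs'c hΓ
    have hpos : 0 < Nat.card (fixingSubgroup H (s' : Set β)) := Nat.card_pos
    have h1 : Nat.card (fixingSubgroup H (s' : Set β)) = 1 := by omega
    exact congrArg Subtype.val ((Nat.card_eq_one_iff_unique.1 h1).1.allEq
      (⟨g, mem_fix_iff.2 fun x hx => hgs x (hs' hx)⟩ : fixingSubgroup H (s' : Set β)) 1)

/-- **Livingstone-Wagner**: `k`-homogeneous groups with `2 * k ≤ n` are `(k-1)`-transitive. -/
theorem livingstone_wagner_pred {β : Type*} [Fintype β] [DecidableEq β] (H : Subgroup (Equiv.Perm β)) :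
    ∀ k, 2 ≤ k → 2 * k ≤ Fintype.card β → IsPretransitive H (Set.powersetCard β k) →
      IsMultiplyPretransitive H β (k - 1) := by
  intro k
  induction k using Nat.strong_induction_on with
  | _ k ih =>
    intro hk hkn hh
    rcases Nat.lt_or_ge k 3 with h3 | h3
    · obtain rfl : k = 2 := by omega
      exact is_one_pretransitive_iff.2
        (isPretransitive_of_one_homogeneous (homogeneous_of_le hkn hh 1 (by omega)))
    have hh1 := homogeneous_of_le hkn hh (k - 1) (by omega)
    have hD : IsMultiplyPretransitive H β (k - 2) := ih (k - 1) (by omega) (by omega) (by omega) hh1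
    by_contra hnt
    rcases homogeneous_not_transitive_cases H h3 (by omega) hh1 hh hD hnt with h | h | h | h <;> omega

end Cfsg.Agent.PermGroups
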