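import Cfsg.Agent.PermGroups.FourEven

/-!
The Livingstone-Wagner theorem: `k`-homogeneous groups with `10 ≤ 2 * k ≤ n` are `k`-transitive.
-/

set_option autoImplicit false
set_option linter.unusedSectionVars false
set_option linter.style.haveILetI false

namespace Cfsg.Agent.PermGroups

open MulAction
open scoped Pointwise

universe u

variable {α : Type u} [Fintype α] [DecidableEq α]

/-- Homogeneity and the symmetric group on one set give multiple transitivity. -/
theorem transitive_of_induces_all {G : Subgroup (Equiv.Perm α)} {k : ℕ}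
    (hh : IsPretransitive G (Set.powersetCard α k)) (Δ : Finset α) (hΔ : Δ.card = k)
    (hall : ∀ σ : Equiv.Perm Δ, ∃ g ∈ G, ∀ x : Δ, g (x : α) = σ x) :
    IsMultiplyPretransitive G α k := by
  rw [isMultiplyPretransitive_iff]
  intro x y
  obtain ⟨g, hg⟩ := exists_smul_finset_eq hh (Finset.univ.map x) Δ (by simp) hΔ
  obtain ⟨h, hh'⟩ := exists_smul_finset_eq hh (Finset.univ.map y) Δ (by simp) hΔ
  have hx : ∀ i, g • x i ∈ Δ := fun i => hg ▸ Finset.smul_mem_smul_finset (Finset.mem_map_of_mem _ (Finset.mem_univ i))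
  have hy : ∀ i, h • y i ∈ Δ := fun i => hh' ▸ Finset.smul_mem_smul_finset (Finset.mem_map_of_mem _ (Finset.mem_univ i))
  have hbx : Function.Bijective (fun i => (⟨g • x i, hx i⟩ : Δ)) := by
    rw [Fintype.bijective_iff_injective_and_card]
    exact ⟨fun i j e => x.injective (smul_left_cancel g (congrArg Subtype.val e)), by simp [hΔ]⟩
  have hby : Function.Bijective (fun i => (⟨h • y i, hy i⟩ : Δ)) := by
    rw [Fintype.bijective_iff_injective_and_card]
    exact ⟨fun i j e => y.injective (smul_left_cancel h (congrArg Subtype.val e)), by simp [hΔ]⟩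
  obtain ⟨m, hm, hmσ⟩ := hall ((Equiv.ofBijective _ hbx).symm.trans (Equiv.ofBijective _ hby))
  refine ⟨h⁻¹ * ⟨m, hm⟩ * g, Function.Embedding.ext fun i => ?_⟩
  show (h⁻¹ * ⟨m, hm⟩ * g) • x i = y i
  rw [mul_smul, mul_smul, inv_smul_eq_iff]
  have e := hmσ (Equiv.ofBijective _ hbx i)
  rw [Equiv.trans_apply, Equiv.symm_apply_apply] at e
  exact e

/-- **Livingstone-Wagner.** -/
theorem livingstone_wagner_transitive (G : Subgroup (Equiv.Perm α)) {k : ℕ} (hk : 5 ≤ k)
    (hkn : 2 * k ≤ Fintype.card α) (hh : IsPretransitive G (Set.powersetCard α k)) :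
    IsMultiplyPretransitive G α k := by
  classical
  have hD := livingstone_wagner_pred G k (by omega) hkn hh
  obtain ⟨Δ₀, hΔ₀, hA⟩ := exists_induces_alternating _ rfl G (k := k - 1) (by omega) (by omega) hD
  by_contra hnt
  have hΔ₀' : Δ₀.card = k := by omega
  -- induced permutations are even
  have heven : ∀ Δ : Finset α, Δ.card = k → ∀ σ : Equiv.Perm Δ, ∀ g ∈ G, (∀ x : Δ, g (x : α) = σ x) →
      Equiv.Perm.sign σ = 1 := by
    intro Δ hΔ σ g hg hgσ
    by_contra hne
    have hodd : Equiv.Perm.sign σ = -1 := (Int.units_eq_one_or _).resolve_left hne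
    refine hnt (transitive_of_induces_all hh Δ₀ hΔ₀' fun τ => ?_)
    rcases Int.units_eq_one_or (Equiv.Perm.sign τ) with e | e
    · exact hA τ (Equiv.Perm.mem_alternatingGroup.2 e)
    obtain ⟨h, hh'⟩ := exists_smul_finset_eq hh Δ Δ₀ hΔ hΔ₀'
    have hmem : ∀ x : Δ, h • (x : α) ∈ Δ₀ := fun x => hh' ▸ Finset.smul_mem_smul_finset x.2
    have hbe : Function.Bijective (fun x : Δ => (⟨h • (x : α), hmem x⟩ : Δ₀)) := by
      rw [Fintype.bijective_iff_injective_and_card]
      exact ⟨fun i j e => Subtype.ext (smul_left_cancel h (congrArg Subtype.val e)), by simp [hΔ, hΔ₀']⟩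
    let E := Equiv.ofBijective _ hbe
    set σ' := E.permCongr σ with hσ'
    obtain ⟨m, hm, hmτ⟩ := hA (τ * σ'⁻¹) (by
      rw [Equiv.Perm.mem_alternatingGroup, map_mul, map_inv, hσ', Equiv.Perm.sign_permCongr, e, hodd]
      rfl)
    refine ⟨m * ((h : Equiv.Perm α) * g * (h : Equiv.Perm α)⁻¹),
      G.mul_mem hm (G.mul_mem (G.mul_mem h.2 hg) (G.inv_mem h.2)), fun z => ?_⟩
    obtain ⟨x, rfl⟩ := E.surjective z
    have h1 : ((h : Equiv.Perm α) * g * (h : Equiv.Perm α)⁻¹) (E x : α) = (σ' (E x) : α) := by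
      show (h : Equiv.Perm α) (g ((h : Equiv.Perm α).symm ((h : Equiv.Perm α) x))) = _
      rw [Equiv.symm_apply_apply, hgσ, hσ', Equiv.permCongr_apply, Equiv.symm_apply_apply]
      rfl
    rw [Equiv.Perm.mul_apply, h1, hmτ, Equiv.Perm.mul_apply, ← Equiv.Perm.mul_apply σ'⁻¹ σ', inv_mul_cancel]
    rfl
  -- the fixer of `k - 5` points
  obtain ⟨s₀, -, hs₀⟩ := Finset.exists_subset_card_eq (s := (Finset.univ : Finset α)) (n := k - 5)
    (by rw [Finset.card_univ]; omega)
  let X := fixingSubgroup G (s₀ : Set α)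
  let β := SubMulAction.ofFixingSubgroup G (s₀ : Set α)
  haveI : Fintype β := Fintype.ofFinite _
  have hβ : Fintype.card β = Fintype.card α - (k - 5) := by
    rw [← Nat.card_eq_fintype_card]
    have : Nat.card β = Nat.card ((s₀ : Set α)ᶜ : Set α) := rfl
    rw [this, Nat.card_coe_set_eq, Set.ncard_compl, Set.ncard_coe_finset, Nat.card_eq_fintype_card, hs₀]
  have h4 : IsMultiplyPretransitive X β 4 := by
    haveI := hD
    exact SubMulAction.ofFixingSubgroup.isMultiplyPretransitive' _
      (show (s₀ : Set α).ncard + 4 ≤ k - 1 by rw [Set.ncard_coe_finset, hs₀]; omega) (by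
        rw [ENat.card_eq_coe_natCard, Nat.card_eq_fintype_card]
        exact_mod_cast (show k - 1 ≤ Fintype.card α by omega))
  let Y : Subgroup (Equiv.Perm β) := (toPermHom X β).range
  have hY4 : IsMultiplyPretransitive Y β 4 := by
    rw [isMultiplyPretransitive_iff]
    intro x y
    obtain ⟨g, hg⟩ := h4.exists_smul_eq x y
    exact ⟨⟨toPermHom X β g, g, rfl⟩, Function.Embedding.ext fun i => congrArg (fun q : Fin 4 ↪ β => q i) hg⟩
  have hE : EvenFive Y := by
    rintro _ ⟨g, rfl⟩ a b c d e hnd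
    simp only [List.nodup_cons, List.mem_cons, List.not_mem_nil, or_false, not_or, List.nodup_nil, and_true,
      not_false_eq_true] at hnd
    obtain ⟨⟨nab, nac, nad, nae⟩, ⟨nbc, nbd, nbe⟩, ⟨ncd, nce⟩, nde⟩ := hnd
    set T : Finset β := {a, b, c, d, e} with hT
    have hTc : T.card = 5 := by simp [hT, nab, nac, nad, nae, nbc, nbd, nbe, ncd, nce, nde]
    set Δ := s₀ ∪ T.image Subtype.val with hΔdef
    have hΔ : Δ.card = k := by
      rw [hΔdef, Finset.card_union_of_disjoint, Finset.card_image_of_injective _ Subtype.val_injective, hs₀, hTc]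
      · omega
      · rw [Finset.disjoint_left]
        intro x hx hx'
        obtain ⟨y, -, rfl⟩ := Finset.mem_image.1 hx'
        exact y.2 hx
    let ι : ∀ z, z ∈ T → Δ := fun z hz => ⟨(z : α), Finset.mem_union_right _ (Finset.mem_image_of_mem _ hz)⟩
    have hA : a ∈ T := by simp [hT]
    have hB : b ∈ T := by simp [hT]
    have hC : c ∈ T := by simp [hT]
    have hDm : d ∈ T := by simp [hT]
    have hEm : e ∈ T := by simp [hT]
    have hne : ∀ {z w : β} (hz : z ∈ T) (hw : w ∈ T), z ≠ w → ι z hz ≠ ι w hw := fun hz hw h h' =>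
      h (Subtype.ext (congrArg Subtype.val h' :))
    have hsplit : ∀ x : Δ, (x : α) ∈ s₀ ∨ ∃ z, ∃ hz : z ∈ T, x = ι z hz := by
      intro x
      rcases Finset.mem_union.1 x.2 with h | h
      · exact Or.inl h
      · obtain ⟨z, hz, hzx⟩ := Finset.mem_image.1 h
        exact Or.inr ⟨z, hz, Subtype.ext hzx.symm⟩
    have hout : ∀ (x : Δ), (x : α) ∈ s₀ → ∀ z (hz : z ∈ T), x ≠ ι z hz := fun x hx z hz h =>
      z.2 (show (z : α) ∈ (s₀ : Set α) from (congrArg Subtype.val h : (x : α) = (z : α)) ▸ hx)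
    have hs₀fix : ∀ x : Δ, (x : α) ∈ s₀ → ((g : G) : Equiv.Perm α) (x : α) = x := fun x hx =>
      mem_fix_iff.1 g.2 _ hx
    refine ⟨fun ⟨e1, e2, e3, e4, e5⟩ => ?_, fun ⟨e1, e2, e3, e4, e5⟩ => ?_⟩
    · have h := heven Δ hΔ (Equiv.swap (ι a hA) (ι b hB)) ((g : G) : Equiv.Perm α) (g : G).2 fun x => by
        rcases hsplit x with hx | ⟨z, hz, rfl⟩
        · rw [hs₀fix x hx, Equiv.swap_apply_of_ne_of_ne (hout x hx a hA) (hout x hx b hB)]
        · simp only [hT, Finset.mem_insert, Finset.mem_singleton] at hz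
          rcases hz with rfl | rfl | rfl | rfl | rfl
          · rw [Equiv.swap_apply_left]; exact congrArg Subtype.val e1
          · rw [Equiv.swap_apply_right]; exact congrArg Subtype.val e2
          · rw [Equiv.swap_apply_of_ne_of_ne (hne hC hA (Ne.symm nac)) (hne hC hB (Ne.symm nbc))]
            exact congrArg Subtype.val e3
          · rw [Equiv.swap_apply_of_ne_of_ne (hne hDm hA (Ne.symm nad)) (hne hDm hB (Ne.symm nbd))]
            exact congrArg Subtype.val e4
          · rw [Equiv.swap_apply_of_ne_of_ne (hne hEm hA (Ne.symm nae)) (hne hEm hB (Ne.symm nbe))]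
            exact congrArg Subtype.val e5
      rw [Equiv.Perm.sign_swap (hne hA hB nab)] at h
      exact absurd h (by decide)
    · have h := heven Δ hΔ (Equiv.swap (ι a hA) (ι d hDm) * (Equiv.swap (ι a hA) (ι c hC) * Equiv.swap (ι a hA) (ι b hB)))
        ((g : G) : Equiv.Perm α) (g : G).2 fun x => by
        simp only [Equiv.Perm.mul_apply]
        rcases hsplit x with hx | ⟨z, hz, rfl⟩
        · rw [hs₀fix x hx, Equiv.swap_apply_of_ne_of_ne (hout x hx a hA) (hout x hx b hB),
            Equiv.swap_apply_of_ne_of_ne (hout x hx a hA) (hout x hx c hC),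
            Equiv.swap_apply_of_ne_of_ne (hout x hx a hA) (hout x hx d hDm)]
        · simp only [hT, Finset.mem_insert, Finset.mem_singleton] at hz
          rcases hz with rfl | rfl | rfl | rfl | rfl
          · rw [Equiv.swap_apply_left, Equiv.swap_apply_of_ne_of_ne (hne hB hA (Ne.symm nab)) (hne hB hC nbc),
              Equiv.swap_apply_of_ne_of_ne (hne hB hA (Ne.symm nab)) (hne hB hDm nbd)]
            exact congrArg Subtype.val e1
          · rw [Equiv.swap_apply_right, Equiv.swap_apply_left,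
              Equiv.swap_apply_of_ne_of_ne (hne hC hA (Ne.symm nac)) (hne hC hDm ncd)]
            exact congrArg Subtype.val e2
          · rw [Equiv.swap_apply_of_ne_of_ne (hne hC hA (Ne.symm nac)) (hne hC hB (Ne.symm nbc)),
              Equiv.swap_apply_right, Equiv.swap_apply_left]
            exact congrArg Subtype.val e3
          · rw [Equiv.swap_apply_of_ne_of_ne (hne hDm hA (Ne.symm nad)) (hne hDm hB (Ne.symm nbd)),
              Equiv.swap_apply_of_ne_of_ne (hne hDm hA (Ne.symm nad)) (hne hDm hC (Ne.symm ncd)),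
              Equiv.swap_apply_right]
            exact congrArg Subtype.val e4
          · rw [Equiv.swap_apply_of_ne_of_ne (hne hEm hA (Ne.symm nae)) (hne hEm hB (Ne.symm nbe)),
              Equiv.swap_apply_of_ne_of_ne (hne hEm hA (Ne.symm nae)) (hne hEm hC (Ne.symm nce)),
              Equiv.swap_apply_of_ne_of_ne (hne hEm hA (Ne.symm nae)) (hne hEm hDm (Ne.symm nde))]
            exact congrArg Subtype.val e5
      rw [map_mul, map_mul, Equiv.Perm.sign_swap (hne hA hDm nad), Equiv.Perm.sign_swap (hne hA hC nac),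
        Equiv.Perm.sign_swap (hne hA hB nab)] at h
      exact absurd h (by decide)
  have := degree_eq_six _ rfl Y hY4 hE (by omega)
  omega

end Cfsg.Agent.PermGroups
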