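import Cfsg.Agent.PermGroups.OneBlock
import Cfsg.Agent.Golay.M22Index
import Cfsg.Agent.M24Orbits.Cent2b
import Cfsg.Agent.Golay.OctadStab
import Cfsg.Agent.M24Orbits.Norm7

/-! `M24` has a single 2-block: involution centralisers have self-centralising normal 2-subgroups,
and a character of 2-defect zero would have too large a norm on the elements of orders 5, 7, 11, 23. -/

set_option autoImplicit false
set_option maxRecDepth 20000

open scoped Pointwise

namespace Cfsg.Agent.PermGroups.M24OneBlock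

open Cfsg Cfsg.Agent Cfsg.Agent.Golay Cfsg.Agent.M24Orbits

instance : Fact (Nat.Prime 5) := ⟨by norm_num⟩
instance : Fact (Nat.Prime 7) := ⟨by norm_num⟩
instance : Fact (Nat.Prime 11) := ⟨by norm_num⟩
instance : Fact (Nat.Prime 23) := ⟨by norm_num⟩

/-- The element of `M24` with a given code. -/
noncomputable def el (c : ℕ) (h : isAut c = true) : M24 := ⟨permOf c, permOf_mem_M24 h⟩

/-- Iterated code. -/
def powC (c : ℕ) : ℕ → ℕ
  | 0 => idCode
  | n + 1 => comp c (powC c n)

theorem powC_spec {c : ℕ} (hc : permOK c = true) :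
    ∀ n, permOK (powC c n) = true ∧ permOf (powC c n) = permOf c ^ n
  | 0 => ⟨idCode_ok, by rw [powC, permOf_idCode, pow_zero]⟩
  | n + 1 => by
    obtain ⟨h1, h2⟩ := powC_spec hc n
    obtain ⟨h3, h4⟩ := permOf_comp hc h1
    exact ⟨h3, by rw [powC, h4, h2, pow_succ']⟩

/-- Test for an element of prime order `l`. -/
def ordB (c l : ℕ) : Bool :=
  sqB (powC c l) idCode idCode idCode && !sqB c idCode idCode idCode

theorem orderOf_el {c l : ℕ} (hl : l.Prime) (hc : isAut c = true) (h : ordB c l = true) :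
    orderOf (el c hc) = l := by
  haveI := Fact.mk hl
  have hok := permOK_of_isAut hc
  simp only [ordB, Bool.and_eq_true, Bool.not_eq_true'] at h
  obtain ⟨hp, hpe⟩ := powC_spec hok l
  refine orderOf_eq_prime (Subtype.ext ?_) fun e => ?_
  · have := (sqB_iff hp idCode_ok idCode_ok idCode_ok).1 h.1
    rw [permOf_idCode, mul_one, mul_one, hpe] at this
    simpa [el] using this
  · have := mt (sqB_iff hok idCode_ok idCode_ok idCode_ok).2 (by simp [h.2])
    rw [permOf_idCode, mul_one, mul_one] at this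
    exact this (congrArg Subtype.val e)

theorem isConj_pow {a c k : ℕ} (ha : isAut a = true) (hc : isAut c = true)
    (h : sqB a c (powC c k) a = true) : IsConj (el c hc) (el c hc ^ k) := by
  obtain ⟨hp, hpe⟩ := powC_spec (permOK_of_isAut hc) k
  refine isConj_iff.2 ⟨el a ha, Subtype.ext ?_⟩
  have e := (sqB_iff (permOK_of_isAut ha) (permOK_of_isAut hc) hp (permOK_of_isAut ha)).1 h
  rw [hpe] at e
  show permOf a * permOf c * (permOf a)⁻¹ = permOf c ^ k
  rw [e, mul_inv_cancel_right]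

theorem pt23 : pt 23 = (none : GolayPt) := by decide +kernel

/-! ### Normalisers -/

theorem norm_fix {G : Type*} [Group G] {α : Type*} [MulAction G α] {x n : G}
    (hn : n ∈ Subgroup.normalizer ((Subgroup.zpowers x : Subgroup G) : Set G)) {y : α}
    (hy : x • y = y) : x • n • y = n • y := by
  have hz : n⁻¹ * x * n ∈ Subgroup.zpowers x :=
    (Subgroup.mem_normalizer_iff''.1 hn x).1 (Subgroup.mem_zpowers x)
  have hle : Subgroup.zpowers x ≤ MulAction.stabilizer G y := Subgroup.zpowers_le.2 hy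
  have : (n⁻¹ * x * n) • y = y := hle hz
  calc x • n • y = n • (n⁻¹ * x * n) • y := by rw [← mul_smul, ← mul_smul]; congr 1; group
    _ = n • y := by rw [this]

theorem norm23 {c : ℕ} (hc : isAut c = true) (ho : orderOf (el c hc) = 23)
    (hfix : ((List.range 24).all fun i => (app c i == i) == (i == 23)) = true) :
    Nat.card (Subgroup.normalizer ((Subgroup.zpowers (el c hc) : Subgroup M24) : Set M24)) ≤ 253 := by
  have hok := permOK_of_isAut hc
  have huniq : ∀ y : GolayPt, permOf c y = y ↔ y = none := by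
    intro y
    have h := beq_iff_eq.1 (List.all_eq_true.1 hfix (idx y) (List.mem_range.2 (idx_lt y)))
    rw [← idx_permOf hok] at h
    rw [← pt23, ← idx_injective.eq_iff (a := y), idx_pt (by norm_num : (23 : ℕ) < 24),
      ← idx_injective.eq_iff (a := permOf c y)]
    rw [Bool.eq_iff_iff, beq_iff_eq, beq_iff_eq] at h
    exact h
  set x := el c hc with hx
  let G := ↥(M24 ⊓ MulAction.stabilizer (Equiv.Perm GolayPt) (none : GolayPt))
  let x' : G := ⟨permOf c, permOf_mem_M24 hc, (huniq none).2 rfl⟩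
  have hx' : orderOf x' = 23 := by
    rw [← Subgroup.orderOf_coe]
    show orderOf (permOf c) = 23
    rw [← ho, ← Subgroup.orderOf_coe]
    rfl
  have hcard : Nat.card G = 23 * 443520 := M24_stab_card none
  let P : Sylow 23 G := Sylow.ofCard (Subgroup.zpowers x') (by
    rw [Nat.card_zpowers, hx', hcard, Nat.factorization_mul (by norm_num) (by norm_num)]
    simp [Nat.factorization_eq_zero_of_not_dvd (show ¬ 23 ∣ 443520 by norm_num),
      (show Nat.Prime 23 by norm_num).factorization_self])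
  have hS : ∀ (g : G), ∀ y ∈ ({none}ᶜ : Set GolayPt), g • y ∈ ({none}ᶜ : Set GolayPt) := by
    intro g y hy e
    exact hy (g.1.injective ((Set.mem_singleton_iff.1 e).trans g.2.2.symm))
  have hfaith : ∀ g : G, (∀ y ∈ ({none}ᶜ : Set GolayPt), g • y = y) → g = 1 := by
    intro g hg
    apply Subtype.ext
    ext1 y
    by_cases hy : y = none
    · subst hy; exact g.2.2
    · exact hg y hy
  have h23 : ({none}ᶜ : Set GolayPt).ncard = 23 := by
    rw [Set.ncard_compl, Set.ncard_singleton, Nat.card_eq_fintype_card, card_golayPt]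
  have hN := (card_normalizer_of_centralizer (n := 253) (by norm_num) hcard (by norm_num) P
    (card_centralizer_le (P := Subgroup.zpowers x') (by norm_num) (by rw [Nat.card_zpowers, hx'])
      _ (Set.toFinite _) h23 hfaith hS) (by decide +kernel)).2
  rw [← hN]
  have hnone : ∀ n ∈ Subgroup.normalizer ((Subgroup.zpowers x : Subgroup M24) : Set M24),
      (n : Equiv.Perm GolayPt) none = none := fun n hn =>
    (huniq _).1 (norm_fix (α := GolayPt) hn ((huniq none).2 rfl))
  let f : Subgroup.normalizer ((Subgroup.zpowers x : Subgroup M24) : Set M24) →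
      Subgroup.normalizer ((P : Subgroup G) : Set G) := fun n =>
    ⟨⟨n.1.1, n.1.2, hnone n.1 n.2⟩, Subgroup.mem_normalizer_iff.2 fun q => by
      have h := Subgroup.mem_normalizer_iff.1 n.2 ⟨q.1, q.2.1⟩
      have hmem : ∀ w : G, w ∈ (P : Subgroup G) ↔ (⟨w.1, w.2.1⟩ : M24) ∈ Subgroup.zpowers x := by
        intro w
        show w ∈ Subgroup.zpowers x' ↔ _
        rw [Subgroup.mem_zpowers_iff, Subgroup.mem_zpowers_iff]
        refine exists_congr fun k => ?_
        rw [Subtype.ext_iff, Subtype.ext_iff, SubgroupClass.coe_zpow, SubgroupClass.coe_zpow, hx]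
        rfl
      show q ∈ (P : Subgroup G) ↔ _ ∈ (P : Subgroup G)
      rw [hmem, hmem]
      exact h⟩
  exact Nat.card_le_card_of_injective f fun a b e => Subtype.ext (Subtype.ext (congrArg (fun z => z.1.1) e))

theorem norm_le {x : StdM22} (F : Finset GolayPt) (hF : ∀ y, x.1 y = y → y ∈ F) :
    Nat.card (Subgroup.normalizer ((Subgroup.zpowers (⟨x.1, x.2.1.1⟩ : M24) : Subgroup M24) : Set M24)) ≤
      F.offDiag.card *
        Nat.card (Subgroup.normalizer ((Subgroup.zpowers x : Subgroup StdM22) : Set StdM22)) := by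
  classical
  set x' : M24 := ⟨x.1, x.2.1.1⟩ with hx'
  set N := Subgroup.normalizer ((Subgroup.zpowers x' : Subgroup M24) : Set M24) with hN
  haveI := Fintype.ofFinite N
  rw [Nat.card_eq_fintype_card, ← Finset.card_univ]
  let f : N → GolayPt × GolayPt := fun n => ((n : M24).1 (pt 22), (n : M24).1 (pt 23))
  refine Finset.card_le_mul_card_image_of_maps_to (f := f) (fun n _ => Finset.mem_offDiag.2
    ⟨hF _ (norm_fix (α := GolayPt) n.2 (x.2.1.2 : x.1 (pt 22) = pt 22)),
      hF _ (norm_fix (α := GolayPt) n.2 (x.2.2 : x.1 (pt 23) = pt 23)),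
      fun e => absurd ((n : M24).1.injective e) (by decide +kernel)⟩) _ (fun b _ => ?_) |>.trans
    (le_of_eq (mul_comm _ _))
  rcases (Finset.univ.filter fun n : N => f n = b).eq_empty_or_nonempty with h0 | ⟨a, ha⟩
  · rw [h0]; simp
  · have ha' := (Finset.mem_filter.1 ha).2
    have hfix : ∀ n ∈ Finset.univ.filter (fun n : N => f n = b), ((a⁻¹ * n : N) : M24).1 ∈ StdM22 := by
      intro n hn
      have hn' := (Finset.mem_filter.1 hn).2.trans ha'.symm
      simp only [f, Prod.mk.injEq] at hn'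
      refine ⟨⟨((a⁻¹ * n : N) : M24).2, ?_⟩, ?_⟩
      · show (((a : M24)⁻¹ * (n : M24) : M24) : Equiv.Perm GolayPt) (pt 22) = pt 22
        rw [Subgroup.coe_mul, Equiv.Perm.mul_apply, hn'.1, Subgroup.coe_inv, Equiv.Perm.inv_def,
          Equiv.symm_apply_apply]
      · show (((a : M24)⁻¹ * (n : M24) : M24) : Equiv.Perm GolayPt) (pt 23) = pt 23
        rw [Subgroup.coe_mul, Equiv.Perm.mul_apply, hn'.2, Subgroup.coe_inv, Equiv.Perm.inv_def,
          Equiv.symm_apply_apply]
    let g : {n : N // n ∈ Finset.univ.filter fun n : N => f n = b} →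
        Subgroup.normalizer ((Subgroup.zpowers x : Subgroup StdM22) : Set StdM22) := fun n =>
      ⟨⟨_, hfix n.1 n.2⟩, Subgroup.mem_normalizer_iff.2 fun q => by
        have h := Subgroup.mem_normalizer_iff.1 (a⁻¹ * n.1 : N).2 ⟨q.1, q.2.1.1⟩
        have hmem : ∀ w : StdM22, w ∈ Subgroup.zpowers x ↔ (⟨w.1, w.2.1.1⟩ : M24) ∈ Subgroup.zpowers x' := by
          intro w
          simp only [Subgroup.mem_zpowers_iff, Subtype.ext_iff, SubgroupClass.coe_zpow]
          rfl
        show q ∈ Subgroup.zpowers x ↔ _ ∈ Subgroup.zpowers x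
        rw [hmem, hmem]
        exact h⟩
    rw [← Fintype.card_coe, ← Nat.card_eq_fintype_card]
    refine Nat.card_le_card_of_injective g fun n m e => ?_
    have h1 : (a⁻¹ * n.1 : N) = a⁻¹ * m.1 := Subtype.ext (Subtype.ext (congrArg (fun z => z.1.1) e))
    exact Subtype.ext (mul_left_cancel h1)

/-! ### Characters of defect zero -/

variable {G : Type} [Group G] [Fintype G] {l : ℕ} [Fact l.Prime] {x : G}

theorem mean_two_parts (hx : orderOf x = l) (χ : IrrCharacter G) {h : ℕ} (hh : l = 2 * h + 1)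
    {r : ZMod l} (hr : r ≠ 0) (hconj : IsConj x (x ^ r.val)) (s : ZMod l) (S T : Finset (ZMod l))
    (hS : ∀ k ∈ S, ∃ i < h, k = r ^ i) (hT : ∀ k ∈ T, ∃ i < h, k = r ^ i * s)
    (hd0 : Disjoint S T) (hu : Finset.univ.erase 0 = S ∪ T) (hSc : S.card = h) (hTc : T.card = h) :
    ∃ X Y : ℤ, (l : ℤ) ∣ X + Y - 2 * (charDegree (χ : G → ℂ) : ℤ) ∧
      ∑ j ∈ Finset.univ.erase (0 : ZMod l), Complex.normSq ((χ : G → ℂ) (x ^ j.val)) =
        (h : ℝ) * (X : ℝ) ^ 2 + (h : ℝ) * (Y : ℝ) ^ 2 + (h : ℝ) ^ 2 * ((X : ℝ) - Y) ^ 2 := by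
  classical
  obtain ⟨m, hd, hsq, hinv, -⟩ := OneBlock.exists_mult (orderOf_dvd_iff_pow_eq_one.1 (dvd_of_eq hx)) χ
  have hrot : ∀ i a, m (r ^ i * a) = m a := by
    intro i
    induction i with
    | zero => intro a; rw [pow_zero, one_mul]
    | succ i ih => intro a; rw [pow_succ', mul_assoc, hinv r hr hconj, ih]
  have hsum : ∀ {R : Type} [CommRing R] (φ : ℕ → R),
      ∑ k : ZMod l, φ (m k) = φ (m 0) + h * φ (m 1) + h * φ (m s) := by
    intro R _ φ
    rw [← Finset.add_sum_erase _ _ (Finset.mem_univ 0), hu, Finset.sum_union hd0,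
      Finset.sum_congr rfl (g := fun _ => φ (m 1)) fun k hk => ?_,
      Finset.sum_congr (s₁ := T) rfl (g := fun _ => φ (m s)) fun k hk => ?_]
    · simp [hSc, hTc, add_assoc]
    · obtain ⟨i, -, rfl⟩ := hT k hk; rw [hrot]
    · obtain ⟨i, -, rfl⟩ := hS k hk
      rw [← mul_one (r ^ i), hrot]
  have hdi : (charDegree (χ : G → ℂ) : ℤ) = m 0 + h * m 1 + h * m s := by
    rw [hd, Nat.cast_sum]; exact hsum fun n => (n : ℤ)
  refine ⟨(m 0 : ℤ) - m 1, (m 0 : ℤ) - m s, ⟨-((m 1 : ℤ) + m s), ?_⟩, ?_⟩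
  · rw [hdi, show (l : ℤ) = 2 * h + 1 by exact_mod_cast hh]; push_cast; ring
  · rw [Finset.sum_erase_eq_sub (Finset.mem_univ _), hsq, hsum fun n => (n : ℝ) ^ 2, ZMod.val_zero,
      pow_zero, (Blocks.charDegree_eq χ.2).1, Complex.normSq_natCast]
    have hdr : (charDegree (χ : G → ℂ) : ℝ) = m 0 + h * m 1 + h * m s := by exact_mod_cast hdi
    rw [hdr, show (l : ℝ) = 2 * h + 1 by exact_mod_cast hh]; push_cast; ring

theorem norm_total (χ : IrrCharacter G) :
    ∑ g : G, Complex.normSq ((χ : G → ℂ) g) = Nat.card G := by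
  have h := Chars.classInner_self_irr χ.2
  rw [Chars.classInner_def, inv_mul_eq_iff_eq_mul₀ (Nat.cast_ne_zero.2 Nat.card_pos.ne'), mul_one] at h
  simp only [Complex.mul_conj] at h
  exact_mod_cast h

theorem share_class [DecidableEq G] (hx : orderOf x = l) (χ : IrrCharacter G) {B : ℕ}
    (hB : Nat.card (Subgroup.normalizer ((Subgroup.zpowers x : Subgroup G) : Set G)) ≤ B) :
    (Nat.card G : ℝ) * ∑ j ∈ Finset.univ.erase (0 : ZMod l), Complex.normSq ((χ : G → ℂ) (x ^ j.val)) ≤
      (B : ℝ) * ∑ g ∈ Finset.univ.filter (fun g : G => orderOf g = l), Complex.normSq ((χ : G → ℂ) g) :=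
  (OneBlock.share hx (fun g => Complex.normSq ((χ : G → ℂ) g)) (fun _ => Complex.normSq_nonneg _)
    fun g c => by rw [Chars.isClassFunction_irr χ g c]).trans
    (mul_le_mul_of_nonneg_right (by exact_mod_cast hB) (Finset.sum_nonneg fun _ _ => Complex.normSq_nonneg _))

/-! ### No defect zero -/

/-- Code of an involution centralising the element of order five. -/
def z5 : ℕ := 53967002037978177793592664029021928

/-- Code conjugating the element of order seven to its square. -/
def n7 : ℕ := 594865688568021616169324193266587680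

theorem codes_ok :
    isAut shiftCode = true ∧ ordB shiftCode 23 = true ∧ isAut mul2Code = true ∧
      sqB mul2Code shiftCode (powC shiftCode 2) mul2Code = true ∧
      ((List.range 24).all fun i => (app shiftCode i == i) == (i == 23)) = true ∧
    isAut m22g = true ∧ ordB m22g 11 = true ∧ isAut m22h = true ∧
      sqB m22h m22g (powC m22g 5) m22h = true ∧
      ((List.range 24).all fun i => !(app m22g i == i) || i == 22 || i == 23) = true ∧
    ordB m22h 5 = true ∧ isAut m22f = true ∧ sqB m22f m22h (powC m22h 3) m22f = true ∧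
      ((List.range 24).filter fun i => app m22h i == i).length = 4 ∧
      isAut z5 = true ∧ ordB z5 2 = true ∧ sqB z5 m22h m22h z5 = true ∧
    isAut r7 = true ∧ ordB r7 7 = true ∧ isAut n7 = true ∧ sqB n7 r7 (powC r7 2) n7 = true := by
  decide +kernel

theorem val23 : ((2 : ZMod 23).val = 2) ∧ ((5 : ZMod 11).val = 5) ∧ ((2 : ZMod 7).val = 2) ∧
    ((3 : ZMod 5).val = 3) := by decide

theorem low23_table : ∀ m ∈ [1, 3, 5, 7, 9, 11, 15], ∀ x ∈ List.range 9, ∀ y ∈ List.range 9,
    (23 : ℤ) ∣ ((x : ℤ) - 4) + ((y : ℤ) - 4) - 2 * (1024 * m : ℕ) →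
    (if m = 1 then (132 : ℤ) else if m = 3 then 176 else 254) ≤
      11 * ((x : ℤ) - 4) ^ 2 + 11 * ((y : ℤ) - 4) ^ 2 + 121 * (((x : ℤ) - 4) - ((y : ℤ) - 4)) ^ 2 := by
  decide +kernel

theorem low23 {X Y : ℤ} {m : ℕ} (hm : m ∈ [1, 3, 5, 7, 9, 11, 15])
    (h : (23 : ℤ) ∣ X + Y - 2 * (1024 * m : ℕ)) :
    (if m = 1 then (132 : ℤ) else if m = 3 then 176 else 254) ≤ 11 * X ^ 2 + 11 * Y ^ 2 + 121 * (X - Y) ^ 2 := by
  by_contra hc
  have hb : 11 * X ^ 2 + 11 * Y ^ 2 + 121 * (X - Y) ^ 2 < 254 := by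
    split_ifs at hc <;> linarith
  have h1 : -4 ≤ X ∧ X ≤ 4 := by constructor <;> nlinarith [sq_nonneg (X - Y), sq_nonneg Y]
  have h2 : -4 ≤ Y ∧ Y ≤ 4 := by constructor <;> nlinarith [sq_nonneg (X - Y), sq_nonneg X]
  have hx : ((X + 4).toNat : ℤ) - 4 = X := by omega
  have hy : ((Y + 4).toNat : ℤ) - 4 = Y := by omega
  have := low23_table m hm _ (List.mem_range.2 (show (X + 4).toNat < 9 by omega)) _
    (List.mem_range.2 (show (Y + 4).toNat < 9 by omega))
  rw [hx, hy] at this
  exact hc (this h)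

theorem low11_table : ∀ m ∈ [1, 3], ∀ x ∈ List.range 9, ∀ y ∈ List.range 9,
    (11 : ℤ) ∣ ((x : ℤ) - 4) + ((y : ℤ) - 4) - 2 * (1024 * m : ℕ) →
    (if m = 1 then (10 : ℤ) else 90) ≤
      5 * ((x : ℤ) - 4) ^ 2 + 5 * ((y : ℤ) - 4) ^ 2 + 25 * (((x : ℤ) - 4) - ((y : ℤ) - 4)) ^ 2 := by
  decide +kernel

theorem low11 {X Y : ℤ} {m : ℕ} (hm : m = 1 ∨ m = 3) (h : (11 : ℤ) ∣ X + Y - 2 * (1024 * m : ℕ)) :
    (if m = 1 then (10 : ℤ) else 90) ≤ 5 * X ^ 2 + 5 * Y ^ 2 + 25 * (X - Y) ^ 2 := by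
  by_contra hc
  have hb : 5 * X ^ 2 + 5 * Y ^ 2 + 25 * (X - Y) ^ 2 < 90 := by split_ifs at hc <;> linarith
  have h1 : -4 ≤ X ∧ X ≤ 4 := by constructor <;> nlinarith [sq_nonneg (X - Y), sq_nonneg Y]
  have h2 : -4 ≤ Y ∧ Y ≤ 4 := by constructor <;> nlinarith [sq_nonneg (X - Y), sq_nonneg X]
  have hx : ((X + 4).toNat : ℤ) - 4 = X := by omega
  have hy : ((Y + 4).toNat : ℤ) - 4 = Y := by omega
  have := low11_table m (by simp; omega) _ (List.mem_range.2 (show (X + 4).toNat < 9 by omega)) _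
    (List.mem_range.2 (show (Y + 4).toNat < 9 by omega))
  rw [hx, hy] at this
  exact hc (this h)

theorem low7 {X Y : ℤ} (h : (7 : ℤ) ∣ X + Y - 2 * (1024 * 1 : ℕ)) :
    (24 : ℤ) ≤ 3 * X ^ 2 + 3 * Y ^ 2 + 9 * (X - Y) ^ 2 := by
  by_contra hc
  have h1 : -2 ≤ X ∧ X ≤ 2 := by constructor <;> nlinarith [sq_nonneg (X - Y), sq_nonneg Y]
  have h2 : -2 ≤ Y ∧ Y ≤ 2 := by constructor <;> nlinarith [sq_nonneg (X - Y), sq_nonneg X]
  obtain ⟨a, b⟩ := h1; obtain ⟨c, d⟩ := h2
  interval_cases X <;> interval_cases Y <;> simp at h hc ⊢ <;> omega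

set_option maxHeartbeats 1000000 in
theorem no_defect_zero {M : Ideal AlgInt} (hM : IsPModular 2 M) (χ : IrrCharacter M24) :
    (charDegree (χ : M24 → ℂ)).factorization 2 < (Nat.card M24).factorization 2 := by
  classical
  haveI := Fintype.ofFinite M24
  haveI : M.IsMaximal := hM.2.1
  by_contra hle
  rw [not_lt] at hle
  set d := charDegree (χ : M24 → ℂ) with hd
  have hdpos := (Blocks.charDegree_eq χ.2).2
  have hfac : (Nat.card M24).factorization 2 = 10 := by
    rw [M24_card, show (244823040 : ℕ) = 2 ^ 10 * 239085 by norm_num,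
      Nat.factorization_mul (by norm_num) (by norm_num), Finsupp.add_apply, Nat.factorization_pow,
      Finsupp.smul_apply, Nat.prime_two.factorization_self,
      Nat.factorization_eq_zero_of_not_dvd (show ¬ 2 ∣ 239085 by norm_num)]
    norm_num
  obtain ⟨m, hm⟩ : 2 ^ 10 ∣ d := (pow_dvd_pow 2 (hfac ▸ hle)).trans (Nat.ordProj_dvd d 2)
  have hdvd : d ∣ 244823040 := M24_card ▸ Blocks.charDegree_dvd χ.2
  have htotal := norm_total χ
  have hone : (d : ℝ) ^ 2 ≤ (Nat.card M24 : ℝ) := by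
    rw [← htotal, hd]
    refine le_trans (le_of_eq ?_) (Finset.single_le_sum (fun g _ => Complex.normSq_nonneg _)
      (Finset.mem_univ (1 : M24)))
    rw [(Blocks.charDegree_eq χ.2).1, Complex.normSq_natCast, sq]
  have hm15 : m ≤ 15 := by
    by_contra hlt
    have : (16384 : ℝ) ≤ d := by
      have : 16384 ≤ d := by omega
      exact_mod_cast this
    rw [M24_card] at hone
    push_cast at hone
    nlinarith
  have hmlist : m ∈ [1, 3, 5, 7, 9, 11, 15] := by
    have : ∀ k ≤ 15, 1024 * k ∣ 244823040 → k ∈ [1, 3, 5, 7, 9, 11, 15] := by decide +kernel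
    exact this m hm15 (by rw [← show d = 1024 * m by rw [hm]; norm_num]; exact hdvd)
  have hdm : d = 1024 * m := by rw [hm]; norm_num
  obtain ⟨a23, o23, am2, c23, f23, ag, og, ah, c11, f11, oh, af, c5, f5, az, oz, cz, a7, o7, an, c7⟩ :=
    codes_ok
  obtain ⟨v2, v5, v7, v3⟩ := val23
  -- the four means
  have hx23 := orderOf_el (by norm_num : Nat.Prime 23) a23 o23
  have hx11 := orderOf_el (by norm_num : Nat.Prime 11) ag og
  have hx7 := orderOf_el (by norm_num : Nat.Prime 7) a7 o7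
  have hx5 := orderOf_el (by norm_num : Nat.Prime 5) ah oh
  obtain ⟨X, Y, hXY, e23⟩ := mean_two_parts hx23 χ (h := 11) (by norm_num) (r := 2) (by decide)
    (by rw [v2]; exact isConj_pow am2 a23 c23) 5 ((Finset.range 11).image ((2 : ZMod 23) ^ ·))
    ((Finset.range 11).image ((2 : ZMod 23) ^ · * 5))
    (by intro k hk; obtain ⟨i, hi, rfl⟩ := Finset.mem_image.1 hk; exact ⟨i, Finset.mem_range.1 hi, rfl⟩)
    (by intro k hk; obtain ⟨i, hi, rfl⟩ := Finset.mem_image.1 hk; exact ⟨i, Finset.mem_range.1 hi, rfl⟩)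
    (by decide +kernel) (by decide +kernel) (by decide +kernel) (by decide +kernel)
  rw [← hd, hdm] at hXY
  have b23 := low23 hmlist (by exact_mod_cast hXY)
  have s23 := share_class hx23 χ (norm23 a23 hx23 f23)
  rw [e23] at s23
  set E := fun l : ℕ => ∑ g ∈ Finset.univ.filter (fun g : M24 => orderOf g = l),
    Complex.normSq ((χ : M24 → ℂ) g) with hE
  have hE0 : ∀ l, 0 ≤ E l := fun l => Finset.sum_nonneg fun _ _ => Complex.normSq_nonneg _
  have hEsum : E 23 + E 11 + E 7 + E 5 ≤ (Nat.card M24 : ℝ) := by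
    rw [← htotal, ← Finset.sum_fiberwise_of_maps_to (t := Finset.univ.image (orderOf : M24 → ℕ))
      (g := (orderOf : M24 → ℕ)) fun g _ => Finset.mem_image_of_mem _ (Finset.mem_univ g)]
    have hsub : ({23, 11, 7, 5} : Finset ℕ) ⊆ Finset.univ.image (orderOf : M24 → ℕ) := by
      intro l hl
      simp only [Finset.mem_insert, Finset.mem_singleton] at hl
      rcases hl with rfl | rfl | rfl | rfl
      exacts [hx23 ▸ Finset.mem_image_of_mem _ (Finset.mem_univ _),
        hx11 ▸ Finset.mem_image_of_mem _ (Finset.mem_univ _),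
        hx7 ▸ Finset.mem_image_of_mem _ (Finset.mem_univ _),
        hx5 ▸ Finset.mem_image_of_mem _ (Finset.mem_univ _)]
    refine le_trans (le_of_eq ?_) (Finset.sum_le_sum_of_subset_of_nonneg hsub fun l _ _ => hE0 l)
    simp [hE, add_assoc]
  set N : ℝ := (Nat.card M24 : ℝ)
  have hN : 0 < N := by simp only [N, M24_card]; norm_num
  by_cases hm5 : 5 ≤ m
  · have hb : (254 : ℝ) ≤ (11 : ℝ) * X ^ 2 + 11 * Y ^ 2 + 11 ^ 2 * ((X : ℝ) - Y) ^ 2 := by
      rw [if_neg (by omega), if_neg (by omega)] at b23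
      have : ((254 : ℤ) : ℝ) ≤ ((11 * X ^ 2 + 11 * Y ^ 2 + 121 * (X - Y) ^ 2 : ℤ) : ℝ) := by
        exact_mod_cast b23
      push_cast at this ⊢
      linarith
    have := hE0 11; have := hE0 7; have := hE0 5
    push_cast at s23 hb
    have := mul_le_mul_of_nonneg_left hb hN.le
    linarith
  have hm13 : m = 1 ∨ m = 3 := by
    simp only [List.mem_cons, List.not_mem_nil, or_false] at hmlist
    omega
  obtain ⟨X', Y', hXY', e11⟩ := mean_two_parts hx11 χ (h := 5) (by norm_num) (r := 5) (by decide)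
    (by rw [v5]; exact isConj_pow ah ag c11) 2 ((Finset.range 5).image ((5 : ZMod 11) ^ ·))
    ((Finset.range 5).image ((5 : ZMod 11) ^ · * 2))
    (by intro k hk; obtain ⟨i, hi, rfl⟩ := Finset.mem_image.1 hk; exact ⟨i, Finset.mem_range.1 hi, rfl⟩)
    (by intro k hk; obtain ⟨i, hi, rfl⟩ := Finset.mem_image.1 hk; exact ⟨i, Finset.mem_range.1 hi, rfl⟩)
    (by decide +kernel) (by decide +kernel) (by decide +kernel) (by decide +kernel)
  rw [← hd, hdm] at hXY'
  have b11 := low11 hm13 (by exact_mod_cast hXY')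
  have hok : ∀ {c : ℕ}, isAut c = true → ∀ y, (permOf c y = y ↔ app c (idx y) = idx y) := by
    intro c hc y
    rw [← idx_permOf (permOK_of_isAut hc), idx_injective.eq_iff]
  have hn11 : Nat.card (Subgroup.normalizer ((Subgroup.zpowers (el m22g ag) : Subgroup M24) : Set M24)) ≤ 110 := by
    refine (norm_le (x := eG) {pt 22, pt 23} fun y hy => ?_).trans ?_
    · have h1 := (hok ag y).1 hy
      simp only [List.all_eq_true, List.mem_range] at f11
      have := f11 (idx y) (idx_lt y)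
      simp only [h1, beq_self_eq_true, Bool.not_true, Bool.false_or, Bool.or_eq_true, beq_iff_eq] at this
      rcases this with e | e
      · exact Finset.mem_insert.2 (Or.inl (by rw [← e, pt_idx]))
      · exact Finset.mem_insert_of_mem (Finset.mem_singleton.2 (by rw [← e, pt_idx]))
    · rw [norm_eG_card]
      have : ({pt 22, pt 23} : Finset GolayPt).offDiag.card = 2 := by decide +kernel
      omega
  have s11 := share_class hx11 χ hn11
  rw [e11] at s11
  rcases hm13 with rfl | rfl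
  swap
  · have hb1 : ((176 : ℤ) : ℝ) ≤ ((11 * X ^ 2 + 11 * Y ^ 2 + 121 * (X - Y) ^ 2 : ℤ) : ℝ) := by
      simp only [show ¬ ((3 : ℕ) = 1) by norm_num, if_false, if_true] at b23
      exact_mod_cast b23
    have hb2 : ((90 : ℤ) : ℝ) ≤ ((5 * X' ^ 2 + 5 * Y' ^ 2 + 25 * (X' - Y') ^ 2 : ℤ) : ℝ) := by
      simp only [show ¬ ((3 : ℕ) = 1) by norm_num, if_false] at b11
      exact_mod_cast b11
    have := hE0 7; have := hE0 5
    push_cast at s23 s11 hb1 hb2
    have := mul_le_mul_of_nonneg_left hb1 hN.le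
    have := mul_le_mul_of_nonneg_left hb2 hN.le
    linarith
  obtain ⟨X7, Y7, hXY7, e7⟩ := mean_two_parts hx7 χ (h := 3) (by norm_num) (r := 2) (by decide)
    (by rw [v7]; exact isConj_pow an a7 c7) 3 ((Finset.range 3).image ((2 : ZMod 7) ^ ·))
    ((Finset.range 3).image ((2 : ZMod 7) ^ · * 3))
    (by intro k hk; obtain ⟨i, hi, rfl⟩ := Finset.mem_image.1 hk; exact ⟨i, Finset.mem_range.1 hi, rfl⟩)
    (by intro k hk; obtain ⟨i, hi, rfl⟩ := Finset.mem_image.1 hk; exact ⟨i, Finset.mem_range.1 hi, rfl⟩)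
    (by decide +kernel) (by decide +kernel) (by decide +kernel) (by decide +kernel)
  rw [← hd, hdm] at hXY7
  have b7 := low7 (by exact_mod_cast hXY7)
  have s7 := share_class hx7 χ (B := 126) (le_of_eq
    (sylow_seven (Subgroup.zpowers (el r7 a7)) (by rw [Nat.card_zpowers, hx7])).1)
  rw [e7] at s7
  -- five: one rational even value
  obtain ⟨k, hkd, hksq, hkinv, hkval⟩ :=
    OneBlock.exists_mult (orderOf_dvd_iff_pow_eq_one.1 (dvd_of_eq hx5)) χ
  have hc3 : IsConj (el m22h ah) (el m22h ah ^ (3 : ZMod 5).val) := by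
    rw [v3]; exact isConj_pow af ah c5
  have h3 := hkinv 3 (by decide) hc3
  have hk3 : k 3 = k 1 := by have := h3 1; rwa [mul_one] at this
  have hk4 : k 4 = k 1 := by have := h3 3; rw [show (3 : ZMod 5) * 3 = 4 by decide] at this; omega
  have hk2 : k 2 = k 1 := by have := h3 4; rw [show (3 : ZMod 5) * 4 = 2 by decide] at this; omega
  have huniv : (Finset.univ : Finset (ZMod 5)) = {0, 1, 2, 3, 4} := by decide
  have hd5 : (d : ℤ) = k 0 + 4 * k 1 := by
    rw [hd, hkd, huniv]
    simp +decide [hk2, hk3, hk4]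
    ring
  have hv : (χ : M24 → ℂ) (el m22h ah) = (((k 0 : ℤ) - k 1 : ℤ) : ℂ) := by
    rw [hkval]
    have hz : ∑ a : ZMod 5, (ZMod.stdAddChar a : ℂ) = 0 := by
      have := AddChar.sum_mulShift (R := ZMod 5) (R' := ℂ) (1 : ZMod 5) (ZMod.isPrimitive_stdAddChar 5)
      simpa using this
    rw [huniv] at hz ⊢
    simp +decide [hk2, hk3, hk4] at hz ⊢
    linear_combination (k 1 : ℂ) * hz
  have heven : (2 : ℤ) ∣ (k 0 : ℤ) - k 1 := by
    rw [show (2 : ℤ) = ((2 : ℕ) : ℤ) by norm_num, ← Blocks.memI_intCast_iff (p := 2) hM.2.2, ← hv]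
    refine OneBlock.memI_value hM χ hle ?_
    have hz2 := orderOf_el Nat.prime_two az oz
    rw [← hz2]
    refine Subgroup.orderOf_dvd_natCard _ (Subgroup.mem_centralizer_singleton_iff.2 (Subtype.ext ?_))
    exact (sqB_iff (permOK_of_isAut az) (permOK_of_isAut ah) (permOK_of_isAut ah) (permOK_of_isAut az)).1 cz
  have hsum5 : ∑ j ∈ Finset.univ.erase (0 : ZMod 5), Complex.normSq ((χ : M24 → ℂ) (el m22h ah ^ j.val)) =
      4 * (((k 0 : ℤ) - k 1 : ℤ) : ℝ) ^ 2 := by
    rw [Finset.sum_erase_eq_sub (Finset.mem_univ _), hksq, ZMod.val_zero, pow_zero,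
      (Blocks.charDegree_eq χ.2).1, Complex.normSq_natCast, ← hd,
      show (d : ℝ) = k 0 + 4 * k 1 by exact_mod_cast hd5, huniv]
    simp +decide [hk2, hk3, hk4]
    ring
  have hn5 : Nat.card (Subgroup.normalizer ((Subgroup.zpowers (el m22h ah) : Subgroup M24) : Set M24)) ≤ 240 := by
    refine (norm_le (x := eH) ((((List.range 24).filter fun i => app m22h i == i).map pt).toFinset)
      fun y hy => ?_).trans ?_
    · rw [List.mem_toFinset, List.mem_map]
      exact ⟨idx y, List.mem_filter.2 ⟨List.mem_range.2 (idx_lt y), beq_iff_eq.2 ((hok ah y).1 hy)⟩, pt_idx y⟩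
    · rw [norm_eH_card]
      have : ((((List.range 24).filter fun i => app m22h i == i).map pt).toFinset).offDiag.card = 12 := by
        decide +kernel
      omega
  have s5 := share_class hx5 χ hn5
  rw [hsum5] at s5
  have hv4 : ((64 : ℤ)) ≤ 4 * ((k 0 : ℤ) - k 1) ^ 2 := by
    obtain ⟨a, ha⟩ := heven
    by_contra hc
    have h1 : -1 ≤ a ∧ a ≤ 1 := by
      rw [ha] at hc
      constructor <;> nlinarith
    rw [hdm] at hd5
    push_cast at hd5
    omega
  have hb1 : ((132 : ℤ) : ℝ) ≤ ((11 * X ^ 2 + 11 * Y ^ 2 + 121 * (X - Y) ^ 2 : ℤ) : ℝ) := by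
    simp only [if_true] at b23
    exact_mod_cast b23
  have hb2 : ((10 : ℤ) : ℝ) ≤ ((5 * X' ^ 2 + 5 * Y' ^ 2 + 25 * (X' - Y') ^ 2 : ℤ) : ℝ) := by
    simp only [if_true] at b11
    exact_mod_cast b11
  have hb3 : ((24 : ℤ) : ℝ) ≤ ((3 * X7 ^ 2 + 3 * Y7 ^ 2 + 9 * (X7 - Y7) ^ 2 : ℤ) : ℝ) := by
    exact_mod_cast b7
  have hb4 : ((64 : ℤ) : ℝ) ≤ ((4 * ((k 0 : ℤ) - k 1) ^ 2 : ℤ) : ℝ) := by exact_mod_cast hv4
  push_cast at s23 s11 s7 s5 hb1 hb2 hb3 hb4
  have := mul_le_mul_of_nonneg_left hb1 hN.le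
  have := mul_le_mul_of_nonneg_left hb2 hN.le
  have := mul_le_mul_of_nonneg_left hb3 hN.le
  have := mul_le_mul_of_nonneg_left hb4 hN.le
  linarith

/-! ### Centralisers of involutions -/

/-- The points moved by `r2a`. -/
def moved2a : List ℕ := (List.range 24).filter fun i => !(3227948 : ℕ).testBit i

/-- Octads with at least five points among them. -/
def seeds2a : List ℕ := ((List.range 4096).map encode).filter fun f =>
  pc f == 8 && decide (5 ≤ pc (f &&& ((moved2a.map (2 ^ ·)).foldl (· ||| ·) 0)))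

theorem rigid2a_ok :
    (seedsOK moved2a seeds2a &&
      (List.range 24).all fun x => moved2a.contains x || sigUnique moved2a seeds2a x) = true := by
  decide +kernel

theorem fix2a_ok :
    isAut r2a = true ∧ (inC 3227948 && pc 3227948 == 8) = true ∧
      ((List.range 24).all fun i => (app r2a i == i) == (3227948 : ℕ).testBit i) = true ∧
      (3227948 : ℕ).testBit 0 = false := by
  decide +kernel

theorem local_two_a {M : Ideal AlgInt} (hM : IsPModular 2 M) (h : isAut r2a = true) {x : M24}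
    (hx : x = el r2a h) (χ ψ : IrrCharacter (Subgroup.centralizer ({x} : Set M24))) :
    SameBlock M (χ : Subgroup.centralizer ({x} : Set M24) → ℂ)
      (ψ : Subgroup.centralizer ({x} : Set M24) → ℂ) := by
  classical
  haveI := Fact.mk Nat.prime_two
  subst hx
  obtain ⟨-, hoct, hfix, h0⟩ := fix2a_ok
  set o := bset 3227948 with ho'
  have ho : o ∈ octads := octad_of_mask hoct
  have hfp : ∀ p, permOf r2a p = p ↔ p ∈ o := by
    intro p
    have e := beq_iff_eq.1 (List.all_eq_true.1 hfix (idx p) (List.mem_range.2 (idx_lt p)))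
    rw [← idx_permOf (permOK_of_isAut h)] at e
    rw [ho', mem_bset, ← e, beq_iff_eq, idx_injective.eq_iff]
  set F := M24 ⊓ fixingSubgroup (Equiv.Perm GolayPt) (↑o : Set GolayPt) with hF
  have hr : permOf r2a ∈ F := mem_fixer_iff.2 ⟨permOf_mem_M24 h, fun p hp => (hfp p).2 hp⟩
  have hFcomm : ∀ a ∈ F, ∀ b ∈ F, a * b = b * a := by
    intro a ha b hb
    calc a * b = (a * b)⁻¹ := eq_inv_of_mul_eq_one_left (fixer_sq ho (mul_mem ha hb))
      _ = b⁻¹ * a⁻¹ := mul_inv_rev a b
      _ = b * a := by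
        rw [← eq_inv_of_mul_eq_one_left (fixer_sq ho ha), ← eq_inv_of_mul_eq_one_left (fixer_sq ho hb)]
  let H := Subgroup.centralizer ({el r2a h} : Set M24)
  have hpres : ∀ g : H, ∀ p, p ∈ o → (g : M24).1 p ∈ o := by
    intro g p hp
    have e := congrArg (fun z : M24 => z.1 p) (Subgroup.mem_centralizer_singleton_iff.1 g.2)
    refine (hfp _).1 ?_
    have e' : (g : M24).1 (permOf r2a p) = permOf r2a ((g : M24).1 p) := e
    rw [(hfp p).2 hp] at e'
    exact e'.symm
  let E : Subgroup H := F.comap (M24.subtype.comp H.subtype)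
  have hmemE : ∀ e : H, e ∈ E ↔ (e : M24).1 ∈ F := fun e => Iff.rfl
  refine OneBlock.sameBlock_of_normal hM E ⟨fun e he g => ?_⟩ (fun e => ⟨1, Subtype.ext ?_⟩) (fun g hg => ?_) χ ψ
  · rw [hmemE, hF, mem_fixer_iff] at he ⊢
    refine ⟨(g * e * g⁻¹ : H).1.2, fun p hp => ?_⟩
    show (g : M24).1 ((e : M24).1 ((g⁻¹ : H).1.1 p)) = p
    rw [he.2 _ (hpres g⁻¹ p hp)]
    exact Equiv.apply_symm_apply _ _
  · apply Subtype.ext
    apply Subtype.ext
    simp only [pow_one, Subgroup.coe_pow, Subgroup.coe_one, sq]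
    exact fixer_sq ho e.2
  · rw [hmemE, hF, mem_fixer_iff]
    have hp : pt 0 ∉ o := by rw [ho', mem_bset, idx_pt (by norm_num), h0]; simp
    have hq : (g : M24).1 (pt 0) ∉ o := fun hin => hp (by
      have := hpres g⁻¹ _ hin
      simpa using this)
    obtain ⟨f, hf, hfe⟩ := fixer_transitive ho hp hq
    have hcomm : ∀ a ∈ F, (g : M24).1 * a = a * (g : M24).1 := by
      intro a ha
      have haH : (⟨a, (mem_fixer_iff.1 ha).1⟩ : M24) ∈ H :=
        Subgroup.mem_centralizer_singleton_iff.2 (Subtype.ext (hFcomm a ha _ hr))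
      exact (congrArg (fun z : H => z.1.1) (Subgroup.mem_centralizer_iff.1 hg ⟨_, haH⟩ ha)).symm
    set k := f⁻¹ * (g : M24).1 with hk
    have hkp : k (pt 0) = pt 0 := by
      rw [hk, Equiv.Perm.mul_apply, ← hfe, Equiv.Perm.inv_def, Equiv.symm_apply_apply]
    have hkfix : ∀ y, y ∉ o → k y = y := by
      intro y hy
      obtain ⟨a, ha, rfl⟩ := fixer_transitive ho hp hy
      have hka : k * a = a * k := by
        rw [hk, mul_assoc, hcomm a ha, ← mul_assoc, hFcomm _ (inv_mem hf) _ ha, mul_assoc]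
      rw [← Equiv.Perm.mul_apply, hka, Equiv.Perm.mul_apply, hkp]
    have hk1 : k = 1 := by
      have hok := rigid2a_ok
      simp only [Bool.and_eq_true, List.all_eq_true, Bool.or_eq_true, List.contains_iff_mem] at hok
      have hm : ∀ i ∈ moved2a, i < 24 ∧ k (pt i) = pt i := by
        intro i hi
        simp only [moved2a, List.mem_filter, List.mem_range, Bool.not_eq_true'] at hi
        refine ⟨hi.1, hkfix _ ?_⟩
        rw [ho', mem_bset, idx_pt hi.1, hi.2]; simp
      have hkM : k ∈ M24 := mul_mem (inv_mem (mem_fixer_iff.1 hf).1) (g : M24).2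
      ext1 p
      rw [← pt_idx p, Equiv.Perm.one_apply]
      exact (hok.2 _ (List.mem_range.2 (idx_lt p))).elim (fun hi => (hm _ hi).2)
        (rigid_step hkM _ _ hm hok.1 (idx_lt p))
    rw [hk, inv_mul_eq_one] at hk1
    exact hk1 ▸ mem_fixer_iff.1 hf

/-- Codes in the centraliser of `r2b`. -/
def r3 : ℕ := 484957113049387041683355436988308205
@[inherit_doc r3] def r5 : ℕ := 385102930662643280586123928046513550
@[inherit_doc r3] def q2b : ℕ := 984087307520217016303882750304884019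

theorem codes2b_ok :
    isAut r2b = true ∧ ordB r2b 2 = true ∧ centB r3 = true ∧ ordB r3 3 = true ∧
      centB r5 = true ∧ ordB r5 5 = true ∧ centB q2b = true ∧
      (sext2b.all fun u => mapMask q2b u == u) = true ∧
      sqB q2b r3 r3 q2b = false ∧ sqB q2b r5 r5 q2b = false ∧ (sext2b.all fun u => pc u == 4) = true := by
  decide +kernel

theorem local_two_b {M : Ideal AlgInt} (hM : IsPModular 2 M) (h : isAut r2b = true) {x : M24}
    (hx : x = el r2b h) (χ ψ : IrrCharacter (Subgroup.centralizer ({x} : Set M24))) :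
    SameBlock M (χ : Subgroup.centralizer ({x} : Set M24) → ℂ)
      (ψ : Subgroup.centralizer ({x} : Set M24) → ℂ) := by
  classical
  haveI := Fact.mk Nat.prime_two
  subst hx
  obtain ⟨-, ho2, hc3, ho3, hc5, ho5, hcq, hqu, hn3, hn5, hu4⟩ := codes2b_ok
  let H := Subgroup.centralizer ({el r2b h} : Set M24)
  have hHmem : ∀ g : M24, g ∈ H ↔ g.1 ∈ cent2b := by
    intro g
    show g ∈ Subgroup.centralizer ({el r2b h} : Set M24) ↔ _
    rw [mem_cent2b, Subgroup.mem_centralizer_singleton_iff, Subtype.ext_iff]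
    exact ⟨fun e => ⟨g.2, e⟩, fun e => e.2⟩
  have hcard : Nat.card H = 2 ^ 9 * 15 := by
    rw [show (2 : ℕ) ^ 9 * 15 = 7680 by norm_num, ← cent2b_card]
    exact Nat.card_congr
      { toFun := fun g => ⟨g.1.1, (hHmem g.1).1 g.2⟩
        invFun := fun g => ⟨⟨g.1, (mem_cent2b.1 g.2).1⟩, (hHmem _).2 g.2⟩
        left_inv := fun _ => rfl
        right_inv := fun _ => rfl }
  have code_mem : ∀ {c : ℕ}, centB c = true → ∃ z : H, z.1.1 = permOf c := fun hc =>
    ⟨⟨⟨_, (mem_cent2b.1 (code_eq_pt hc).1).1⟩, (hHmem _).2 (code_eq_pt hc).1⟩, rfl⟩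
  let S : Subgroup (Equiv.Perm GolayPt) :=
    ⨅ u ∈ sext2b, MulAction.stabilizer (Equiv.Perm GolayPt) (bset u)
  let Q : Subgroup H := S.comap (M24.subtype.comp H.subtype)
  have hmemQ : ∀ g : H, g ∈ Q ↔ ∀ u ∈ sext2b, (g : M24).1 • bset u = bset u := by
    intro g
    simp [Q, S, MulAction.mem_stabilizer_iff]
  have hQn : Q.Normal := ⟨fun q hq g => (hmemQ _).2 fun u hu => by
    have hmem : (g⁻¹ : H).1.1 • bset u ∈ toSet sext2b := by
      rw [← cent_sextet ((hHmem _).1 (g⁻¹ : H).2)]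
      exact Finset.smul_mem_smul_finset (mem_toSet.2 ⟨u, hu, rfl⟩)
    obtain ⟨w, hw, e⟩ := mem_toSet.1 hmem
    show ((g : M24).1 * (q : M24).1 * (g : M24).1⁻¹) • bset u = bset u
    rw [mul_smul, mul_smul]
    change (g : M24).1 • (q : M24).1 • (g⁻¹ : H).1.1 • bset u = bset u
    rw [← e, (hmemQ q).1 hq w hw, e]
    exact smul_inv_smul _ _⟩
  have hno : ∀ (K : Subgroup H) (l : ℕ), l.Prime → l ∣ Nat.card K →
      ∃ y : H, y ∈ K ∧ orderOf y = l ∧ orderOf y.1.1 = l := by
    intro K l hl hd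
    haveI := Fact.mk hl
    obtain ⟨y, hy⟩ := exists_prime_orderOf_dvd_card' l hd
    refine ⟨y.1, y.2, by rw [Subgroup.orderOf_coe, hy], ?_⟩
    rw [Subgroup.orderOf_coe, Subgroup.orderOf_coe, Subgroup.orderOf_coe, hy]
  have two_group : ∀ K : Subgroup H, ¬ 3 ∣ Nat.card K → ¬ 5 ∣ Nat.card K → IsPGroup 2 K := by
    intro K h3 h5
    have hd : Nat.card K ∣ 2 ^ 9 * 15 := hcard ▸ Subgroup.card_subgroup_dvd_card K
    have hco : Nat.Coprime (Nat.card K) 15 := by
      have := Nat.Coprime.mul_right ((Nat.prime_three.coprime_iff_not_dvd.2 h3).symm)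
        (((by norm_num : Nat.Prime 5).coprime_iff_not_dvd.2 h5).symm)
      simpa using this
    obtain ⟨k, -, hk⟩ := (Nat.dvd_prime_pow Nat.prime_two).1 (hco.dvd_of_dvd_mul_right hd)
    exact IsPGroup.of_card hk
  have hsmall : ∀ y : H, y ∈ Q → ∀ l : ℕ, l.Prime → orderOf y.1.1 = l →
      (l = 3 → ∃ p, y.1.1 p = p) ∧ (l = 5 → False) := by
    intro y hy l hl ho
    haveI := Fact.mk hl
    have hsub : ∀ u ∈ sext2b, ∀ p, p ∈ bset u → y.1.1 p ∈ bset u := by
      intro u hu p hp
      have := Finset.smul_mem_smul_finset (a := y.1.1) hp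
      rwa [(hmemQ y).1 hy u hu] at this
    have hiff : ∀ u ∈ sext2b, ∀ p, y.1.1 p ∈ bset u ↔ p ∈ bset u := by
      intro u hu p
      conv_lhs => rw [← (hmemQ y).1 hy u hu]
      exact Finset.smul_mem_smul_finset_iff (s := bset u) y.1.1
    have hcard4 : ∀ u ∈ sext2b, Fintype.card {p // p ∈ bset u} = 4 := by
      intro u hu
      rw [Fintype.card_coe, card_bset]
      exact beq_iff_eq.1 (List.all_eq_true.1 hu4 u hu)
    have hpow : ∀ u (hu : u ∈ sext2b),
        (y.1.1.subtypePerm (p := (· ∈ bset u)) (hiff u hu)) ^ l = 1 := by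
      intro u hu
      rw [Equiv.Perm.subtypePerm_pow]
      ext ⟨p, hp⟩
      have e1 : y.1.1 ^ l = 1 := by rw [← ho]; exact pow_orderOf_eq_one _
      simp [e1]
    constructor
    · rintro rfl
      obtain ⟨u, hu⟩ : ∃ u, u ∈ sext2b := ⟨_, List.head_mem (by decide +kernel : sext2b ≠ [])⟩
      have hm := Equiv.Perm.card_compl_support_modEq (p := 3) (n := 1) (by rw [pow_one]; exact hpow u hu)
      rw [hcard4 u hu] at hm
      obtain ⟨⟨p, hp⟩, hps⟩ : (y.1.1.subtypePerm (p := (· ∈ bset u)) (hiff u hu)).supportᶜ.Nonempty := by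
        rw [← Finset.card_pos]
        by_contra hz
        rw [Nat.eq_zero_of_not_pos hz] at hm
        exact absurd hm (by decide)
      rw [Finset.mem_compl, Equiv.Perm.notMem_support] at hps
      exact ⟨p, congrArg Subtype.val hps⟩
    · rintro rfl
      have hone : y.1.1 = 1 := by
        ext1 p
        obtain ⟨u, hu, hpu⟩ : ∃ u ∈ sext2b, p ∈ bset u := by
          have hcov : ∀ i < 24, ∃ u ∈ sext2b, u.testBit i = true := by decide +kernel
          obtain ⟨u, hu, hb⟩ := hcov (idx p) (idx_lt p)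
          exact ⟨u, hu, mem_bset.2 hb⟩
        have hd1 := orderOf_dvd_of_pow_eq_one (hpow u hu)
        have hd2 := orderOf_dvd_card (x := y.1.1.subtypePerm (p := (· ∈ bset u)) (hiff u hu))
        rw [Fintype.card_perm, hcard4 u hu] at hd2
        have h1 : y.1.1.subtypePerm (p := (· ∈ bset u)) (hiff u hu) = 1 := by
          rw [← orderOf_eq_one_iff, ← Nat.dvd_one]
          exact (Nat.dvd_gcd hd1 hd2).trans (by decide)
        exact congrArg Subtype.val (Equiv.ext_iff.1 h1 ⟨p, hpu⟩)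
      rw [hone, orderOf_one] at ho
      exact absurd ho (by norm_num)
  have hQ2 : IsPGroup 2 Q := by
    refine two_group Q (fun hd => ?_) (fun hd => ?_)
    · obtain ⟨y, hyQ, -, hy⟩ := hno Q 3 Nat.prime_three hd
      obtain ⟨p, hp⟩ := (hsmall y hyQ 3 Nat.prime_three hy).1 rfl
      have ho : orderOf (permOf r2b) = 2 := by
        rw [← orderOf_el Nat.prime_two h ho2, ← Subgroup.orderOf_coe]; rfl
      have hcm : Commute y.1.1 (permOf r2b) := (mem_cent2b.1 ((hHmem _).1 y.2)).2
      have hr0 := (rep_fix (r := r2b) (by simp)).2.2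
      rw [if_neg (by decide +kernel), if_neg (by decide +kernel)] at hr0
      rcases commuting_three_two y.1.2 (permOf_mem_M24 h) hy ho hcm with ⟨-, e⟩ | ⟨e, -⟩
      · omega
      · rw [Finset.card_eq_zero, Finset.filter_eq_empty_iff] at e
        exact e (Finset.mem_univ p) hp
    · obtain ⟨y, hyQ, -, hy⟩ := hno Q 5 (by norm_num) hd
      exact (hsmall y hyQ 5 (by norm_num) hy).2 rfl
  haveI := hQn
  set C := Subgroup.centralizer (Q : Set H) with hC
  have hCn : C.Normal := inferInstance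
  have hC2 : IsPGroup 2 C := by
    have key : ∀ l c : ℕ, l.Prime → ¬ l * l ∣ 2 ^ 9 * 15 → centB c = true → ordB c l = true →
        sqB q2b c c q2b = false → ¬ l ∣ Nat.card C := by
      intro l c hl hsq hc hol hne hd
      obtain ⟨z, hz⟩ := code_mem hc
      obtain ⟨q, hq⟩ := code_mem hcq
      have hqQ : q ∈ Q := (hmemQ q).2 fun u hu => by
        rw [hq, ← bset_mapMask (permOK_of_isAut (Bool.and_eq_true_iff.1 hcq).1),
          beq_iff_eq.1 (List.all_eq_true.1 hqu u hu)]
      have hco : Nat.Coprime l C.index := hl.coprime_iff_not_dvd.2 fun hi => hsq (by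
        rw [← hcard, ← Subgroup.card_mul_index C]
        exact mul_dvd_mul hd hi)
      have hzl : z ^ l = 1 := by
        rw [← orderOf_el hl (Bool.and_eq_true_iff.1 hc).1 hol]
        have : z.1 = el c (Bool.and_eq_true_iff.1 hc).1 := Subtype.ext hz
        rw [← this, Subgroup.orderOf_coe, pow_orderOf_eq_one]
      have hzC : z ∈ C := by
        have h1 : orderOf z ∣ l := orderOf_dvd_of_pow_eq_one hzl
        obtain ⟨m, hm⟩ := exists_pow_eq_self_of_coprime (x := z) (Nat.Coprime.coprime_dvd_right h1 hco.symm)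
        rw [← hm]
        exact pow_mem (Subgroup.pow_index_mem C z) m
      have e := congrArg (fun w : H => w.1.1) (Subgroup.mem_centralizer_iff.1 hzC q hqQ)
      have hqok := permOK_of_isAut (Bool.and_eq_true_iff.1 hcq).1
      have hcok := permOK_of_isAut (Bool.and_eq_true_iff.1 hc).1
      have := (sqB_iff hqok hcok hcok hqok).2 (by simpa [hz, hq] using e)
      rw [hne] at this
      exact Bool.false_ne_true this
    exact two_group C (key 3 r3 Nat.prime_three (by norm_num) hc3 ho3 hn3)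
      (key 5 r5 (by norm_num) (by norm_num) hc5 ho5 hn5)
  refine OneBlock.sameBlock_of_normal hM (Q ⊔ C) inferInstance
    (hQ2.to_sup_of_normal_right hC2) ?_ χ ψ
  exact (Subgroup.centralizer_le (fun a ha => Subgroup.mem_sup_left ha)).trans le_sup_right

theorem hloc {M : Ideal AlgInt} (hM : IsPModular 2 M) (t : M24) (ht : orderOf t = 2) :
    ∃ c : M24, ∀ χ ψ : IrrCharacter (Subgroup.centralizer ({c * t * c⁻¹} : Set M24)),
      SameBlock M (χ : Subgroup.centralizer ({c * t * c⁻¹} : Set M24) → ℂ)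
        (ψ : Subgroup.centralizer ({c * t * c⁻¹} : Set M24) → ℂ) := by
  have ho : orderOf t.1 = 2 := by rw [Subgroup.orderOf_coe, ht]
  obtain ⟨r, hr, h, hh, he⟩ := order_two_class t.2 ho
  refine ⟨⟨h, hh⟩⁻¹, fun χ ψ => ?_⟩
  have hc : ∀ (hr' : isAut r = true), (⟨h, hh⟩⁻¹ : M24) * t * (⟨h, hh⟩⁻¹ : M24)⁻¹ = el r hr' := by
    intro hr'
    apply Subtype.ext
    show h⁻¹ * t.1 * h⁻¹⁻¹ = permOf r
    rw [he]; group
  simp only [List.mem_cons, List.not_mem_nil, or_false] at hr
  rcases hr with rfl | rfl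
  · exact local_two_a hM fix2a_ok.1 (hc _) χ ψ
  · exact local_two_b hM codes2b_ok.1 (hc _) χ ψ

end Cfsg.Agent.PermGroups.M24OneBlock
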