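import Mathlib

/-!
Kernel-checkable certificates for small subgroups of `GL(2, p)` regular on non-zero vectors.
-/

namespace Cfsg.Agent.PermGroups

open Matrix

/-- A `2 × 2` matrix modulo `p`, as four natural numbers. -/
abbrev Quad := ℕ × ℕ × ℕ × ℕ

/-- Product of two quadruples modulo `p`. -/
def quadMul (p : ℕ) : Quad → Quad → Quad := fun (a, b, c, d) (e, f, g, h) =>
  ((a * e + b * g) % p, (a * f + b * h) % p, (c * e + d * g) % p, (c * f + d * h) % p)

/-- One breadth-first step. -/
def quadStep (p : ℕ) (gens L : List Quad) : List Quad :=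
  L ++ ((L.flatMap fun l => gens.map fun g => quadMul p g l).dedup.filter fun x => !L.contains x)

/-- Iterated breadth-first search from the identity. -/
def quadGen (p : ℕ) (gens : List Quad) : ℕ → List Quad
  | 0 => [(1, 0, 0, 1)]
  | n + 1 => quadStep p gens (quadGen p gens n)

/-- The check done by the kernel. -/
def quadCheck (p : ℕ) (gens L : List Quad) : Bool :=
  (gens.all fun g => L.all fun l => L.contains (quadMul p g l)) &&
  ((L.map fun l => (l.1, l.2.2.1)).Nodup) &&
  (L.length == p * p - 1) &&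
  ((List.range p).all fun i => (List.range p).all fun j =>
    (i == 0 && j == 0) || (L.map fun l => (l.1, l.2.2.1)).contains (i, j))

variable (p : ℕ)

/-- The matrix of a quadruple. -/
def quadMat : Quad → Matrix (Fin 2) (Fin 2) (ZMod p) := fun (a, b, c, d) =>
  !![(a : ZMod p), (b : ZMod p); (c : ZMod p), (d : ZMod p)]

theorem quadMat_mul (x y : Quad) : quadMat p (quadMul p x y) = quadMat p x * quadMat p y := by
  obtain ⟨a, b, c, d⟩ := x
  obtain ⟨e, f, g, h⟩ := y
  simp [quadMat, quadMul, ZMod.natCast_mod, Matrix.mul_fin_two]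

theorem quadMat_one : quadMat p (1, 0, 0, 1) = 1 := by
  simp [quadMat, Matrix.one_fin_two]

/-- A certified list of quadruples gives the order of, and regularity of, the generated group. -/
theorem closure_regular_of_quadCheck [hp : Fact p.Prime] (gens : List Quad) (n : ℕ)
    (S : Set (GL (Fin 2) (ZMod p)))
    (hS : ∀ s ∈ S, ∃ g ∈ gens, (s : Matrix (Fin 2) (Fin 2) (ZMod p)) = quadMat p g)
    (hgens : ∀ g ∈ gens, ∃ s ∈ S, (s : Matrix (Fin 2) (Fin 2) (ZMod p)) = quadMat p g)
    (hc : quadCheck p gens (quadGen p gens n) = true) :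
    Nat.card (Subgroup.closure S) = p * p - 1 ∧
      ∀ v w : Fin 2 → ZMod p, v ≠ 0 → w ≠ 0 → ∃! h : Subgroup.closure S,
        ((h : GL (Fin 2) (ZMod p)) : Matrix (Fin 2) (Fin 2) (ZMod p)).mulVec v = w := by
  classical
  set L := quadGen p gens n with hL
  simp only [quadCheck, Bool.and_eq_true, List.all_eq_true, List.contains_iff_mem,
    decide_eq_true_eq, beq_iff_eq, Bool.or_eq_true, List.mem_range] at hc
  obtain ⟨⟨⟨hclosed, hnodup⟩, hlen⟩, hcover⟩ := hc
  set H := Subgroup.closure S with hH
  have hword : ∀ m, ∀ l ∈ quadGen p gens m, ∃ h : H,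
      ((h : GL (Fin 2) (ZMod p)) : Matrix (Fin 2) (Fin 2) (ZMod p)) = quadMat p l := by
    intro m
    induction m with
    | zero =>
      intro l hl
      simp only [quadGen, List.mem_singleton] at hl
      subst hl
      exact ⟨1, (quadMat_one p).symm⟩
    | succ m ih =>
      intro l hl
      simp only [quadGen, quadStep, List.mem_append, List.mem_filter, List.mem_dedup,
        List.mem_flatMap, List.mem_map] at hl
      rcases hl with hl | ⟨⟨l', hl', g, hg, rfl⟩, -⟩
      · exact ih l hl
      · obtain ⟨h, hh⟩ := ih l' hl'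
        obtain ⟨s, hs, hsg⟩ := hgens g hg
        refine ⟨⟨s, Subgroup.subset_closure hs⟩ * h, ?_⟩
        rw [quadMat_mul]
        simp [Units.val_mul, hh, hsg]
  have hone : (1, 0, 0, 1) ∈ L := by
    rw [hL]
    clear hL hclosed hnodup hlen hcover hword
    induction n with
    | zero => simp [quadGen]
    | succ n ih => exact List.mem_append_left _ ih
  have hmem : ∀ h ∈ H, ∃ l ∈ L, ((h : GL (Fin 2) (ZMod p)) : Matrix (Fin 2) (Fin 2) (ZMod p)) =
      quadMat p l := by
    intro h hh
    rw [hH, ← Subgroup.mem_toSubmonoid, Subgroup.closure_toSubmonoid_of_finite] at hh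
    induction hh using Submonoid.closure_induction_left with
    | one => exact ⟨_, hone, (quadMat_one p).symm⟩
    | mul_left x hx y _ ih =>
      obtain ⟨g, hg, hxg⟩ := hS x hx
      obtain ⟨l, hl, hyl⟩ := ih
      exact ⟨_, hclosed g hg l hl, by rw [quadMat_mul, Units.val_mul, hxg, hyl]⟩
  let col : H → {v : Fin 2 → ZMod p // v ≠ 0} := fun h =>
    ⟨((h : GL (Fin 2) (ZMod p)) : Matrix (Fin 2) (Fin 2) (ZMod p)).mulVec ![1, 0], fun e => by
      have h1 := congrArg (((h : GL (Fin 2) (ZMod p))⁻¹ : GL (Fin 2) (ZMod p)) :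
        Matrix (Fin 2) (Fin 2) (ZMod p)).mulVec e
      rw [Matrix.mulVec_mulVec, ← Units.val_mul, inv_mul_cancel, Units.val_one, Matrix.one_mulVec,
        Matrix.mulVec_zero] at h1
      exact one_ne_zero (congrFun h1 0)⟩
  have hcolval : ∀ l : Quad, (quadMat p l).mulVec ![1, 0] = ![(l.1 : ZMod p), (l.2.2.1 : ZMod p)] := by
    rintro ⟨a, b, c, d⟩
    funext i
    fin_cases i <;> simp [quadMat, Matrix.mulVec, dotProduct, Fin.sum_univ_two]
  have hlcard : L.toFinset.card = p * p - 1 := by
    rw [List.toFinset_card_of_nodup (List.Nodup.of_map _ hnodup), hlen]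
  have hsurj : Function.Surjective col := by
    rintro ⟨v, hv⟩
    rcases hcover (v 0).val (ZMod.val_lt _) (v 1).val (ZMod.val_lt _) with h | h
    · exfalso
      apply hv
      funext i
      fin_cases i
      · exact (ZMod.val_eq_zero _).mp h.1
      · exact (ZMod.val_eq_zero _).mp h.2
    · obtain ⟨l, hl, e⟩ := List.mem_map.mp h
      obtain ⟨h', hh'⟩ := hword n l hl
      refine ⟨h', Subtype.ext ?_⟩
      simp only [col]
      rw [hh', hcolval]
      have e1 : l.1 = (v 0).val := congrArg Prod.fst e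
      have e2 : l.2.2.1 = (v 1).val := congrArg Prod.snd e
      rw [e1, e2, ZMod.natCast_zmod_val, ZMod.natCast_zmod_val]
      funext i; fin_cases i <;> rfl
  have hle : Nat.card H ≤ p * p - 1 := by
    rw [← hlcard]
    have : (Set.range fun h : H =>
        ((h : GL (Fin 2) (ZMod p)) : Matrix (Fin 2) (Fin 2) (ZMod p))) ⊆
        ↑(L.toFinset.image (quadMat p)) := by
      rintro _ ⟨h, rfl⟩
      obtain ⟨l, hl, e⟩ := hmem h h.2
      rw [Finset.coe_image]
      exact ⟨l, List.mem_toFinset.mpr hl, e.symm⟩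
    have h2 := Set.ncard_le_ncard this (Finset.finite_toSet _)
    rw [Set.ncard_range_of_injective (fun a b e => Subtype.ext (Units.ext e)),
      Set.ncard_coe_finset] at h2
    exact h2.trans Finset.card_image_le
  have hcard : Nat.card {v : Fin 2 → ZMod p // v ≠ 0} = p * p - 1 := by
    rw [Nat.card_eq_fintype_card, Fintype.card_subtype_compl (fun x : Fin 2 → ZMod p => x = 0),
      Fintype.card_subtype_eq,
      Fintype.card_fun, ZMod.card, Fintype.card_fin, pow_two]
  have hge := Nat.card_le_card_of_surjective col hsurj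
  have heq : Nat.card H = p * p - 1 := le_antisymm hle (hcard ▸ hge)
  refine ⟨heq, fun v w hv hw => ?_⟩
  have : Finite H := inferInstance
  have hbij : Function.Bijective col := by
    have hF := Fintype.ofFinite H
    rw [Fintype.bijective_iff_surjective_and_card]
    exact ⟨hsurj, by rw [← Nat.card_eq_fintype_card, ← Nat.card_eq_fintype_card, heq, hcard]⟩
  obtain ⟨a, ha⟩ := hbij.2 ⟨v, hv⟩
  obtain ⟨b, hb⟩ := hbij.2 ⟨w, hw⟩
  have ha' : ((a : GL (Fin 2) (ZMod p)) : Matrix (Fin 2) (Fin 2) (ZMod p)).mulVec ![1, 0] = v :=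
    congrArg Subtype.val ha
  have hb' : ((b : GL (Fin 2) (ZMod p)) : Matrix (Fin 2) (Fin 2) (ZMod p)).mulVec ![1, 0] = w :=
    congrArg Subtype.val hb
  refine ⟨b * a⁻¹, ?_, fun h hh => ?_⟩
  · change Matrix.mulVec _ v = w
    rw [← ha', Matrix.mulVec_mulVec, ← Units.val_mul, ← Subgroup.coe_mul, inv_mul_cancel_right, hb']
  · have : col (h * a) = col b := Subtype.ext (by
      simp only [col]
      rw [Subgroup.coe_mul, Units.val_mul, ← Matrix.mulVec_mulVec, ha', hh, hb'])
    exact eq_mul_inv_of_mul_eq (hbij.1 this)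

end Cfsg.Agent.PermGroups
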