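import Cfsg.Agent.PermGroups.LivingstoneWagner

/-!
Witt's lemma in the form of maximal fixed-point subgroups: if some element of prime power order of a
`k`-transitive group fixes more than `k` points, a subgroup of its fixed-point set carries a
`k`-transitive group.
-/

set_option autoImplicit false
set_option linter.unusedSectionVars false
set_option linter.style.haveILetI false

namespace Cfsg.Agent.PermGroups

open MulAction
open scoped Classical

variable {α : Type*} [Fintype α] [DecidableEq α]

/-- The common fixed points of a subgroup, as a finset. -/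
noncomputable def commonFix {G : Subgroup (Equiv.Perm α)} (Q : Subgroup G) : Finset α :=
  Finset.univ.filter fun x => ∀ q ∈ Q, q • x = x

theorem mem_commonFix {G : Subgroup (Equiv.Perm α)} {Q : Subgroup G} {x : α} :
    x ∈ commonFix Q ↔ ∀ q ∈ Q, q • x = x := by
  simp [commonFix]

theorem commonFix_anti {G : Subgroup (Equiv.Perm α)} {Q R : Subgroup G} (h : Q ≤ R) :
    commonFix R ⊆ commonFix Q := fun _ hx => mem_commonFix.2 fun q hq => mem_commonFix.1 hx q (h hq)

theorem le_fixingSubgroup_of_subset {G : Subgroup (Equiv.Perm α)} {Q : Subgroup G} {s : Finset α}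
    (h : s ⊆ commonFix Q) : Q ≤ fixingSubgroup G (s : Set α) :=
  fun q hq => mem_fix_iff.2 fun x hx => mem_commonFix.1 (h hx) q hq

theorem smul_mem_commonFix {G : Subgroup (Equiv.Perm α)} {Q : Subgroup G} {n : G}
    (hn : n ∈ Subgroup.normalizer (Q : Set G)) {x : α} (hx : x ∈ commonFix Q) :
    n • x ∈ commonFix Q := by
  refine mem_commonFix.2 fun q hq => ?_
  have h := mem_commonFix.1 hx _ ((Subgroup.mem_normalizer_iff''.1 hn q).1 hq)
  rw [mul_smul, mul_smul, inv_smul_eq_iff] at h
  exact h

set_option maxHeartbeats 1000000 in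
/-- The normaliser of a maximal subgroup with more than `k` fixed points is `k`-transitive on them. -/
theorem exists_restricted_transitive (G : Subgroup (Equiv.Perm α)) {k : ℕ} (hk1 : 1 ≤ k)
    (hk : IsMultiplyPretransitive G α k) (hkn : k ≤ Fintype.card α) {p : ℕ} [Fact p.Prime]
    {g : G} (hg1 : g ≠ 1) (hgp : ∃ i, g ^ p ^ i = 1)
    (hgfix : k < (fixFinset g : Finset α).card) :
    ∃ (Φ : Finset α) (M : Subgroup (Equiv.Perm Φ)),
      k < Φ.card ∧ Φ.card < Fintype.card α ∧ Fintype.card α ≡ Φ.card [MOD p] ∧
      IsMultiplyPretransitive M Φ k ∧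
      ∀ m ∈ M, ∃ g ∈ G, ∀ x : Φ, g (x : α) = ((m x : Φ) : α) := by
  -- a maximal subgroup
  let C : Finset (Subgroup G) :=
    Finset.univ.filter fun Q => IsPGroup p Q ∧ Q ≠ ⊥ ∧ k < (commonFix Q).card
  have hC : C.Nonempty := by
    refine ⟨Subgroup.zpowers g, Finset.mem_filter.2 ⟨Finset.mem_univ _, ?_, ?_, ?_⟩⟩
    · obtain ⟨i, hi⟩ := hgp
      obtain ⟨j, -, hj⟩ := (Nat.dvd_prime_pow (Fact.out : p.Prime)).1 (orderOf_dvd_of_pow_eq_one hi)
      exact IsPGroup.of_card (n := j) (by rw [Nat.card_zpowers, hj])
    · rwa [Ne, Subgroup.zpowers_eq_bot]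
    · refine lt_of_lt_of_le hgfix (Finset.card_le_card fun x hx => mem_commonFix.2 ?_)
      intro q hq
      obtain ⟨i, rfl⟩ := Subgroup.mem_zpowers_iff.1 hq
      have hmem : g ∈ stabilizer G x := mem_fixFinset.1 hx
      exact (zpow_mem hmem i : g ^ i ∈ stabilizer G x)
  obtain ⟨Q, hQC, hmax⟩ := C.exists_max_image (fun Q => Nat.card Q) hC
  obtain ⟨-, hQp, hQ1, hQk⟩ := Finset.mem_filter.1 hQC
  have hbig : ∀ R : Subgroup G, IsPGroup p R → Q ≤ R → k < (commonFix R).card → R = Q := by
    intro R hR hQR hRk
    have hR1 : R ≠ ⊥ := fun e => hQ1 (le_bot_iff.1 (e ▸ hQR))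
    exact (Subgroup.eq_of_le_of_card_ge hQR
      (hmax R (Finset.mem_filter.2 ⟨Finset.mem_univ _, hR, hR1, hRk⟩))).symm
  set Φ := commonFix Q with hΦ
  -- the fixers of `k` points have the same order
  have hsame : ∀ s t : Finset α, s.card = k → t.card = k →
      Nat.card (fixingSubgroup G (s : Set α)) = Nat.card (fixingSubgroup G (t : Set α)) := by
    intro s t hs ht
    have e := (natCard_eq_descFactorial_mul hk hkn k s hs le_rfl).symm.trans
      (natCard_eq_descFactorial_mul hk hkn k t ht le_rfl)
    exact Nat.eq_of_mul_eq_mul_left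
      (Nat.pos_of_ne_zero fun e0 => by rw [Nat.descFactorial_eq_zero_iff_lt] at e0; omega) e
  -- the transitivity of the fixers in the normaliser
  have key : ∀ T : Finset α, T ⊆ Φ → T.card + 1 = k → ∀ u v : α, u ∈ Φ → v ∈ Φ → u ∉ T → v ∉ T →
      ∃ n ∈ Subgroup.normalizer (Q : Set G), (∀ x ∈ T, n • x = x) ∧ n • u = v := by
    intro T hT hTc u v hu hv huT hvT
    have hins : ∀ x, x ∈ Φ → insert x T ⊆ Φ := fun x hx => Finset.insert_subset hx hT
    have hcard : ∀ x, x ∉ T → (insert x T).card = k := fun x hx => by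
      rw [Finset.card_insert_of_notMem hx, hTc]
    by_cases hsyl : Nat.card Q =
        p ^ (Nat.card (fixingSubgroup G ((insert u T : Finset α) : Set α))).factorization p
    · -- `Q` is a Sylow subgroup of both fixers
      have hkp : ∀ x, x ∈ Φ → x ∉ T → Nat.card (Q.subgroupOf (fixingSubgroup G ((insert x T : Finset α) : Set α))) =
          p ^ (Nat.card (fixingSubgroup G ((insert x T : Finset α) : Set α))).factorization p := by
        intro x hx hxT
        rw [Nat.card_congr (Subgroup.subgroupOfEquivOfLe (le_fixingSubgroup_of_subset (hins x hx))).toEquiv,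
          hsame _ _ (hcard x hxT) (hcard u huT)]
        exact hsyl
      obtain ⟨g, hgu, hgT⟩ : ∃ g : G, g • u = v ∧ ∀ x ∈ T, g • x = x := by
        have e := (insert u T).equivFinOfCardEq (hcard u huT)
        have hmap : ∀ z ∈ insert u T, z = u ∨ z ∈ T := fun z hz => Finset.mem_insert.1 hz
        let f : Fin k ↪ α := ⟨fun i => (e.symm i : α), fun i j h => e.symm.injective (Subtype.ext h)⟩
        let f' : Fin k ↪ α := ⟨fun i => if (e.symm i : α) = u then v else (e.symm i : α), fun i j h => by
          simp only at h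
          apply e.symm.injective
          apply Subtype.ext
          split_ifs at h with h1 h2 h2
          · rw [h1, h2]
          · rcases hmap _ (e.symm j).2 with h3 | h3
            · exact absurd h3 h2
            · exact absurd (h ▸ h3) hvT
          · rcases hmap _ (e.symm i).2 with h3 | h3
            · exact absurd h3 h1
            · exact absurd (h ▸ h3) hvT
          · exact h⟩
        obtain ⟨g, hg⟩ := hk.exists_smul_eq f f'
        refine ⟨g, ?_, fun x hx => ?_⟩
        · have h : g • ((e.symm (e ⟨u, Finset.mem_insert_self _ _⟩)) : α) =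
              if ((e.symm (e ⟨u, Finset.mem_insert_self _ _⟩)) : α) = u then v
              else ((e.symm (e ⟨u, Finset.mem_insert_self _ _⟩)) : α) :=
            congrArg (fun q : Fin k ↪ α => q (e ⟨u, Finset.mem_insert_self _ _⟩)) hg
          rw [Equiv.symm_apply_apply] at h
          rwa [if_pos rfl] at h
        · have h : g • ((e.symm (e ⟨x, Finset.mem_insert_of_mem hx⟩)) : α) =
              if ((e.symm (e ⟨x, Finset.mem_insert_of_mem hx⟩)) : α) = u then v
              else ((e.symm (e ⟨x, Finset.mem_insert_of_mem hx⟩)) : α) :=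
            congrArg (fun q : Fin k ↪ α => q (e ⟨x, Finset.mem_insert_of_mem hx⟩)) hg
          rw [Equiv.symm_apply_apply] at h
          rwa [if_neg (fun e' : x = u => huT (e' ▸ hx))] at h
      set F := fixingSubgroup G ((insert v T : Finset α) : Set α) with hF
      set Q' := Q.map (MulAut.conj g).toMonoidHom with hQ'
      have hQ'le : Q' ≤ F := by
        rintro _ ⟨q, hq, rfl⟩
        refine mem_fix_iff.2 fun x hx => ?_
        show (g * q * g⁻¹) • x = x
        rw [mul_smul, mul_smul]
        rcases Finset.mem_insert.1 hx with rfl | hx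
        · rw [show g⁻¹ • x = u from inv_smul_eq_iff.2 hgu.symm, mem_commonFix.1 hu q hq, hgu]
        · rw [show g⁻¹ • x = x from inv_smul_eq_iff.2 (hgT x hx).symm, mem_commonFix.1 (hT hx) q hq, hgT x hx]
      have hcQ' : Nat.card (Q'.subgroupOf F) = p ^ (Nat.card F).factorization p := by
        rw [Nat.card_congr (Subgroup.subgroupOfEquivOfLe hQ'le).toEquiv, hQ',
          ← Nat.card_congr (Q.equivMapOfInjective _ (MulAut.conj g).injective).toEquiv,
          hF, hsame _ _ (hcard v hvT) (hcard u huT)]
        exact hsyl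
      obtain ⟨h, hh⟩ := exists_smul_eq F (Sylow.ofCard (Q'.subgroupOf F) hcQ')
        (Sylow.ofCard (Q.subgroupOf F) (hkp v hv hvT))
      have hle : Q' ≤ Q.map (MulAut.conj (h : G)⁻¹).toMonoidHom := by
        intro y hy
        have hy' : (⟨y, hQ'le hy⟩ : F) ∈ (Sylow.ofCard (Q'.subgroupOf F) hcQ' : Subgroup F) := hy
        have h2 : MulAut.conj h • (⟨y, hQ'le hy⟩ : F) ∈ ((h • Sylow.ofCard (Q'.subgroupOf F) hcQ' : Sylow p F) : Subgroup F) := by
          rw [Sylow.coe_subgroup_smul]
          exact Subgroup.smul_mem_pointwise_smul _ _ _ hy'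
        rw [hh] at h2
        refine ⟨(h : G) * y * (h : G)⁻¹, h2, ?_⟩
        show (h : G)⁻¹ * ((h : G) * y * (h : G)⁻¹) * ((h : G)⁻¹)⁻¹ = y
        group
      refine ⟨(h : G) * g, ?_, fun x hx => ?_, ?_⟩
      · have hconj : Q.map (MulAut.conj ((h : G) * g)).toMonoidHom = Q := by
          refine Subgroup.eq_of_le_of_card_ge ?_ (le_of_eq
            (Nat.card_congr (Q.equivMapOfInjective _ (MulAut.conj ((h : G) * g)).injective).toEquiv))
          rintro _ ⟨q, hq, rfl⟩
          obtain ⟨q', hq', e⟩ := hle ⟨q, hq, rfl⟩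
          have e1 : (h : G)⁻¹ * q' * (h : G) = g * q * g⁻¹ := by
            have e2 : (h : G)⁻¹ * q' * ((h : G)⁻¹)⁻¹ = g * q * g⁻¹ := e
            rwa [inv_inv] at e2
          show (h : G) * g * q * ((h : G) * g)⁻¹ ∈ Q
          have e3 : (h : G) * g * q * ((h : G) * g)⁻¹ = (h : G) * (g * q * g⁻¹) * (h : G)⁻¹ := by group
          rw [e3, ← e1]
          simpa [mul_assoc] using hq'
        rw [Subgroup.mem_normalizer_iff]
        intro q
        refine ⟨fun hq => hconj ▸ ⟨q, hq, rfl⟩, fun hq => ?_⟩
        rw [← hconj] at hq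
        obtain ⟨q', hq', e⟩ := hq
        rwa [show q = q' from ((MulAut.conj ((h : G) * g)).injective e).symm]
      · rw [mul_smul, hgT x hx]
        exact mem_fix_iff.1 h.2 x (Finset.mem_insert_of_mem hx)
      · rw [mul_smul, hgu]
        exact mem_fix_iff.1 h.2 v (Finset.mem_insert_self _ _)
    · -- elements of the normaliser fixing exactly `k` of the points
      have hex : ∀ x, x ∈ Φ → x ∉ T → ∃ n ∈ Subgroup.normalizer (Q : Set G),
          (∃ i, n ^ p ^ i = 1) ∧ (∀ y ∈ insert x T, n • y = y) ∧
            ∀ y ∈ Φ, y ∉ insert x T → n • y ≠ y := by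
        intro x hx hxT
        set F := fixingSubgroup G ((insert x T : Finset α) : Set α) with hF
        obtain ⟨S, hS⟩ := (hQp.comap_of_injective F.subtype F.subtype_injective).exists_le_sylow
        set P := (S : Subgroup F).map F.subtype with hP
        have hQF : Q ≤ F := le_fixingSubgroup_of_subset (hins x hx)
        have hQP : Q ≤ P := fun q hq => ⟨⟨q, hQF hq⟩, hS hq, rfl⟩
        have hPp : IsPGroup p P := S.2.map _
        have hne : Q.subgroupOf P ≠ ⊤ := by
          intro e
          have hPQ : P = Q := le_antisymm (Subgroup.subgroupOf_eq_top.1 e) hQP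
          refine hsyl ?_
          rw [← hsame _ _ (hcard x hxT) (hcard u huT), ← hPQ, hP,
            ← Nat.card_congr ((S : Subgroup F).equivMapOfInjective _ F.subtype_injective).toEquiv,
            Sylow.card_eq_multiplicity]
        haveI := hPp.isNilpotent
        obtain ⟨n, hnN, hnQ⟩ := SetLike.exists_of_lt
          (Group.normalizerCondition_of_isNilpotent (Q.subgroupOf P) (lt_top_iff_ne_top.2 hne))
        have hnQ' : (n : G) ∉ Q := hnQ
        have hnN' : (n : G) ∈ Subgroup.normalizer (Q : Set G) := by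
          rw [Subgroup.mem_normalizer_iff]
          intro q
          have hn' := Subgroup.mem_normalizer_iff.1 hnN
          refine ⟨fun hq => (hn' ⟨q, hQP hq⟩).1 hq, fun hq => ?_⟩
          have hqP : q ∈ P := by
            have := P.mul_mem (P.mul_mem (P.inv_mem n.2) (hQP hq)) n.2
            simpa [mul_assoc] using this
          exact (hn' ⟨q, hqP⟩).2 hq
        have hPF : P ≤ F := Subgroup.map_subtype_le _
        obtain ⟨i, hi⟩ := hPp n
        refine ⟨n, hnN', ⟨i, congrArg Subtype.val hi⟩, fun y hy => mem_fix_iff.1 (hPF n.2) y hy, fun y hy hyT e => ?_⟩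
        refine hnQ' ?_
        have hR : Q ⊔ Subgroup.zpowers (n : G) ≤ P := sup_le hQP (Subgroup.zpowers_le.2 n.2)
        have h1 := hbig _ (hPp.to_le hR) le_sup_left ?_
        · exact h1 ▸ (le_sup_right : _ ≤ Q ⊔ Subgroup.zpowers (n : G)) (Subgroup.mem_zpowers _)
        · refine lt_of_lt_of_le ?_ (Finset.card_le_card (s := insert y (insert x T)) fun z hz => ?_)
          · rw [Finset.card_insert_of_notMem hyT, hcard x hxT]; omega
          · refine mem_commonFix.2 fun q hq => ?_
            have hle : Q ⊔ Subgroup.zpowers (n : G) ≤ stabilizer G z := by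
              refine sup_le (fun q hq => ?_) (Subgroup.zpowers_le.2 ?_)
              · refine mem_commonFix.1 ?_ q hq
                rcases Finset.mem_insert.1 hz with rfl | hz
                · exact hy
                · exact hins x hx hz
              · rcases Finset.mem_insert.1 hz with rfl | hz
                · exact e
                · exact mem_fix_iff.1 (hPF n.2) z hz
            exact hle hq
      by_contra hno
      push Not at hno
      let H := Subgroup.normalizer (Q : Set G) ⊓ fixingSubgroup G (T : Set α)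
      set O : Finset α := Finset.univ.filter fun y => ∃ n ∈ H, n • u = y with hO
      have hOΦ : ∀ y ∈ O, y ∈ Φ ∧ y ∉ T := by
        intro y hy
        obtain ⟨n, hn, rfl⟩ := (Finset.mem_filter.1 hy).2
        refine ⟨smul_mem_commonFix hn.1 hu, fun hT' => huT ?_⟩
        rwa [smul_left_cancel n (mem_fix_iff.1 hn.2 _ hT')] at hT'
      have hmod : ∀ x, x ∈ Φ → x ∉ T → O.card ≡ (if x ∈ O then 1 else 0) [MOD p] := by
        intro x hx hxT
        obtain ⟨n, hnN, ⟨i, hi⟩, hfix, hmove⟩ := hex x hx hxT
        have hnH : n ∈ H := ⟨hnN, mem_fix_iff.2 fun y hy => hfix y (Finset.mem_insert_of_mem hy)⟩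
        let Z := Subgroup.zpowers n
        haveI : IsPGroup p Z := by
          obtain ⟨j, -, hj⟩ := (Nat.dvd_prime_pow (Fact.out : p.Prime)).1 (orderOf_dvd_of_pow_eq_one hi)
          exact IsPGroup.of_card (n := j) (by rw [Nat.card_zpowers, hj])
        have hinv : ∀ (z : Z) (y : α), y ∈ O → (z : G) • y ∈ O := by
          intro z y hy
          obtain ⟨m, hm, rfl⟩ := (Finset.mem_filter.1 hy).2
          exact Finset.mem_filter.2 ⟨Finset.mem_univ _, (z : G) * m,
            mul_mem (Subgroup.zpowers_le.2 hnH z.2) hm, mul_smul _ _ _⟩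
        let S : SubMulAction Z α := ⟨(O : Set α), fun z y hy => hinv z y hy⟩
        have h := (‹IsPGroup p Z›).card_modEq_card_fixedPoints (α := S)
        have hS : Nat.card S = O.card := by
          show Nat.card (O : Set α) = _
          rw [Nat.card_coe_set_eq, Set.ncard_coe_finset]
        have hfixed : Nat.card (fixedPoints Z S) = if x ∈ O then 1 else 0 := by
          have hiff : ∀ y : S, y ∈ fixedPoints Z S ↔ (y : α) = x := by
            intro y
            refine ⟨fun hy => ?_, fun e z => Subtype.ext ?_⟩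
            · by_contra hne
              refine hmove y (hOΦ y y.2).1 ?_ (congrArg Subtype.val (hy ⟨n, Subgroup.mem_zpowers n⟩))
              simp only [Finset.mem_insert, not_or]
              exact ⟨hne, (hOΦ y y.2).2⟩
            · show (z : G) • (y : α) = y
              rw [e]
              have hmem : n ∈ stabilizer G x := hfix x (Finset.mem_insert_self _ _)
              exact Subgroup.zpowers_le.2 hmem z.2
          split_ifs with hxO
          · rw [Nat.card_eq_one_iff_exists]
            exact ⟨⟨⟨x, hxO⟩, (hiff _).2 rfl⟩, fun y => Subtype.ext (Subtype.ext ((hiff _).1 y.2))⟩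
          · haveI : IsEmpty (fixedPoints Z S) := ⟨fun y => hxO ((hiff _).1 y.2 ▸ y.1.2)⟩
            exact Nat.card_of_isEmpty
        rwa [hS, hfixed] at h
      have huO : u ∈ O := Finset.mem_filter.2 ⟨Finset.mem_univ _, 1, one_mem _, one_smul _ _⟩
      have hvO : v ∉ O := by
        intro h
        obtain ⟨n, hn, e⟩ := (Finset.mem_filter.1 h).2
        exact hno n hn.1 (fun x hx => mem_fix_iff.1 hn.2 x hx) e
      have h1 := hmod u hu huT
      have h0 := hmod v hv hvT
      rw [if_pos huO] at h1
      rw [if_neg hvO] at h0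
      have h := h1.symm.trans h0
      unfold Nat.ModEq at h
      rw [Nat.zero_mod, Nat.mod_eq_of_lt (Fact.out : p.Prime).one_lt] at h
      exact one_ne_zero h
  -- the restriction
  let N := Subgroup.normalizer (Q : Set G)
  let res : N →* Equiv.Perm Φ :=
    { toFun := fun n =>
        { toFun := fun x => ⟨(n : G) • (x : α), smul_mem_commonFix n.2 x.2⟩
          invFun := fun x => ⟨(n : G)⁻¹ • (x : α), smul_mem_commonFix (N.inv_mem n.2) x.2⟩
          left_inv := fun x => Subtype.ext (inv_smul_smul _ _)
          right_inv := fun x => Subtype.ext (smul_inv_smul _ _) }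
      map_one' := Equiv.ext fun x => Subtype.ext (one_smul G (x : α))
      map_mul' := fun m n => Equiv.ext fun x => Subtype.ext (mul_smul (m : G) (n : G) (x : α)) }
  refine ⟨Φ, res.range, hQk, ?_, ?_, ?_, ?_⟩
  · refine lt_of_le_of_ne (Finset.card_le_univ _) fun e => hQ1 ?_
    rw [← Finset.card_univ] at e
    have huniv : Φ = Finset.univ := Finset.eq_of_subset_of_card_le (Finset.subset_univ _) (le_of_eq e.symm)
    refine (Subgroup.eq_bot_iff_forall Q).2 fun q hq => Subtype.ext (Equiv.ext fun x => ?_)
    exact mem_commonFix.1 (show x ∈ Φ by rw [huniv]; exact Finset.mem_univ x) q hq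
  · have h := hQp.card_modEq_card_fixedPoints (α := α)
    rwa [Nat.card_eq_fintype_card (α := α), show Nat.card (fixedPoints Q α) = Φ.card from by
      rw [Nat.card_coe_set_eq, ← Set.ncard_coe_finset]
      congr 1
      ext x
      simp [hΦ, mem_commonFix, mem_fixedPoints, Subgroup.smul_def]] at h
  · refine isMultiplyPretransitive_of_fixator (by rw [Fintype.card_coe]; exact hQk) fun s hs a b ha hb => ?_
    obtain ⟨n, hn, hnT, hnu⟩ := key (s.map (Function.Embedding.subtype _))
      (fun x hx => by obtain ⟨y, -, rfl⟩ := Finset.mem_map.1 hx; exact y.2)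
      (by rw [Finset.card_map]; exact hs) a b a.2 b.2
      (fun h => by obtain ⟨y, hy, e⟩ := Finset.mem_map.1 h; exact ha (Subtype.ext e ▸ hy))
      (fun h => by obtain ⟨y, hy, e⟩ := Finset.mem_map.1 h; exact hb (Subtype.ext e ▸ hy))
    refine ⟨⟨res ⟨n, hn⟩, ⟨n, hn⟩, rfl⟩, fun x hx => Subtype.ext ?_, Subtype.ext hnu⟩
    exact hnT x (Finset.mem_map.2 ⟨x, hx, rfl⟩)
  · rintro m ⟨n, rfl⟩
    exact ⟨((n : G) : Equiv.Perm α), (n : G).2, fun x => rfl⟩

end Cfsg.Agent.PermGroups
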