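import Cfsg.Agent.PermGroups.SharplyFourTits

/-!
The degrees of sharply `k`-transitive groups for `k ≥ 4`.
-/

set_option autoImplicit false

namespace Cfsg.Agent.PermGroups.SharplyDegrees

open MulAction Equiv

variable {G Ω : Type*} [Group G] [MulAction G Ω]

/-- Sharply `k`-transitive: the transitivity and the trivial stabilizers. -/
structure Sharp (G Ω : Type*) [Group G] [MulAction G Ω] (k : ℕ) : Prop where
  trans : IsMultiplyPretransitive G Ω k
  free : ∀ x : Fin k ↪ Ω, stabilizer G x = ⊥
  le : k ≤ Nat.card Ω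

variable [Finite Ω]

theorem Sharp.nonempty {k : ℕ} (h : Sharp G Ω k) : Nonempty (Fin k ↪ Ω) := by
  haveI := Fintype.ofFinite Ω
  exact Function.Embedding.nonempty_of_card_le (by simpa [Nat.card_eq_fintype_card] using h.le)

theorem Sharp.eq_one_of_fixed {k : ℕ} (h : Sharp G Ω k) {g : G} (s : Set Ω) (hs : k ≤ s.ncard)
    (hfix : ∀ x ∈ s, g • x = x) : g = 1 := by
  haveI := Fintype.ofFinite Ω
  haveI := Fintype.ofFinite s
  obtain ⟨f⟩ : Nonempty (Fin k ↪ s) := Function.Embedding.nonempty_of_card_le (by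
    rw [Fintype.card_fin, ← Nat.card_eq_fintype_card, Nat.card_coe_set_eq]; exact hs)
  have hg : g ∈ stabilizer G (f.trans (Function.Embedding.subtype _)) := by
    rw [mem_stabilizer_iff]
    ext i
    exact hfix _ (f i).2
  rw [h.free, Subgroup.mem_bot] at hg
  exact hg

theorem Sharp.card_group {k : ℕ} (h : Sharp G Ω k) : Nat.card G = (Nat.card Ω).descFactorial k := by
  haveI := h.trans
  obtain ⟨x⟩ := h.nonempty
  haveI := Fintype.ofFinite Ω
  have := index_stabilizer_of_transitive G x
  rw [h.free, Subgroup.index_bot] at this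
  rw [this, Nat.card_eq_fintype_card, Fintype.card_embedding_eq, Fintype.card_fin, Nat.card_eq_fintype_card]

theorem Sharp.finite {k : ℕ} (h : Sharp G Ω k) : Finite G := by
  haveI := h.trans
  obtain ⟨x⟩ := h.nonempty
  exact Nat.finite_of_card_ne_zero (by
    rw [h.card_group]; exact (Nat.descFactorial_pos.2 h.le).ne')

/-- The point stabilizer is sharply one less transitive. -/
theorem Sharp.stabilizer {k : ℕ} (h : Sharp G Ω (k + 1)) (a : Ω) :
    Sharp (stabilizer G a) (SubMulAction.ofStabilizer G a) k ∧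
      Nat.card (SubMulAction.ofStabilizer G a) + 1 = Nat.card Ω := by
  haveI : IsPretransitive G Ω := by
    haveI := h.trans
    exact is_one_pretransitive_iff.1 (isMultiplyPretransitive_of_le (n := k + 1) (by omega) (by
      simpa [ENat.card_eq_coe_natCard] using h.le))
  have hcard : Nat.card (SubMulAction.ofStabilizer G a) + 1 = Nat.card Ω := by
    haveI := Fintype.ofFinite Ω
    classical
    have e : Nat.card (SubMulAction.ofStabilizer G a) = ({a}ᶜ : Set Ω).ncard := by
      rw [← Nat.card_coe_set_eq]; rfl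
    rw [e, Set.ncard_compl, Set.ncard_singleton]
    have : 0 < Nat.card Ω := Nat.card_pos_iff.2 ⟨⟨a⟩, inferInstance⟩
    omega
  refine ⟨⟨SubMulAction.ofStabilizer.isMultiplyPretransitive.1 h.trans, fun x => ?_, ?_⟩, hcard⟩
  · rw [eq_bot_iff]
    intro g hg
    rw [Subgroup.mem_bot]
    refine Subtype.ext (h.eq_one_of_fixed (Set.range (fun i => (x i : Ω)) ∪ {a}) ?_ ?_)
    · rw [Set.ncard_union_eq (by
        rw [Set.disjoint_singleton_right]
        rintro ⟨i, hi⟩
        exact (x i).2 hi) (Set.toFinite _) (Set.toFinite _),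
        Set.ncard_range_of_injective (fun i j hij => x.injective (Subtype.ext hij)), Nat.card_fin, Set.ncard_singleton]
    · rintro y (⟨i, rfl⟩ | rfl)
      · exact congrArg Subtype.val (congrArg (fun f : Fin k ↪ _ => f i) (mem_stabilizer_iff.1 hg))
      · exact g.2
  · have := h.le
    omega

/-- A prime-cycle count: the degree is impossible. -/
theorem Sharp.false_of_prime {k p m : ℕ} (h : Sharp G Ω k) [hp : Fact p.Prime] (hkp : k ≤ p)
    (hpn : p ≤ Nat.card Ω) (hn2 : Nat.card Ω < 2 * p) (hm : Nat.card G = p * m) (hpm : ¬ p ∣ m)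
    (hno : ∀ d ∈ (p - 1).divisors, d ∣ m → (m / d) % p ≠ 1) : False := by
  classical
  haveI := h.finite
  haveI := Fintype.ofFinite Ω
  obtain ⟨g, hg⟩ := exists_prime_orderOf_dvd_card' p (hm ▸ dvd_mul_right p m)
  set σ : Perm Ω := MulAction.toPermHom G Ω g with hσ
  have hinj : Function.Injective (MulAction.toPermHom G Ω) := by
    rw [injective_iff_map_eq_one]
    intro u hu
    refine h.eq_one_of_fixed Set.univ (by rw [Set.ncard_univ]; exact h.le) fun y _ => ?_
    exact congrArg (fun π : Perm Ω => π y) hu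
  have ho : orderOf σ = p := by rw [orderOf_injective _ hinj, hg]
  have hcyc : σ.IsCycle := by
    refine Perm.isCycle_of_prime_order (by rw [ho]; exact hp.out) ?_
    rw [ho]
    exact lt_of_le_of_lt (Finset.card_le_univ _) (by rw [← Nat.card_eq_fintype_card]; exact hn2)
  have hsupp : σ.support.card = p := by rw [← hcyc.orderOf, ho]
  -- the centralizer
  set P : Subgroup G := Subgroup.zpowers g
  have hP : Nat.card P = p := by rw [Nat.card_zpowers, hg]
  have hC : Subgroup.centralizer (P : Set G) ≤ P := by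
    intro u hu
    have hcg : g * u = u * g := Subgroup.mem_centralizer_iff.1 hu g (Subgroup.mem_zpowers g)
    obtain ⟨a, ha⟩ : ∃ a, a ∈ σ.support := Finset.card_pos.1 (by rw [hsupp]; exact hp.out.pos)
    have ha' : σ a ≠ a := Perm.mem_support.1 ha
    have hua : σ (u • a) ≠ u • a := by
      intro e
      apply ha'
      have e1 : g • (u • a) = u • a := e
      rw [← mul_smul, hcg, mul_smul] at e1
      exact MulAction.injective u e1
    obtain ⟨i, hi⟩ := hcyc.exists_zpow_eq ha' hua
    rw [hσ, ← map_zpow] at hi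
    have hi' : g ^ i • a = u • a := hi
    set v := (g ^ i)⁻¹ * u with hv
    have hva : v • a = a := by rw [hv, mul_smul, ← hi', inv_smul_smul]
    have hvg : Commute g v := ((Commute.refl g).zpow_right i).inv_right.mul_right hcg
    have hv1 : v = 1 := by
      refine h.eq_one_of_fixed (σ.support : Set Ω) (by rw [Set.ncard_coe_finset, hsupp]; exact hkp) fun y hy => ?_
      obtain ⟨j, hj⟩ := hcyc.exists_zpow_eq ha' (Perm.mem_support.1 hy)
      rw [hσ, ← map_zpow] at hj
      have hj' : g ^ j • a = y := hj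
      rw [← hj', ← mul_smul, ← (hvg.zpow_left j).eq, mul_smul, hva]
    rw [hv, inv_mul_eq_one] at hv1
    exact ⟨i, hv1⟩
  -- the Sylow subgroup
  have hf : (Nat.card G).factorization p = 1 := by
    rw [hm, Nat.factorization_mul hp.out.ne_zero (fun e => hpm (by rw [e]; exact dvd_zero p))]
    simp [hp.out.factorization_self, Nat.factorization_eq_zero_of_not_dvd hpm]
  let S : Sylow p G := Sylow.ofCard P (by rw [hf, pow_one, hP])
  set N := Subgroup.normalizer (P : Set G)
  have hPN : P ≤ N := Subgroup.le_normalizer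
  have hdvd : Nat.card N ∣ p * (p - 1) := by
    have hk : Nat.card P.normalizerMonoidHom.ker = Nat.card P := by
      rw [Subgroup.normalizerMonoidHom_ker,
        Nat.card_congr (Subgroup.subgroupOfEquivOfLe (Subgroup.centralizer_le_normalizer _)).toEquiv]
      refine le_antisymm (Subgroup.card_le_of_le hC) (Subgroup.card_le_of_le fun u hu => ?_)
      rw [Subgroup.mem_centralizer_iff]
      rintro _ ⟨e, rfl⟩
      obtain ⟨e', rfl⟩ := hu
      exact ((Commute.refl g).zpow_zpow e e').eq
    haveI : IsCyclic P := inferInstance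
    have haut : Nat.card (MulAut P) = p - 1 := by
      rw [IsCyclic.card_mulAut, hP, Nat.totient_prime hp.out]
    rw [← P.normalizerMonoidHom.ker.card_mul_index, hk, hP, Subgroup.index_ker]
    exact Nat.mul_dvd_mul_left p (haut ▸ Subgroup.card_subgroup_dvd_card _)
  obtain ⟨d, hd⟩ : p ∣ Nat.card N := hP ▸ Subgroup.card_dvd_of_le hPN
  rw [hd] at hdvd
  have hdd : d ∣ p - 1 := Nat.dvd_of_mul_dvd_mul_left hp.out.pos hdvd
  have hn : Nat.card (Sylow p G) = m / d ∧ d ∣ m := by
    have h1 : Nat.card (Sylow p G) = N.index := S.card_eq_index_normalizer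
    have h2 := N.card_mul_index
    rw [hd, hm, mul_assoc] at h2
    have h3 := Nat.eq_of_mul_eq_mul_left hp.out.pos h2
    refine ⟨?_, ⟨_, h3.symm⟩⟩
    rw [h1, ← h3, Nat.mul_div_cancel_left]
    exact Nat.pos_of_ne_zero fun e => (Nat.sub_pos_of_lt hp.out.one_lt).ne' (Nat.eq_zero_of_zero_dvd (e ▸ hdd))
  refine hno d (Nat.mem_divisors.2 ⟨hdd, (Nat.sub_pos_of_lt hp.out.one_lt).ne'⟩) hn.2 ?_
  rw [← hn.1]
  have := card_sylow_modEq_one p G
  rw [Nat.ModEq, Nat.one_mod_eq_one.2 hp.out.ne_one] at this
  exact this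

theorem Sharp.degree_four (h : Sharp G Ω 4) :
    Nat.card Ω = 4 ∨ Nat.card Ω = 5 ∨ Nat.card Ω = 6 ∨ Nat.card Ω = 11 := by
  obtain ⟨-, h11, heven⟩ := sharply_four_degree_le h.trans h.free h.nonempty
  have h7 : Nat.card Ω ≠ 7 := by
    intro e
    haveI : Fact (Nat.Prime 5) := ⟨by norm_num⟩
    have hc := h.card_group
    rw [e] at hc
    exact h.false_of_prime (p := 5) (m := 168) (by norm_num) (by omega) (by omega) (by rw [hc]; rfl) (by norm_num)
      (by decide)
  have h9 : Nat.card Ω ≠ 9 := by
    intro e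
    haveI : Fact (Nat.Prime 7) := ⟨by norm_num⟩
    have hc := h.card_group
    rw [e] at hc
    exact h.false_of_prime (p := 7) (m := 432) (by norm_num) (by omega) (by omega) (by rw [hc]; rfl) (by norm_num)
      (by decide)
  have h4 := h.le
  rcases Nat.even_or_odd (Nat.card Ω) with he | he
  · have := heven he
    obtain ⟨r, hr⟩ := he
    omega
  · obtain ⟨r, hr⟩ := he
    omega

theorem Sharp.degree_five (h : Sharp G Ω 5) :
    Nat.card Ω = 5 ∨ Nat.card Ω = 6 ∨ Nat.card Ω = 7 ∨ Nat.card Ω = 12 := by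
  obtain ⟨a⟩ : Nonempty Ω := by
    have := h.le
    exact (Nat.card_pos_iff.1 (by omega)).1
  obtain ⟨hs, hc⟩ := h.stabilizer a
  rcases hs.degree_four with e | e | e | e <;> omega

theorem degree_ge_six (j : ℕ) : ∀ {H : Type _} {Δ : Type _} [Group H] [MulAction H Δ] [Finite Δ],
    Sharp H Δ (6 + j) → Nat.card Δ = 6 + j ∨ Nat.card Δ = 6 + j + 1 ∨ Nat.card Δ = 6 + j + 2 := by
  induction j with
  | zero =>
    intro H Δ _ _ _ h
    obtain ⟨a⟩ : Nonempty Δ := by
      have := h.le
      exact (Nat.card_pos_iff.1 (by omega)).1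
    obtain ⟨hs, hc⟩ := Sharp.stabilizer (k := 5) h a
    rcases hs.degree_five with e | e | e | e
    · omega
    · omega
    · omega
    · exfalso
      haveI : Fact (Nat.Prime 13) := ⟨by norm_num⟩
      have e13 : Nat.card Δ = 13 := by omega
      have hcg := h.card_group
      rw [e13] at hcg
      exact h.false_of_prime (p := 13) (m := 95040) (by norm_num) (by omega) (by omega) (by rw [hcg]; rfl) (by norm_num)
        (by decide)
  | succ j ih =>
    intro H Δ _ _ _ h
    obtain ⟨a⟩ : Nonempty Δ := by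
      have := h.le
      exact (Nat.card_pos_iff.1 (by omega)).1
    obtain ⟨hs, hc⟩ := Sharp.stabilizer (k := 6 + j) h a
    rcases ih hs with e | e | e <;> omega

end Cfsg.Agent.PermGroups.SharplyDegrees
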