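import Mathlib
import Cfsg.Agent.PermGroups.JordanCycle
import Cfsg.Agent.S4219
import Cfsg.Agent.S0415

/-!
Miller's theorem: for `n = kp + r` with `r > k` an `(r + 1)`-transitive group of degree `n` contains
the alternating group.
-/

set_option autoImplicit false
set_option linter.unusedSectionVars false
set_option linter.style.haveILetI false

namespace Cfsg.Agent.PermGroups.Miller

open Equiv MulAction
open scoped commutatorElement

section Small

theorem perm_center_eq_bot {r : ℕ} (hr : 3 ≤ r) : Subgroup.center (Perm (Fin r)) = ⊥ := by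
  rw [Subgroup.eq_bot_iff_forall]
  intro σ hσ
  by_contra hne
  obtain ⟨a, ha⟩ : ∃ a, σ a ≠ a := by
    by_contra h
    exact hne (Equiv.ext fun a => not_not.1 fun ha => h ⟨a, ha⟩)
  obtain ⟨c, hc⟩ : ∃ c : Fin r, c ∉ ({a, σ a} : Finset (Fin r)) := by
    by_contra h
    have h1 : (Finset.univ : Finset (Fin r)) ⊆ {a, σ a} := fun c _ => not_not.1 fun hc => h ⟨c, hc⟩
    have := Finset.card_le_card h1
    rw [Finset.card_univ, Fintype.card_fin, Finset.card_pair ha.symm] at this
    omega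
  simp only [Finset.mem_insert, Finset.mem_singleton, not_or] at hc
  have h1 := congrArg (fun τ : Perm (Fin r) => τ a) (Subgroup.mem_center_iff.1 hσ (swap (σ a) c))
  simp only [Perm.mul_apply, swap_apply_left, swap_apply_of_ne_of_ne ha.symm (Ne.symm hc.1)] at h1
  exact hc.2 h1

theorem commutator_mem {r : ℕ} {N : Subgroup (Perm (Fin r))} (hN : N ≠ ⊥) (hr : 3 ≤ r) :
    ∃ g : Perm (Fin r), ∃ σ ∈ N, ⁅g, σ⁆ ≠ 1 := by
  obtain ⟨σ, hσ, hσ1⟩ := (Subgroup.bot_or_exists_ne_one N).resolve_left hN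
  by_contra h
  push Not at h
  refine hσ1 ?_
  rw [← Subgroup.mem_bot, ← perm_center_eq_bot hr, Subgroup.mem_center_iff]
  exact fun g => commutatorElement_eq_one_iff_mul_comm.1 (h g σ hσ)

theorem alternating_le_of_normal {r : ℕ} (hr : 5 ≤ r) (N : Subgroup (Perm (Fin r))) [N.Normal]
    (hN : N ≠ ⊥) : alternatingGroup (Fin r) ≤ N := by
  haveI := alternatingGroup.isSimpleGroup (α := Fin r) (by simpa using hr)
  haveI : (N.subgroupOf (alternatingGroup (Fin r))).Normal := Subgroup.Normal.subgroupOf ‹_› _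
  rcases IsSimpleGroup.eq_bot_or_eq_top_of_normal (N.subgroupOf (alternatingGroup (Fin r))) inferInstance with h | h
  · exfalso
    obtain ⟨g, σ, hσ, hne⟩ := commutator_mem hN (by omega)
    have h1 : ⁅g, σ⁆ ∈ N := by
      rw [commutatorElement_def]
      exact N.mul_mem (Subgroup.Normal.conj_mem ‹_› σ hσ g) (N.inv_mem hσ)
    have h2 : ⁅g, σ⁆ ∈ alternatingGroup (Fin r) := by
      rw [Perm.mem_alternatingGroup, commutatorElement_def, map_mul, map_mul, map_mul, map_inv, map_inv,
        mul_inv_cancel_comm, mul_inv_cancel]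
    have h3 : (⟨_, h2⟩ : alternatingGroup (Fin r)) ∈ N.subgroupOf (alternatingGroup (Fin r)) := h1
    rw [h, Subgroup.mem_bot] at h3
    exact hne (congrArg Subtype.val h3)
  · exact Subgroup.subgroupOf_eq_top.1 h

theorem four_conj : ∀ τ : Perm (Fin 4), τ ≠ 1 →
    (∃ a : Perm (Fin 4), a * τ * a⁻¹ = swap 0 1 * swap 2 3) ∨
      ∃ a b : Perm (Fin 4), a * τ * a⁻¹ * (b * τ * b⁻¹) = swap 0 1 * swap 2 3 := by
  decide +kernel

theorem three_fixfree : ∀ σ : Perm (Fin 3), Perm.sign σ = 1 → σ ≠ 1 →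
    σ ^ 3 = 1 ∧ ∀ i, σ i ≠ i := by
  decide +kernel

end Small

section Jordan

variable {α : Type*} [Fintype α] [DecidableEq α]

/-- A four-transitive group with a double transposition contains the alternating group. -/
theorem alternating_of_double (G : Subgroup (Perm α)) (hG : IsPreprimitive G α)
    (h4 : IsMultiplyPretransitive G α 4) (hn : 5 ≤ Fintype.card α) {a b c d : α}
    (hne : [a, b, c, d].Nodup) (hmem : swap a b * swap c d ∈ G) : alternatingGroup α ≤ G := by
  simp only [List.nodup_cons, List.mem_cons, List.not_mem_nil, or_false, not_or, List.nodup_nil,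
    and_true, not_false_iff] at hne
  obtain ⟨⟨hab, hac, had⟩, ⟨hbc, hbd⟩, hcd⟩ := hne
  obtain ⟨e, he⟩ : ∃ e, e ∉ ({a, b, c, d} : Finset α) := by
    by_contra h
    have h1 : (Finset.univ : Finset α) ⊆ {a, b, c, d} := fun e _ => not_not.1 fun he => h ⟨e, he⟩
    have := (Finset.card_le_card h1).trans Finset.card_le_four
    rw [Finset.card_univ] at this
    omega
  simp only [Finset.mem_insert, Finset.mem_singleton, not_or] at he
  obtain ⟨hea, heb, hec, hed⟩ := he
  have hinj : ∀ d', d' ≠ a → d' ≠ b → d' ≠ c → Function.Injective ![a, b, c, d'] := by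
    intro d' h1 h2 h3 i j hij
    fin_cases i <;> fin_cases j <;>
      simp_all [Matrix.cons_val_zero, Matrix.cons_val_one, eq_comm]
  haveI := h4
  obtain ⟨g, hg⟩ := exists_smul_eq G (⟨_, hinj d (Ne.symm had) (Ne.symm hbd) (Ne.symm hcd)⟩ : Fin 4 ↪ α)
    (⟨_, hinj e hea heb hec⟩ : Fin 4 ↪ α)
  have e0 : (g : Perm α) a = a := DFunLike.congr_fun hg 0
  have e1 : (g : Perm α) b = b := DFunLike.congr_fun hg 1
  have e2 : (g : Perm α) c = c := DFunLike.congr_fun hg 2
  have e3 : (g : Perm α) d = e := DFunLike.congr_fun hg 3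
  have h2 : swap a b * swap c e ∈ G := by
    have h := G.mul_mem (G.mul_mem g.2 hmem) (G.inv_mem g.2)
    rwa [show (g : Perm α) * (swap a b * swap c d) * (g : Perm α)⁻¹ =
        ((g : Perm α) * swap a b * (g : Perm α)⁻¹) * ((g : Perm α) * swap c d * (g : Perm α)⁻¹) by group,
      ← Equiv.swap_apply_apply, ← Equiv.swap_apply_apply, e0, e1, e2, e3] at h
  have hcomm : Commute (swap c d) (swap a b) :=
    (Perm.disjoint_iff_disjoint_support.2 (by
      rw [Perm.support_swap hcd, Perm.support_swap hab]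
      simp [hac, hbc, had, hbd])).commute
  have h3 : swap c d * swap c e ∈ G := by
    have h := G.mul_mem hmem h2
    rwa [show swap a b * swap c d * (swap a b * swap c e) = swap a b * (swap c d * swap a b) * swap c e by group,
      hcomm.eq, ← mul_assoc, swap_mul_self, one_mul] at h
  exact Perm.alternatingGroup_le_of_isPreprimitive_of_isThreeCycle_mem hG
    (Perm.isThreeCycle_swap_mul_swap_same hcd (Ne.symm hec) (Ne.symm hed)) h3

/-- A four-transitive group with an element of prime order moving at most five points. -/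
theorem alternating_of_small_support (G : Subgroup (Perm α)) (hG : IsPreprimitive G α)
    (h4 : IsMultiplyPretransitive G α 4) (hn : 8 ≤ Fintype.card α) {g : Perm α} (hg : g ∈ G)
    {q : ℕ} (hq : q.Prime) (hgo : orderOf g = q) (hs : g.support.card ≤ 5) :
    alternatingGroup α ≤ G := by
  by_cases hlt : g.support.card < 2 * q
  · have hc := Perm.isCycle_of_prime_order (hgo.symm ▸ hq) (by rw [hgo]; exact hlt)
    exact alternating_le_of_prime_cycle G hG hq (by
      have := hc.orderOf; omega) hc (by rw [← hc.orderOf, hgo]) hg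
  have hq2 : q = 2 := by have := hq.two_le; omega
  subst hq2
  have hsq : ∀ z, g (g z) = z := by
    intro z
    have h := orderOf_dvd_iff_pow_eq_one.1 hgo.dvd
    rw [pow_two] at h
    exact DFunLike.congr_fun h z
  obtain ⟨a, ha⟩ : g.support.Nonempty := Finset.card_pos.1 (by omega)
  obtain ⟨c, hc⟩ : ∃ c, c ∈ g.support \ {a, g a} := by
    refine Finset.Nonempty.exists_mem ?_
    rw [← Finset.card_pos]
    have := Finset.le_card_sdiff ({a, g a} : Finset α) g.support
    have := Finset.card_le_two (a := a) (b := g a)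
    omega
  simp only [Finset.mem_sdiff, Finset.mem_insert, Finset.mem_singleton, not_or] at hc
  obtain ⟨hcs, hca, hcb⟩ := hc
  rw [Perm.mem_support] at ha hcs
  set b := g a with hb
  set d := g c with hd
  have hdb : d ≠ b := fun h => hca (g.injective h)
  have hda : d ≠ a := fun h => hcb (by rw [hb, ← h, hd, hsq])
  have hnodup : [a, b, c, d].Nodup := by
    simp [Ne.symm ha, Ne.symm hca, Ne.symm hda, Ne.symm hcb, Ne.symm hdb, Ne.symm hcs]
  have hsub : {a, b, c, d} ⊆ g.support := by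
    intro z hz
    simp only [Finset.mem_insert, Finset.mem_singleton] at hz
    rw [Perm.mem_support]
    rcases hz with rfl | rfl | rfl | rfl
    · exact ha
    · exact fun h => ha (g.injective h)
    · exact hcs
    · exact fun h => hcs (g.injective h)
  -- a fifth moved point would need a partner
  have heq : g.support = {a, b, c, d} := by
    refine (Finset.eq_of_subset_of_card_le hsub ?_).symm
    have hf : ({a, b, c, d} : Finset α).card = 4 := by
      simpa using (List.toFinset_card_of_nodup hnodup)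
    rw [hf]
    by_contra h5
    obtain ⟨e, he⟩ : ∃ e, e ∈ g.support \ {a, b, c, d} := by
      refine Finset.Nonempty.exists_mem ?_
      rw [← Finset.card_pos]
      have := Finset.le_card_sdiff ({a, b, c, d} : Finset α) g.support
      omega
    simp only [Finset.mem_sdiff, Finset.mem_insert, Finset.mem_singleton, not_or] at he
    obtain ⟨hes, hea, heb, hec, hed⟩ := he
    have h6 : (insert e (insert (g e) ({a, b, c, d} : Finset α))).card = 6 := by
      rw [Finset.card_insert_of_notMem, Finset.card_insert_of_notMem, hf]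
      · simp only [Finset.mem_insert, Finset.mem_singleton, not_or]
        exact ⟨fun h => heb (by rw [hb, ← h, hsq]), fun h => hea (g.injective h),
          fun h => hed (by rw [hd, ← h, hsq]), fun h => hec (g.injective h)⟩
      · simp only [Finset.mem_insert, Finset.mem_singleton, not_or]
        exact ⟨Ne.symm (Perm.mem_support.1 hes), hea, heb, hec, hed⟩
    have := (Finset.card_le_card (show insert e (insert (g e) ({a, b, c, d} : Finset α)) ⊆ g.support from
      Finset.insert_subset hes (Finset.insert_subset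
        (Perm.apply_mem_support.2 hes) hsub))).trans hs
    omega
  have hgd : g = swap a b * swap c d := by
    ext z
    rw [Perm.mul_apply]
    by_cases hz : z ∈ g.support
    · rw [heq] at hz
      simp only [Finset.mem_insert, Finset.mem_singleton] at hz
      rcases hz with rfl | rfl | rfl | rfl
      · rw [swap_apply_of_ne_of_ne (Ne.symm hca) (Ne.symm hda), swap_apply_left, hb]
      · rw [swap_apply_of_ne_of_ne (Ne.symm hcb) (Ne.symm hdb), swap_apply_right, hb, hsq]
      · rw [swap_apply_left, swap_apply_of_ne_of_ne hda hdb, hd]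
      · rw [swap_apply_right, swap_apply_of_ne_of_ne hca hcb, hd, hsq]
    · have hz' := Perm.notMem_support.1 hz
      rw [heq] at hz
      simp only [Finset.mem_insert, Finset.mem_singleton, not_or] at hz
      rw [swap_apply_of_ne_of_ne hz.2.2.1 hz.2.2.2, swap_apply_of_ne_of_ne hz.1 hz.2.1, hz']
  exact alternating_of_double G hG h4 (by omega) hnodup (hgd ▸ hg)

end Jordan

section Orbits

variable {G α : Type*} [Group G] [Finite G] [Fintype α] [DecidableEq α] [MulAction G α]

/-- The orbit of a subgroup as a finite set. -/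
noncomputable def orb (P : Subgroup G) (b : α) : Finset α :=
  (Set.toFinite {a : α | ∃ u ∈ P, u • b = a}).toFinset

theorem mem_orb {P : Subgroup G} {a b : α} : a ∈ orb P b ↔ ∃ u ∈ P, u • b = a :=
  Set.Finite.mem_toFinset _

theorem self_mem_orb (P : Subgroup G) (b : α) : b ∈ orb P b := mem_orb.2 ⟨1, P.one_mem, one_smul _ _⟩

theorem orb_eq {P : Subgroup G} {a b : α} (h : a ∈ orb P b) : orb P a = orb P b := by
  obtain ⟨u, hu, rfl⟩ := mem_orb.1 h
  ext c
  simp only [mem_orb]
  constructor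
  · rintro ⟨v, hv, rfl⟩
    exact ⟨v * u, P.mul_mem hv hu, mul_smul _ _ _⟩
  · rintro ⟨v, hv, rfl⟩
    exact ⟨v * u⁻¹, P.mul_mem hv (P.inv_mem hu), by rw [← mul_smul, inv_mul_cancel_right]⟩

theorem image_orb {P : Subgroup G} {g : G} (hg : g ∈ Subgroup.normalizer (P : Set G)) (b : α) :
    (orb P b).image (fun z => g • z) = orb P (g • b) := by
  ext c
  simp only [Finset.mem_image, mem_orb]
  constructor
  · rintro ⟨_, ⟨u, hu, rfl⟩, rfl⟩
    exact ⟨g * u * g⁻¹, (Subgroup.mem_normalizer_iff.1 hg u).1 hu, by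
      rw [mul_smul, mul_smul, inv_smul_smul]⟩
  · rintro ⟨v, hv, rfl⟩
    exact ⟨(g⁻¹ * v * g) • b, ⟨g⁻¹ * v * g, (Subgroup.mem_normalizer_iff''.1 hg v).1 hv, rfl⟩, by
      rw [← mul_smul, ← mul_smul, show g * (g⁻¹ * v * g) = v * g by group]⟩

/-- An elementary abelian `p`-subgroup with orbits of size `p` on `Γ`. -/
structure Ctx (p : ℕ) (P : Subgroup G) (Γ : Set α) : Prop where
  prime : p.Prime
  comm : ∀ u ∈ P, ∀ v ∈ P, u * v = v * u
  pow : ∀ u ∈ P, u ^ p = 1
  orbit : ∀ b ∈ Γ, (orb P b).card = p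
  fix : ∀ u ∈ P, ∀ a ∉ Γ, u • a = a
  faith : ∀ u ∈ P, ∀ v ∈ P, (∀ a : α, u • a = v • a) → u = v

variable {p : ℕ} {P : Subgroup G} {Γ : Set α}

theorem Ctx.ext (h : Ctx p P Γ) {u v : G} (hu : u ∈ P) (hv : v ∈ P)
    (huv : ∀ b ∈ Γ, u • b = v • b) : u = v := by
  refine h.faith u hu v hv fun a => ?_
  by_cases ha : a ∈ Γ
  · exact huv a ha
  · rw [h.fix u hu a ha, h.fix v hv a ha]

theorem Ctx.stab_orbit (h : Ctx p P Γ) {u v : G} (hu : u ∈ P) (hv : v ∈ P) {b c : α}
    (hc : c ∈ orb P b) (huv : u • b = v • b) : u • c = v • c := by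
  obtain ⟨w, hw, rfl⟩ := mem_orb.1 hc
  rw [← mul_smul, ← mul_smul, h.comm u hu w hw, h.comm v hv w hw, mul_smul, mul_smul, huv]

theorem Ctx.zpow_congr (h : Ctx p P Γ) {u v : G} (hu : u ∈ P) (hv : v ∈ P) {b : α}
    (huv : u • b = v • b) (i : ℤ) : u ^ i • b = v ^ i • b := by
  have hd : v⁻¹ * u ∈ stabilizer G b := by
    rw [mem_stabilizer_iff, mul_smul, huv, inv_smul_smul]
  have hc : Commute v (v⁻¹ * u) := h.comm v hv _ (P.mul_mem (P.inv_mem hv) hu)
  have e : u ^ i = v ^ i * (v⁻¹ * u) ^ i := by rw [← hc.mul_zpow, mul_inv_cancel_left]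
  rw [e, mul_smul, mem_stabilizer_iff.1 (zpow_mem hd i)]

theorem Ctx.exists_zpow (h : Ctx p P Γ) {w : G} (hw : w ∈ P) {b : α} (hb : b ∈ Γ) (hwb : w • b ≠ b)
    {u : G} (hu : u ∈ P) : ∃ i : ℤ, u • b = w ^ i • b := by
  have hsub : (Finset.range p).image (fun i : ℕ => w ^ i • b) ⊆ orb P b := by
    intro a ha
    obtain ⟨i, -, rfl⟩ := Finset.mem_image.1 ha
    exact mem_orb.2 ⟨w ^ i, P.pow_mem hw i, rfl⟩
  have hinj : Set.InjOn (fun i : ℕ => w ^ i • b) (Finset.range p : Set ℕ) := by
    have key : ∀ i j : ℕ, i < j → j < p → w ^ i • b ≠ w ^ j • b := by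
      intro i j hij hj e
      apply hwb
      have e' : w ^ (j - i) • b = b := by
        rw [show j = i + (j - i) by omega, pow_add, mul_smul] at e
        exact (MulAction.injective (w ^ i) e).symm
      have hco : Nat.Coprime (j - i) (orderOf w) := by
        refine (Nat.Coprime.coprime_dvd_right (orderOf_dvd_of_pow_eq_one (h.pow w hw)) ?_)
        rw [Nat.coprime_comm, h.prime.coprime_iff_not_dvd]
        intro hd
        have := Nat.le_of_dvd (by omega) hd
        omega
      obtain ⟨m, hm⟩ := exists_pow_eq_self_of_coprime hco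
      have hst : w ^ (j - i) ∈ stabilizer G b := e'
      have := Subgroup.pow_mem _ hst m
      rw [hm] at this
      exact this
    intro i hi j hj e
    simp only [Finset.coe_range, Set.mem_Iio] at hi hj
    rcases lt_trichotomy i j with hl | hl | hl
    · exact absurd e (key i j hl hj)
    · exact hl
    · exact absurd e.symm (key j i hl hi)
  have heq := Finset.eq_of_subset_of_card_le hsub
    (by rw [Finset.card_image_of_injOn hinj, Finset.card_range, h.orbit b hb])
  have hm : u • b ∈ orb P b := mem_orb.2 ⟨u, hu, rfl⟩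
  rw [← heq] at hm
  obtain ⟨i, -, hi⟩ := Finset.mem_image.1 hm
  exact ⟨i, by rw [zpow_natCast]; exact hi.symm⟩

theorem Ctx.exists_moving (h : Ctx p P Γ) {b : α} (hb : b ∈ Γ) : ∃ w ∈ P, w • b ≠ b := by
  by_contra hcon
  push Not at hcon
  have h1 : orb P b ⊆ {b} := fun a ha => by
    obtain ⟨u, hu, rfl⟩ := mem_orb.1 ha
    simp [hcon u hu]
  have := Finset.card_le_card h1
  rw [h.orbit b hb, Finset.card_singleton] at this
  have := h.prime.two_le
  omega

/-- conjugation by `s` is a power map on the orbit of `b` -/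
theorem Ctx.exists_mult (h : Ctx p P Γ) {s : G} (hs : s ∈ Subgroup.normalizer (P : Set G)) {b : α}
    (hb : b ∈ Γ) (hsb : s • b ∈ orb P b) :
    ∃ l : ℤ, ∀ u ∈ P, (s * u * s⁻¹) • b = u ^ l • b := by
  have hc : ∀ u ∈ P, s * u * s⁻¹ ∈ P := fun u hu => (Subgroup.mem_normalizer_iff.1 hs u).1 hu
  have hresp : ∀ u ∈ P, ∀ v ∈ P, u • b = v • b → (s * u * s⁻¹) • b = (s * v * s⁻¹) • b := by
    intro u hu v hv huv
    refine h.stab_orbit (hc u hu) (hc v hv) (b := s • b) ?_ ?_
    · rw [orb_eq hsb]; exact self_mem_orb P b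
    · rw [mul_smul, mul_smul, inv_smul_smul, mul_smul, mul_smul, inv_smul_smul, huv]
  obtain ⟨w, hw, hwb⟩ := h.exists_moving hb
  obtain ⟨l, hl⟩ := h.exists_zpow hw hb hwb (hc w hw)
  refine ⟨l, fun u hu => ?_⟩
  obtain ⟨i, hi⟩ := h.exists_zpow hw hb hwb hu
  rw [hresp u hu (w ^ i) (P.zpow_mem hw i) hi, ← conj_zpow,
    h.zpow_congr (hc w hw) (P.zpow_mem hw l) hl i,
    h.zpow_congr hu (P.zpow_mem hw i) hi l, ← zpow_mul, ← zpow_mul, mul_comm]

/-- Elements of the normalizer fixing all orbits commute modulo the centralizer. -/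
theorem Ctx.commutator_centralizes (h : Ctx p P Γ) {s t : G}
    (hs : s ∈ Subgroup.normalizer (P : Set G)) (ht : t ∈ Subgroup.normalizer (P : Set G))
    (hs0 : ∀ b ∈ Γ, s • b ∈ orb P b) (ht0 : ∀ b ∈ Γ, t • b ∈ orb P b) :
    ∀ u ∈ P, ⁅s, t⁆ * u = u * ⁅s, t⁆ := by
  have hcs : ∀ u ∈ P, s * u * s⁻¹ ∈ P := fun u hu => (Subgroup.mem_normalizer_iff.1 hs u).1 hu
  have hct : ∀ u ∈ P, t * u * t⁻¹ ∈ P := fun u hu => (Subgroup.mem_normalizer_iff.1 ht u).1 hu
  have key : ∀ u ∈ P, s * (t * u * t⁻¹) * s⁻¹ = t * (s * u * s⁻¹) * t⁻¹ := by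
    intro u hu
    refine h.ext (hcs _ (hct u hu)) (hct _ (hcs u hu)) fun b hb => ?_
    obtain ⟨l, hl⟩ := h.exists_mult hs hb (hs0 b hb)
    obtain ⟨m, hm⟩ := h.exists_mult ht hb (ht0 b hb)
    rw [hl _ (hct u hu), hm _ (hcs u hu), h.zpow_congr (hct u hu) (P.zpow_mem hu m) (hm u hu) l,
      h.zpow_congr (hcs u hu) (P.zpow_mem hu l) (hl u hu) m, ← zpow_mul, ← zpow_mul, mul_comm]
  intro u hu
  have hu' : t⁻¹ * (s⁻¹ * u * s) * t ∈ P := by
    have h1 := (Subgroup.mem_normalizer_iff''.1 hs u).1 hu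
    exact (Subgroup.mem_normalizer_iff''.1 ht _).1 h1
  have h2 := key _ hu'
  have h3 : u = t * s * (t⁻¹ * (s⁻¹ * u * s) * t) * (t * s)⁻¹ → True := fun _ => trivial
  have e : ⁅s, t⁆ * u * ⁅s, t⁆⁻¹ = u := by
    have hu2 : s⁻¹ * (t⁻¹ * u * t) * s ∈ P := by
      have h1 := (Subgroup.mem_normalizer_iff''.1 ht u).1 hu
      exact (Subgroup.mem_normalizer_iff''.1 hs _).1 h1
    have h4 := key _ hu2
    calc ⁅s, t⁆ * u * ⁅s, t⁆⁻¹ = s * (t * (s⁻¹ * (t⁻¹ * u * t) * s) * t⁻¹) * s⁻¹ := by
          rw [commutatorElement_def]; group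
      _ = t * (s * (s⁻¹ * (t⁻¹ * u * t) * s) * s⁻¹) * t⁻¹ := h4
      _ = u := by group
  calc ⁅s, t⁆ * u = ⁅s, t⁆ * u * ⁅s, t⁆⁻¹ * ⁅s, t⁆ := by group
    _ = u * ⁅s, t⁆ := by rw [e]

/-- With at most three orbits and no element moving a single orbit, elements fixing the orbits
act as power maps. -/
theorem Ctx.exists_scalar (h : Ctx p P Γ)
    (hns : ∀ u ∈ P, u ≠ 1 → ∀ a : α, ∃ c, c ∉ orb P a ∧ u • c ≠ c)
    (h3 : ∀ a ∈ Γ, ∀ b ∈ Γ, ∀ c ∈ Γ, ∀ d ∈ Γ, b ∉ orb P a → c ∉ orb P a → c ∉ orb P b →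
      d ∈ orb P a ∨ d ∈ orb P b ∨ d ∈ orb P c)
    {s : G} (hs : s ∈ Subgroup.normalizer (P : Set G)) (hs0 : ∀ b ∈ Γ, s • b ∈ orb P b) :
    ∃ l : ℤ, ∀ u ∈ P, s * u * s⁻¹ = u ^ l := by
  have hcs : ∀ u ∈ P, s * u * s⁻¹ ∈ P := fun u hu => (Subgroup.mem_normalizer_iff.1 hs u).1 hu
  have hmem : ∀ u ∈ P, ∀ a, u • a ≠ a → a ∈ Γ := fun u hu a ha =>
    not_not.1 fun hn => ha (h.fix u hu a hn)
  rcases Set.eq_empty_or_nonempty Γ with hΓ | ⟨a, ha⟩
  · exact ⟨0, fun u hu => h.ext (hcs u hu) (P.zpow_mem hu 0) fun b hb => by rw [hΓ] at hb; exact hb.elim⟩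
  by_cases hinj : ∃ b ∈ Γ, ∀ u ∈ P, u • b = b → u = 1
  · obtain ⟨b, hb, hb1⟩ := hinj
    obtain ⟨l, hl⟩ := h.exists_mult hs hb (hs0 b hb)
    refine ⟨l, fun u hu => ?_⟩
    have := hb1 ((u ^ l)⁻¹ * (s * u * s⁻¹)) (P.mul_mem (P.inv_mem (P.zpow_mem hu l)) (hcs u hu))
      (by rw [mul_smul, hl u hu, inv_smul_smul])
    exact (inv_mul_eq_one.1 this).symm
  push Not at hinj
  obtain ⟨l, hl⟩ := h.exists_mult hs ha (hs0 a ha)
  refine ⟨l, fun u hu => h.ext (hcs u hu) (P.zpow_mem hu l) fun c hc => ?_⟩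
  by_cases hca : c ∈ orb P a
  · exact h.stab_orbit (hcs u hu) (P.zpow_mem hu l) hca (hl u hu)
  -- a third orbit
  obtain ⟨z', hz'P, hz'a, hz'1⟩ := hinj a ha
  obtain ⟨b, hbc, hzb⟩ := hns z' hz'P hz'1 c
  have hbΓ := hmem z' hz'P b hzb
  have hba : b ∉ orb P a := fun hb => hzb (by
    have := h.stab_orbit hz'P P.one_mem hb (by rw [hz'a, one_smul])
    rwa [one_smul] at this)
  obtain ⟨z, hzP, hzb', hz1⟩ := hinj b hbΓ
  have hzfix : ∀ d ∈ orb P b, z • d = d := fun d hd => by
    have := h.stab_orbit hzP P.one_mem hd (by rw [hzb', one_smul])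
    rwa [one_smul] at this
  have hac : a ∉ orb P c := fun hh => hca (by rw [orb_eq hh]; exact self_mem_orb P c)
  have hab : a ∉ orb P b := fun hh => hba (by rw [orb_eq hh]; exact self_mem_orb P b)
  have hcover : ∀ d ∈ Γ, d ∈ orb P a ∨ d ∈ orb P b ∨ d ∈ orb P c := fun d hd =>
    h3 a ha b hbΓ c hc d hd hba hca (fun hh => hbc (by rw [orb_eq hh]; exact self_mem_orb P b))
  -- `z` moves the orbit of `c`
  have hzc : z • c ≠ c := by
    intro hcfix
    obtain ⟨d, hda, hzd⟩ := hns z hzP hz1 a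
    rcases hcover d (hmem z hzP d hzd) with hd | hd | hd
    · exact hda hd
    · exact hzd (hzfix d hd)
    · exact hzd (by
        have := h.stab_orbit hzP P.one_mem hd (by rw [hcfix, one_smul])
        rwa [one_smul] at this)
  have heq : s * z * s⁻¹ = z ^ l := by
    by_contra hne
    obtain ⟨d, hdc, hzd⟩ := hns ((z ^ l)⁻¹ * (s * z * s⁻¹)) (P.mul_mem (P.inv_mem (P.zpow_mem hzP l)) (hcs z hzP))
      (fun e => hne (inv_mul_eq_one.1 e).symm) c
    have hdΓ := hmem _ (P.mul_mem (P.inv_mem (P.zpow_mem hzP l)) (hcs z hzP)) d hzd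
    apply hzd
    rw [mul_smul, inv_smul_eq_iff]
    rcases hcover d hdΓ with hd | hd | hd
    · exact h.stab_orbit (hcs z hzP) (P.zpow_mem hzP l) hd (hl z hzP)
    · obtain ⟨m, hm⟩ := h.exists_mult hs hbΓ (hs0 b hbΓ)
      refine h.stab_orbit (hcs z hzP) (P.zpow_mem hzP l) hd ?_
      rw [hm z hzP, h.zpow_congr hzP P.one_mem (by rw [hzb', one_smul]) m,
        h.zpow_congr hzP P.one_mem (by rw [hzb', one_smul]) l, one_zpow, one_zpow]
    · exact absurd hd hdc
  obtain ⟨m, hm⟩ := h.exists_mult hs hc (hs0 c hc)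
  obtain ⟨i, hi⟩ := h.exists_zpow hzP hc hzc hu
  have e1 : z ^ m • c = z ^ l • c := by rw [← hm z hzP, heq]
  rw [hm u hu, h.zpow_congr hu (P.zpow_mem hzP i) hi m, h.zpow_congr hu (P.zpow_mem hzP i) hi l,
    ← zpow_mul, ← zpow_mul, mul_comm i, mul_comm i, zpow_mul, zpow_mul,
    h.zpow_congr (P.zpow_mem hzP m) (P.zpow_mem hzP l) e1 i]

end Orbits

section Main

variable {α : Type*} [Fintype α] [DecidableEq α]

theorem miller (G : Subgroup (Perm α)) {k p r : ℕ} (hp : p.Prime) (hn : Fintype.card α = k * p + r)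
    (hk : 1 ≤ k) (hpk : k < p) (hrk : k < r) (hex : ¬ (k = 1 ∧ r = 2))
    (hG : IsMultiplyPretransitive G α (r + 1)) : alternatingGroup α ≤ G := by
  classical
  haveI : Fact p.Prime := ⟨hp⟩
  have hp2 := hp.two_le
  have hr : 2 ≤ r := by omega
  have hkp : p ≤ k * p := Nat.le_mul_of_pos_left p hk
  have hle : ∀ t, t ≤ r + 1 → IsMultiplyPretransitive G α t := fun t ht => by
    haveI := hG
    exact isMultiplyPretransitive_of_le ht (by rw [Nat.card_eq_fintype_card]; omega)
  have hprim : IsPreprimitive G α := isPreprimitive_of_is_two_pretransitive (hle 2 (by omega))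
  -- the stabilizer of `r` points
  obtain ⟨x⟩ : Nonempty (Fin r ↪ α) :=
    Function.Embedding.nonempty_of_card_le (by rw [Fintype.card_fin]; omega)
  set H := stabilizer G x
  set Γ : Set α := (Set.range x)ᶜ
  have hHfix : ∀ g ∈ H, ∀ i, g • x i = x i := fun g hg i => DFunLike.congr_fun hg i
  have hΓcard : Γ.ncard = k * p := by
    rw [Set.ncard_compl, Set.ncard_range_of_injective x.injective, Nat.card_eq_fintype_card,
      Nat.card_eq_fintype_card, Fintype.card_fin]
    omega
  have hHorb : ∀ b ∈ Γ, orbit H b = Γ := by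
    intro b hb
    ext c
    constructor
    · rintro ⟨⟨g, hg⟩, rfl⟩
      rintro ⟨i, hi⟩
      refine hb ⟨i, MulAction.injective g ?_⟩
      show g • x i = g • b
      rw [hHfix g hg i, hi]; rfl
    · intro hc
      haveI := hG
      obtain ⟨g, hg⟩ := exists_smul_eq G
        (⟨Fin.snoc x b, Fin.snoc_injective_of_injective x.injective hb⟩ : Fin (r + 1) ↪ α)
        (⟨Fin.snoc x c, Fin.snoc_injective_of_injective x.injective hc⟩ : Fin (r + 1) ↪ α)
      have hgH : g ∈ H := by
        refine Function.Embedding.ext fun i => ?_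
        have := DFunLike.congr_fun hg (Fin.castSucc i)
        simp at this
        exact this
      refine ⟨⟨g, hgH⟩, ?_⟩
      have := DFunLike.congr_fun hg (Fin.last r)
      simp at this
      exact this
  -- a Sylow subgroup of the stabilizer
  obtain ⟨P0⟩ : Nonempty (Sylow p H) := inferInstance
  set P : Subgroup G := (P0 : Subgroup H).map H.subtype with hPdef
  have hPH : P ≤ H := Subgroup.map_subtype_le _
  have hPp : IsPGroup p P := P0.2.map _
  have hfixx : ∀ u ∈ P, ∀ a ∉ Γ, u • a = a := by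
    intro u hu a ha
    obtain ⟨i, rfl⟩ := not_not.1 ha
    exact hHfix u (hPH hu) i
  have hinvΓ : ∀ u ∈ P, ∀ b ∈ Γ, u • b ∈ Γ := fun u hu b hb => by
    rw [← hHorb b hb]; exact ⟨⟨u, hPH hu⟩, rfl⟩
  have horb : ∀ b ∈ Γ, (orb P b).card = p := by
    intro b hb
    haveI : Fintype (orbit P b) := Fintype.ofFinite _
    have heq : (orb P b).card = Nat.card (orbit P b) := by
      rw [Nat.card_coe_set_eq, ← Set.ncard_coe_finset]
      congr 1
      ext a
      rw [Finset.mem_coe, mem_orb]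
      exact ⟨fun ⟨u, hu, e⟩ => ⟨⟨u, hu⟩, e⟩, fun ⟨⟨u, hu⟩, e⟩ => ⟨u, hu, e⟩⟩
    obtain ⟨j, hj⟩ := hPp.card_orbit b
    rw [heq, hj]
    have hsub : (orb P b : Set α) ⊆ Γ := fun a ha => by
      obtain ⟨u, hu, rfl⟩ := mem_orb.1 ha
      exact hinvΓ u hu b hb
    have hle := Set.ncard_le_ncard hsub
    rw [Set.ncard_coe_finset, heq, hj, hΓcard] at hle
    rcases j with _ | _ | j
    · -- `P` would fix `b`
      exfalso
      rw [pow_zero, ← heq, Finset.card_eq_one] at hj
      obtain ⟨a, ha⟩ := hj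
      have hPb : (P0 : Subgroup H) ≤ stabilizer H b := by
        intro u hu
        have h1 : (u : G) • b ∈ orb P b := mem_orb.2 ⟨u, Subgroup.mem_map_of_mem _ hu, rfl⟩
        have h2 := self_mem_orb P b
        rw [ha, Finset.mem_singleton] at h1 h2
        show (u : G) • b = b
        rw [h1, ← h2]
      refine P0.not_dvd_index ?_
      have h3 : (stabilizer H b).index = k * p := by
        rw [index_stabilizer, hHorb b hb, hΓcard]
      exact (h3 ▸ Dvd.intro_left k rfl : p ∣ (stabilizer H b).index).trans (Subgroup.index_dvd_of_le hPb)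
    · exact pow_one p
    · exfalso
      have h2 : p * p ≤ p ^ (j + 1 + 1) := by
        rw [← pow_two]; exact Nat.pow_le_pow_right hp.pos (by omega)
      have h3 : k * p < p * p := Nat.mul_lt_mul_of_pos_right hpk hp.pos
      omega
  have hfaith : ∀ u v : G, (∀ a : α, u • a = v • a) → u = v := fun u v h =>
    Subtype.ext (Equiv.ext h)
  have hpowP : ∀ u ∈ P, u ^ p = 1 := by
    intro u hu
    refine hfaith _ _ fun a => ?_
    rw [one_smul]
    by_cases ha : a ∈ Γ
    swap
    · exact hfixx _ (P.pow_mem hu p) a ha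
    -- the order of `u` on an orbit of size `p` divides `p`
    haveI : Fintype (orbit P a) := Fintype.ofFinite _
    let φ : P →* Perm (orbit P a) := toPermHom P (orbit P a)
    have hcard : Nat.card (orbit P a) = p := by
      rw [← horb a ha, Nat.card_coe_set_eq, ← Set.ncard_coe_finset]
      congr 1
      ext c
      rw [Finset.mem_coe, mem_orb]
      exact ⟨fun ⟨⟨u, hu⟩, e⟩ => ⟨u, hu, e⟩, fun ⟨u, hu, e⟩ => ⟨⟨u, hu⟩, e⟩⟩
    obtain ⟨j, hj⟩ := hPp ⟨u, hu⟩
    have h1 : orderOf (φ ⟨u, hu⟩) ∣ p ^ j :=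
      orderOf_dvd_of_pow_eq_one (by rw [← map_pow, hj, map_one])
    have h2 : orderOf (φ ⟨u, hu⟩) ∣ p.factorial := by
      refine (orderOf_dvd_natCard _).trans ?_
      rw [Nat.card_perm, hcard]
    obtain ⟨i, -, hi⟩ := (Nat.dvd_prime_pow hp).1 h1
    have hi1 : i ≤ 1 := by
      by_contra hh
      exact not_sq_dvd_factorial hp ((pow_dvd_pow p (show 2 ≤ i by omega)).trans (hi ▸ h2))
    have h3 : φ ⟨u, hu⟩ ^ p = 1 := orderOf_dvd_iff_pow_eq_one.1
      (by rw [hi]; exact (pow_dvd_pow p hi1).trans (pow_one p).dvd)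
    rw [← map_pow] at h3
    exact congrArg Subtype.val (DFunLike.congr_fun h3 ⟨a, mem_orbit_self a⟩)
  have hcommP : ∀ u ∈ P, ∀ v ∈ P, u * v = v * u := by
    intro u hu v hv
    refine hfaith _ _ fun a => ?_
    by_cases ha : a ∈ Γ
    swap
    · rw [hfixx _ (P.mul_mem hu hv) a ha, hfixx _ (P.mul_mem hv hu) a ha]
    set D := stabilizer P a
    have hDi : D.index = p := by
      rw [index_stabilizer, ← horb a ha, ← Set.ncard_coe_finset]
      congr 1
      ext c
      rw [Finset.mem_coe, mem_orb]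
      exact ⟨fun ⟨⟨u, hu⟩, e⟩ => ⟨u, hu, e⟩, fun ⟨u, hu, e⟩ => ⟨⟨u, hu⟩, e⟩⟩
    obtain ⟨j, hj⟩ := IsPGroup.iff_card.1 hPp
    have hj0 : j ≠ 0 := by
      rintro rfl
      have h := D.index_dvd_card
      rw [hDi, hj, pow_zero, Nat.dvd_one] at h
      omega
    haveI : D.Normal := Subgroup.normal_of_index_eq_minFac_card
      (by rw [hDi, hj, Nat.pow_minFac hj0, hp.minFac_eq])
    haveI : IsCyclic (P ⧸ D) := isCyclic_of_prime_card (p := p) (by rw [← Subgroup.index_eq_card, hDi])
    have hq : (((⟨u, hu⟩ * ⟨v, hv⟩ : P)) : P ⧸ D) = ((⟨v, hv⟩ * ⟨u, hu⟩ : P) : P ⧸ D) := by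
      rw [QuotientGroup.mk_mul, QuotientGroup.mk_mul]
      exact (IsCyclic.commGroup (α := P ⧸ D)).mul_comm _ _
    have hd : ((⟨u, hu⟩ * ⟨v, hv⟩ : P))⁻¹ * (⟨v, hv⟩ * ⟨u, hu⟩) ∈ D := QuotientGroup.eq.1 hq
    have hd' : ((u * v)⁻¹ * (v * u)) • a = a := hd
    rw [mul_smul, inv_smul_eq_iff] at hd'
    exact hd'.symm
  have ctx : Ctx p P Γ := ⟨hp, hcommP, hpowP, horb, hfixx, fun u _ v _ => hfaith u v⟩
  have hΓne : Γ.Nonempty := by
    rw [← Set.ncard_pos, hΓcard]
    exact Nat.mul_pos hk hp.pos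
  -- a `p`-cycle
  by_cases hns : ∀ u ∈ P, u ≠ 1 → ∀ a : α, ∃ c, c ∉ orb P a ∧ u • c ≠ c
  swap
  · push Not at hns
    obtain ⟨u, hu, hu1, a, ha⟩ := hns
    set g : Perm α := (u : G).1
    have hsupp : g.support ⊆ orb P a := fun c hc => by
      by_contra hco
      exact Perm.mem_support.1 hc (ha c hco)
    have hgo : orderOf g = p := by
      refine orderOf_eq_prime (congrArg Subtype.val (hpowP u hu)) fun e => hu1 (Subtype.ext e)
    have hne : g.support.Nonempty := by
      rw [Finset.nonempty_iff_ne_empty, Ne, Perm.support_eq_empty_iff]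
      exact fun e => hu1 (Subtype.ext e)
    obtain ⟨c, hc⟩ := hne
    have hcΓ : c ∈ Γ := by
      by_contra hcn
      exact Perm.mem_support.1 hc (hfixx u hu c hcn)
    have hle : g.support.card ≤ p := by
      refine (Finset.card_le_card hsupp).trans ?_
      rw [← orb_eq (hsupp hc), horb c hcΓ]
    have hcy := Perm.isCycle_of_prime_order (σ := g) (by rw [hgo]; exact hp) (by rw [hgo]; omega)
    refine alternating_le_of_prime_cycle G hprim hp ?_ hcy (by rw [← hcy.orderOf, hgo]) (u : G).2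
    rcases Nat.lt_or_ge 1 k with h | h
    · have : 2 * p ≤ k * p := Nat.mul_le_mul_right p h
      omega
    · omega
  -- hence at least two orbits
  have hk2 : 2 ≤ k := by
    by_contra hk1
    obtain ⟨b, hb⟩ := hΓne
    obtain ⟨w, hw, hwb⟩ := ctx.exists_moving hb
    obtain ⟨c, hc, hwc⟩ := hns w hw (fun e => hwb (by rw [e, one_smul])) b
    have hsub : (orb P b : Set α) ⊆ Γ := fun a ha => by
      obtain ⟨u, hu, rfl⟩ := mem_orb.1 ha
      exact hinvΓ u hu b hb
    have heq : (orb P b : Set α) = Γ := Set.eq_of_subset_of_ncard_le hsub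
      (by rw [hΓcard, Set.ncard_coe_finset, horb b hb]; obtain rfl : k = 1 := (by omega); omega)
    refine hc ?_
    rw [← Finset.mem_coe, heq]
    exact not_not.1 fun hcn => hwc (hfixx w hw c hcn)
  have hp3 : 3 ≤ p := by omega
  have hr3 : 3 ≤ r := by omega
  have h4 : IsMultiplyPretransitive G α 4 := hle 4 (by omega)
  by_cases hspec : r = 3 ∧ p = 3
  · -- degree nine
    obtain ⟨rfl, rfl⟩ := hspec
    obtain rfl : k = 2 := by omega
    by_cases hsharp : ∀ y : Fin 4 ↪ α, stabilizer G y = ⊥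
    · haveI := h4
      have := Cfsg.Agent.S0415.result G (by omega) hsharp
      omega
    push Not at hsharp
    obtain ⟨y, hy⟩ := hsharp
    obtain ⟨q, hq, hqd⟩ := Nat.exists_prime_and_dvd
      (fun h1 : Nat.card (stabilizer G y) = 1 => hy (Subgroup.card_eq_one.1 h1))
    haveI : Fact q.Prime := ⟨hq⟩
    obtain ⟨⟨⟨g, hg⟩, hgy⟩, hgo⟩ := exists_prime_orderOf_dvd_card' q hqd
    refine alternating_of_small_support G hprim h4 (by omega) hg hq
      (by rw [← hgo, Subgroup.orderOf_mk, Subgroup.orderOf_mk]) ?_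
    have hsub : g.support ⊆ (Finset.univ.map y)ᶜ := fun z hz => by
      rw [Finset.mem_compl, Finset.mem_map]
      rintro ⟨i, -, rfl⟩
      exact Perm.mem_support.1 hz (DFunLike.congr_fun hgy i)
    have := Finset.card_le_card hsub
    rw [Finset.card_compl, Finset.card_map, Finset.card_univ, Fintype.card_fin] at this
    omega
  -- the action of the normalizer on the fixed points
  set N := Subgroup.normalizer (P : Set G) with hN
  have hNinv : ∀ g ∈ N, ∀ a, a ∉ Γ → g • a ∉ Γ := by
    intro g hg a ha hga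
    obtain ⟨w, hw, hwb⟩ := ctx.exists_moving hga
    refine hwb ?_
    have h1 := hfixx _ ((Subgroup.mem_normalizer_iff''.1 hg w).1 hw) a ha
    rw [mul_smul, mul_smul, inv_smul_eq_iff] at h1
    exact h1
  have hρ : ∀ g : N, ∀ i, ∃ j, (g : G) • x i = x j := fun g i => by
    obtain ⟨j, hj⟩ := not_not.1 (hNinv g g.2 (x i) (fun h => h ⟨i, rfl⟩))
    exact ⟨j, hj.symm⟩
  choose f hf using hρ
  have hfmul : ∀ a b : N, ∀ i, f (a * b) i = f a (f b i) := fun a b i => x.injective (by
    rw [← hf, ← hf, ← hf, Subgroup.coe_mul, mul_smul])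
  have hfone : ∀ i, f 1 i = i := fun i => x.injective (by rw [← hf, Subgroup.coe_one, one_smul])
  let ρ : N →* Perm (Fin r) := MonoidHom.mk'
    (fun g => ⟨f g, f g⁻¹, fun i => by rw [← hfmul, inv_mul_cancel, hfone],
      fun i => by rw [← hfmul, mul_inv_cancel, hfone]⟩) fun a b => Equiv.ext fun i => hfmul a b i
  have hρapp : ∀ (g : N) i, (g : G) • x i = x (ρ g i) := hf
  have hρsurj : Function.Surjective ρ := by
    intro σ
    obtain ⟨g, hg, hgb⟩ := Cfsg.Agent.S4219.result (hle r (by omega)) x P0 x (σ.toEmbedding.trans x)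
      (fun i u => hHfix u.1 (hPH u.2) i) (fun i u => hHfix u.1 (hPH u.2) (σ i))
    refine ⟨⟨g, hg⟩, Equiv.ext fun i => x.injective ?_⟩
    rw [← hρapp]
    exact DFunLike.congr_fun hgb i
  -- the action on the orbits
  set O : Finset (Finset α) := Γ.toFinset.image (orb P) with hO
  have hOmem : ∀ b ∈ Γ, orb P b ∈ O := fun b hb => Finset.mem_image_of_mem _ (Set.mem_toFinset.2 hb)
  have hΓinvN : ∀ g ∈ N, ∀ b ∈ Γ, g • b ∈ Γ := fun g hg b hb => by
    by_contra hgb
    have := hNinv g⁻¹ (N.inv_mem hg) _ hgb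
    rw [inv_smul_smul] at this
    exact this hb
  have hcardO : O.card = k := by
    have h1 := Finset.card_eq_sum_card_image (orb P) Γ.toFinset
    rw [← Set.ncard_eq_toFinset_card', hΓcard] at h1
    rw [Finset.sum_congr rfl (g := fun _ => p) fun o ho => ?_, Finset.sum_const, smul_eq_mul] at h1
    · exact (Nat.eq_of_mul_eq_mul_right hp.pos h1).symm
    · obtain ⟨b, hb, rfl⟩ := Finset.mem_image.1 ho
      rw [Set.mem_toFinset] at hb
      rw [← horb b hb]
      congr 1
      ext c
      rw [Finset.mem_filter, Set.mem_toFinset]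
      refine ⟨fun ⟨_, e⟩ => e ▸ self_mem_orb P c, fun hc => ⟨?_, orb_eq hc⟩⟩
      obtain ⟨u, hu, rfl⟩ := mem_orb.1 hc
      exact hinvΓ u hu b hb
  have hOimg : ∀ g : N, ∀ o : O, o.1.image (fun z => (g : G) • z) ∈ O := fun g o => by
    obtain ⟨b, hb, e⟩ := Finset.mem_image.1 o.2
    rw [Set.mem_toFinset] at hb
    rw [← e, image_orb g.2]
    exact hOmem _ (hΓinvN g g.2 b hb)
  have himg : ∀ (a b : N) (o : Finset α), (o.image fun z => (b : G) • z).image (fun z => (a : G) • z) =
      o.image fun z => ((a * b : N) : G) • z := fun a b o => by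
    rw [Finset.image_image]
    exact Finset.image_congr fun z _ => by simp [mul_smul]
  have himg1 : ∀ o : Finset α, (o.image fun z => ((1 : N) : G) • z) = o := fun o => by simp
  let π : N →* Perm O := MonoidHom.mk'
    (fun g => ⟨fun o => ⟨_, hOimg g o⟩, fun o => ⟨_, hOimg g⁻¹ o⟩,
      fun o => Subtype.ext (by simp only [himg, inv_mul_cancel, himg1]),
      fun o => Subtype.ext (by simp only [himg, mul_inv_cancel, himg1])⟩)
    fun a b => Equiv.ext fun o => Subtype.ext (himg a b o.1).symm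
  set N0 := π.ker with hN0
  have hN0' : ∀ g ∈ N0, ∀ b ∈ Γ, ((g : N) : G) • b ∈ orb P b := by
    intro g hg b hb
    have h1 : (orb P b).image (fun z => ((g : N) : G) • z) = orb P b :=
      congrArg Subtype.val (DFunLike.congr_fun (MonoidHom.mem_ker.1 hg) (⟨orb P b, hOmem b hb⟩ : O))
    rw [image_orb g.2] at h1
    rw [← h1]; exact self_mem_orb P _
  set K : Subgroup N := N0 ⊓ (Subgroup.centralizer (P : Set G)).subgroupOf N with hK
  haveI hKn : K.Normal := by
    haveI : ((Subgroup.centralizer (P : Set G)).subgroupOf N).Normal := by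
      refine ⟨fun c hc g => ?_⟩
      rw [Subgroup.mem_subgroupOf, Subgroup.mem_centralizer_iff] at hc ⊢
      intro u hu
      have h1 := hc _ ((Subgroup.mem_normalizer_iff''.1 g.2 u).1 hu)
      simp only [Subgroup.coe_mul, InvMemClass.coe_inv]
      calc u * ((g : G) * c * (g : G)⁻¹) = (g : G) * ((g : G)⁻¹ * u * g * c) * (g : G)⁻¹ := by group
        _ = (g : G) * (c * ((g : G)⁻¹ * u * g)) * (g : G)⁻¹ := by rw [h1]
        _ = _ := by group
    exact Subgroup.normal_inf_normal _ _
  set I0 := N0.map ρ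
  set IK := K.map ρ
  haveI : I0.Normal := Subgroup.Normal.map inferInstance ρ hρsurj
  haveI : IK.Normal := Subgroup.Normal.map hKn ρ hρsurj
  have hI0 : I0 ≠ ⊥ := by
    intro h0
    have hle0 : N0 ≤ ρ.ker := (Subgroup.map_eq_bot_iff _).1 h0
    have h1 : ρ.ker.index ≤ N0.index :=
      Nat.le_of_dvd (Nat.pos_of_ne_zero Subgroup.index_ne_zero_of_finite) (Subgroup.index_dvd_of_le hle0)
    have h2 : ρ.ker.index = r.factorial := by
      rw [Subgroup.index_ker, MonoidHom.range_eq_top.2 hρsurj, Subgroup.card_top, Nat.card_perm,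
        Nat.card_eq_fintype_card, Fintype.card_fin]
    have h3 : N0.index ≤ k.factorial := by
      rw [hN0, Subgroup.index_ker, ← hcardO, ← Nat.card_eq_finsetCard, ← Nat.card_perm]
      exact Subgroup.card_le_card_group _
    have h4 := (Nat.factorial_lt (n := k) (m := r) (by omega)).2 hrk
    omega
  have hcomN0 : ∀ a ∈ N0, ∀ b ∈ N0, ⁅a, b⁆ ∈ K := by
    intro a ha b hb
    refine ⟨?_, ?_⟩
    · rw [commutatorElement_def]
      exact N0.mul_mem (N0.mul_mem (N0.mul_mem ha hb) (N0.inv_mem ha)) (N0.inv_mem hb)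
    · rw [SetLike.mem_coe, Subgroup.mem_toSubmonoid, Subgroup.mem_subgroupOf, Subgroup.mem_centralizer_iff]
      intro u hu
      exact (ctx.commutator_centralizes (s := (a : G)) (t := (b : G)) a.2 b.2 (hN0' a ha) (hN0' b hb) u hu).symm
  -- the key element
  have hσ : ∃ σ ∈ IK, (4 ≤ r → ∃ h : 4 ≤ r, σ = swap (Fin.castLE h 0) (Fin.castLE h 1) *
      swap (Fin.castLE h 2) (Fin.castLE h 3)) ∧ (r = 3 → σ ^ 3 = 1 ∧ ∀ i, σ i ≠ i) := by
    by_cases hr5 : 5 ≤ r
    · have hA := alternating_le_of_normal hr5 I0 hI0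
      have hIK : IK ≠ ⊥ := by
        intro h0
        have hcomm : IsMulCommutative (alternatingGroup (Fin r)) := by
          refine ⟨⟨fun a b => Subtype.ext ?_⟩⟩
          obtain ⟨a', ha', ea⟩ := hA a.2
          obtain ⟨b', hb', eb⟩ := hA b.2
          have h1 : ρ ⁅a', b'⁆ ∈ IK := Subgroup.mem_map_of_mem ρ (hcomN0 a' ha' b' hb')
          rw [h0, Subgroup.mem_bot, map_commutatorElement, ea, eb, commutatorElement_eq_one_iff_mul_comm] at h1
          exact h1
        have := alternatingGroup.isMulCommutative_iff_card_le_three.1 hcomm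
        rw [Nat.card_eq_fintype_card, Fintype.card_fin] at this
        omega
      have h4r : 4 ≤ r := by omega
      refine ⟨_, alternating_le_of_normal hr5 IK hIK ?_, fun _ => ⟨h4r, rfl⟩, fun h => by omega⟩
      rw [Perm.mem_alternatingGroup, map_mul,
        Perm.sign_swap (fun e => by simpa [Fin.ext_iff] using e),
        Perm.sign_swap (fun e => by simpa [Fin.ext_iff] using e)]
      simp
    · -- at most three orbits
      have h3 : ∀ a ∈ Γ, ∀ b ∈ Γ, ∀ c ∈ Γ, ∀ d ∈ Γ, b ∉ orb P a → c ∉ orb P a → c ∉ orb P b →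
          d ∈ orb P a ∨ d ∈ orb P b ∨ d ∈ orb P c := by
        intro a ha b hb c hc d hd hba hca hcb
        by_contra hcon
        simp only [not_or] at hcon
        have hne : ∀ {u v : α}, v ∉ orb P u → orb P u ≠ orb P v := fun {u v} h e =>
          h (e ▸ self_mem_orb P v)
        have hsub : ({orb P a, orb P b, orb P c, orb P d} : Finset (Finset α)) ⊆ O := by
          simp [Finset.insert_subset_iff, hOmem a ha, hOmem b hb, hOmem c hc, hOmem d hd]
        have h4c : ({orb P a, orb P b, orb P c, orb P d} : Finset (Finset α)).card = 4 := by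
          simp [hne hba, hne hca, hne hcb, hne hcon.1, hne hcon.2.1, hne hcon.2.2]
        have := Finset.card_le_card hsub
        omega
      have hkey : ∀ (g : N), ∀ s ∈ N0, ⁅g, s⁆ ∈ K := by
        intro g s hs
        have hgs : g * s * g⁻¹ ∈ N0 := Subgroup.Normal.conj_mem inferInstance s hs g
        obtain ⟨l, hl⟩ := ctx.exists_scalar hns h3 s.2 (hN0' s hs)
        refine ⟨?_, ?_⟩
        · rw [commutatorElement_def]; exact N0.mul_mem hgs (N0.inv_mem hs)
        · rw [SetLike.mem_coe, Subgroup.mem_toSubmonoid, Subgroup.mem_subgroupOf, Subgroup.mem_centralizer_iff]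
          intro u hu
          have hv : (g : G)⁻¹ * ((s : G)⁻¹ * u * s) * g ∈ P :=
            (Subgroup.mem_normalizer_iff''.1 g.2 _).1 ((Subgroup.mem_normalizer_iff''.1 s.2 u).1 hu)
          set w := (s : G)⁻¹ * u * s
          have hw : w ∈ P := (Subgroup.mem_normalizer_iff''.1 s.2 u).1 hu
          have e1 : (g : G) * ((s : G) * ((g : G)⁻¹ * w * g) * (s : G)⁻¹) * (g : G)⁻¹ = w ^ l := by
            rw [hl _ hv, ← conj_zpow]
            congr 1
            group
          have e2 : u = w ^ l := by rw [← hl w hw]; simp only [w]; group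
          rw [← e2] at e1
          have ec : ((⁅g, s⁆ : N) : G) = (g : G) * s * (g : G)⁻¹ * (s : G)⁻¹ := by
            rw [commutatorElement_def]; simp
          rw [ec]
          calc u * ((g : G) * s * (g : G)⁻¹ * (s : G)⁻¹)
              = (g : G) * ((s : G) * ((g : G)⁻¹ * w * g) * (s : G)⁻¹) * (g : G)⁻¹ *
                ((g : G) * s * (g : G)⁻¹ * (s : G)⁻¹) := by rw [e1]
            _ = _ := by simp only [w]; group
      obtain ⟨g0, σ0, hσ0, hne⟩ := commutator_mem hI0 hr3
      obtain ⟨g, rfl⟩ := hρsurj g0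
      obtain ⟨s, hs, rfl⟩ := hσ0
      set τ := ρ ⁅g, s⁆ with hτdef
      have hτ : τ ∈ IK := Subgroup.mem_map_of_mem ρ (hkey g s hs)
      have hτ1 : τ ≠ 1 := by rw [hτdef, map_commutatorElement]; exact hne
      have hτs : Perm.sign τ = 1 := by
        rw [hτdef, map_commutatorElement, commutatorElement_def, map_mul, map_mul, map_mul, map_inv, map_inv,
          mul_inv_cancel_comm, mul_inv_cancel]
      rcases (show r = 3 ∨ r = 4 by omega) with rfl | rfl
      · exact ⟨τ, hτ, fun h => by omega, fun _ => three_fixfree τ hτs hτ1⟩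
      · refine ⟨swap 0 1 * swap 2 3, ?_, fun _ => ⟨le_rfl, rfl⟩, fun h => by omega⟩
        rcases four_conj τ hτ1 with ⟨a, e⟩ | ⟨a, b, e⟩
        · exact e ▸ Subgroup.Normal.conj_mem ‹IK.Normal› τ hτ a
        · exact e ▸ IK.mul_mem (Subgroup.Normal.conj_mem ‹IK.Normal› τ hτ a)
            (Subgroup.Normal.conj_mem ‹IK.Normal› τ hτ b)
  obtain ⟨σ, ⟨g, ⟨hg0, hgC⟩, rfl⟩, hσ4, hσ3⟩ := hσ
  rw [SetLike.mem_coe, Subgroup.mem_toSubmonoid, Subgroup.mem_subgroupOf, Subgroup.mem_centralizer_iff] at hgC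
  set h : G := ((g : N) : G) ^ p with hh
  have hhΓ : ∀ b ∈ Γ, h • b = b := by
    intro b hb
    obtain ⟨u, hu, hub⟩ := mem_orb.1 (hN0' g hg0 b hb)
    have key : ∀ j : ℕ, ((g : N) : G) ^ j • b = u ^ j • b := by
      intro j
      induction j with
      | zero => simp
      | succ j ih =>
        rw [pow_succ', mul_smul, ih, ← mul_smul, ← hgC _ (P.pow_mem hu j), mul_smul, ← hub, ← mul_smul,
          ← pow_succ]
    rw [hh, key, hpowP u hu, one_smul]
  have hhx : ∀ i, h • x i = x ((ρ g ^ p) i) := fun i => by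
    rw [← map_pow, ← hρapp]; rfl
  have hhval : ∀ z, (h : G).1 z = h • z := fun _ => rfl
  rcases Nat.lt_or_ge r 4 with hr4 | hr4
  · -- a three-cycle
    obtain rfl : r = 3 := by omega
    obtain ⟨hc3, hfree⟩ := hσ3 rfl
    have hp3' : p ≠ 3 := fun e => hspec ⟨rfl, e⟩
    refine Perm.alternatingGroup_le_of_isPreprimitive_of_isThreeCycle_mem hprim (g := (h : G).1) ?_ (h : G).2
    rw [← _root_.card_support_eq_three_iff]
    have hsupp : (h : G).1.support = Finset.univ.map x := by
      ext z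
      simp only [Perm.mem_support, hhval, Finset.mem_map, Finset.mem_univ, true_and]
      constructor
      · intro hz
        exact not_not.1 fun hn' => hz (hhΓ z fun ⟨i, hi⟩ => hn' ⟨i, hi⟩)
      · rintro ⟨i, rfl⟩ hz
        rw [hhx] at hz
        have hi := x.injective hz
        have hpm : p % 3 = 1 ∨ p % 3 = 2 := by
          have : ¬ 3 ∣ p := fun hd => hp3' ((Nat.prime_dvd_prime_iff_eq Nat.prime_three hp).1 hd).symm
          omega
        rw [show p = 3 * (p / 3) + p % 3 from (Nat.div_add_mod p 3).symm, pow_add, pow_mul, hc3, one_pow,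
          one_mul] at hi
        rcases hpm with e | e <;> rw [e] at hi
        · rw [pow_one] at hi; exact hfree i hi
        · have h3 : ρ g ((ρ g ^ 2) i) = i := by
            rw [← Perm.mul_apply, ← pow_succ', hc3]; rfl
          rw [hi] at h3
          exact hfree i h3
    rw [hsupp, Finset.card_map, Finset.card_univ, Fintype.card_fin]
  · -- a double transposition
    obtain ⟨h4r, hσ⟩ := hσ4 hr4
    set A := Fin.castLE h4r 0
    set B := Fin.castLE h4r 1
    set C := Fin.castLE h4r 2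
    set D := Fin.castLE h4r 3
    have hnd : [A, B, C, D].Nodup := by simp [A, B, C, D, Fin.ext_iff]
    have hnd' : [x A, x B, x C, x D].Nodup := hnd.map x.injective
    have hsq : (ρ g) ^ 2 = 1 := by
      rw [hσ, pow_two]
      have hc : Commute (swap C D) (swap A B) := (Perm.disjoint_iff_disjoint_support.2 (by
        rw [Perm.support_swap (by simp [C, D, Fin.ext_iff]), Perm.support_swap (by simp [A, B, Fin.ext_iff])]
        simp [A, B, C, D, Fin.ext_iff])).commute
      rw [show swap A B * swap C D * (swap A B * swap C D) = swap A B * (swap C D * swap A B) * swap C D by group,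
        hc.eq, ← mul_assoc, swap_mul_self, one_mul, swap_mul_self]
    have hodd : p = 2 * (p / 2) + 1 := by
      have := hp.eq_two_or_odd
      omega
    have hpow : ρ g ^ p = ρ g := by rw [hodd, pow_succ, pow_mul, hsq, one_pow, one_mul]
    have heq : (h : G).1 = swap (x A) (x B) * swap (x C) (x D) := by
      ext z
      rw [hhval, Perm.mul_apply]
      by_cases hz : z ∈ Γ
      · have hz' : ∀ i, z ≠ x i := fun i e => hz ⟨i, e.symm⟩
        rw [hhΓ z hz, swap_apply_of_ne_of_ne (hz' C) (hz' D), swap_apply_of_ne_of_ne (hz' A) (hz' B)]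
      · obtain ⟨i, rfl⟩ := not_not.1 hz
        rw [hhx, hpow, hσ, Perm.mul_apply, ← x.swap_apply, ← x.swap_apply]
    exact alternating_of_double G hprim h4 (by omega) hnd' (heq ▸ (h : G).2)

end Main

end Cfsg.Agent.PermGroups.Miller
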