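import Mathlib

/-!
Invariant subgroups of a power of a non-abelian simple group: products or diagonals.
-/

set_option autoImplicit false

namespace Cfsg.Agent.PermGroups.ONanScottCore

variable {T : Type*} [Group T] [IsSimpleGroup T]

theorem map_single_eq {ι : Type*} [DecidableEq ι] {f : (ι → T) →* T} (hf : Function.Surjective f) (j : ι) :
    (f.comp (MonoidHom.mulSingle (fun _ : ι => T) j)).range = ⊥ ∨
      (f.comp (MonoidHom.mulSingle (fun _ : ι => T) j)).range = ⊤ := by
  refine Subgroup.Normal.eq_bot_or_eq_top ?_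
  constructor
  rintro _ ⟨u, rfl⟩ y
  obtain ⟨x, rfl⟩ := hf y
  refine ⟨x j * u * (x j)⁻¹, ?_⟩
  show f (Pi.mulSingle j (x j * u * (x j)⁻¹)) = f x * f (Pi.mulSingle j u) * (f x)⁻¹
  rw [← map_inv, ← map_mul, ← map_mul]
  congr 1
  ext i
  by_cases h : i = j
  · subst h; simp
  · simp [h]

/-- A surjection from a power of a non-abelian simple group to the group factors through one coordinate. -/
theorem exists_coord {ι : Type*} [Finite ι] (hT : ¬ IsMulCommutative T) {f : (ι → T) →* T}
    (hf : Function.Surjective f) : ∃ (j : ι) (θ : T ≃* T), ∀ x, f x = θ (x j) := by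
  classical
  haveI := Fintype.ofFinite ι
  set g : ι → T →* T := fun j => f.comp (MonoidHom.mulSingle (fun _ : ι => T) j)
  obtain ⟨j, hj⟩ : ∃ j, (g j).range = ⊤ := by
    by_contra hcon
    push Not at hcon
    have hbot : ∀ i, (g i).range = ⊥ := fun i => (map_single_eq hf i).resolve_right (hcon i)
    have hf1 : f = 1 := MonoidHom.pi_ext fun i u => by
      have : g i u ∈ (g i).range := ⟨u, rfl⟩
      rw [hbot, Subgroup.mem_bot] at this
      rw [MonoidHom.one_apply]; exact this
    obtain ⟨t, ht⟩ := exists_ne (1 : T)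
    obtain ⟨x, hx⟩ := hf t
    exact ht (by rw [← hx, hf1]; rfl)
  have huniq : ∀ i, i ≠ j → (g i).range = ⊥ := by
    intro i hij
    refine (map_single_eq hf i).resolve_right fun hi => hT ?_
    refine ⟨⟨fun u v => ?_⟩⟩
    obtain ⟨u', rfl⟩ : u ∈ (g i).range := hi ▸ Subgroup.mem_top u
    obtain ⟨v', rfl⟩ : v ∈ (g j).range := hj ▸ Subgroup.mem_top v
    exact ((Pi.mulSingle_commute (f := fun _ : ι => T) hij u' v').map f).eq
  have hinj : Function.Injective (g j) := by
    rw [← MonoidHom.ker_eq_bot_iff]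
    refine (Subgroup.Normal.eq_bot_or_eq_top (inferInstance : (g j).ker.Normal)).resolve_right fun h => ?_
    obtain ⟨t, ht⟩ := exists_ne (1 : T)
    obtain ⟨u, hu⟩ : t ∈ (g j).range := hj ▸ Subgroup.mem_top t
    exact ht (hu ▸ (show g j u = 1 from h.ge (Subgroup.mem_top u)))
  let θ : T ≃* T := MulEquiv.ofBijective (g j) ⟨hinj, MonoidHom.range_eq_top.1 hj⟩
  have hfθ : f = θ.toMonoidHom.comp (Pi.evalMonoidHom (fun _ : ι => T) j) := MonoidHom.pi_ext fun i u => by
    by_cases h : i = j
    · subst h
      show f (Pi.mulSingle i u) = θ ((Pi.mulSingle i u : ι → T) i)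
      rw [Pi.mulSingle_eq_same]; rfl
    · have : g i u ∈ (g i).range := ⟨u, rfl⟩
      rw [huniq i h, Subgroup.mem_bot] at this
      refine this.trans ?_
      simp [Pi.mulSingle_eq_of_ne (Ne.symm h)]
  exact ⟨j, θ, fun x => by rw [hfθ]; rfl⟩

variable {ι : Type*} [Finite ι] (hT : ¬ IsMulCommutative T)

include hT

/-- An automorphism permutes the coordinates. -/
theorem exists_perm (σ : (ι → T) ≃* (ι → T)) :
    ∃ (π : ι → ι) (θ : ι → T ≃* T), Function.Bijective π ∧ ∀ x i, σ x i = θ i (x (π i)) := by
  classical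
  have h : ∀ i, ∃ (j : ι) (θ : T ≃* T), ∀ x, σ x i = θ (x j) := fun i =>
    exists_coord hT (f := (Pi.evalMonoidHom (fun _ : ι => T) i).comp σ.toMonoidHom) fun t =>
      ⟨σ.symm (Pi.mulSingle i t), by simp⟩
  choose π θ hπ using h
  refine ⟨π, θ, (Finite.surjective_iff_bijective).1 fun j => ?_, fun x i => hπ i x⟩
  by_contra hj
  push Not at hj
  obtain ⟨t, ht⟩ := exists_ne (1 : T)
  have h1 : σ (Pi.mulSingle j t) = 1 := funext fun i => by
    rw [hπ, Pi.mulSingle_eq_of_ne (hj i), map_one]; rfl
  rw [map_eq_one_iff σ σ.injective, Pi.mulSingle_eq_one_iff] at h1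
  exact ht h1

/-- Distinct surjections to a non-abelian simple group are independent. -/
theorem independent {L : Type*} [Group L] [Finite L] [Finite T] (f : ι → L →* T) (hf : ∀ i, Function.Surjective (f i))
    (S : Finset ι) : ∀ i, i ∉ S → (∀ j ∈ S, (f j).ker ≠ (f i).ker) → (S.inf fun j => (f j).ker).map (f i) = ⊤ := by
  classical
  induction S using Finset.induction with
  | empty => intro i _ _; simpa [← MonoidHom.range_eq_map] using MonoidHom.range_eq_top.2 (hf i)
  | insert j S hjS ih =>
    intro i hi hne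
    rw [Finset.mem_insert, not_or] at hi
    set A := S.inf fun j => (f j).ker
    have hA := ih i hi.2 fun l hl => hne l (Finset.mem_insert_of_mem hl)
    have hAn : A.Normal := by
      refine ⟨fun x hx y => ?_⟩
      simp only [A, Finset.inf_eq_iInf, Subgroup.mem_iInf, MonoidHom.mem_ker] at hx ⊢
      intro l hl
      simp [hx l hl]
    have hKj : (f j).ker.map (f i) = ⊤ := by
      refine (Subgroup.Normal.eq_bot_or_eq_top (Subgroup.Normal.map inferInstance _ (hf i))).resolve_left fun hb => ?_
      refine hne j (Finset.mem_insert_self j S) (Subgroup.eq_of_le_of_card_ge ((Subgroup.map_eq_bot_iff _).1 hb) ?_)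
      have e1 := (f j).ker.card_mul_index
      have e2 := (f i).ker.card_mul_index
      rw [Subgroup.index_ker, MonoidHom.range_eq_top.2 (hf _), Subgroup.card_top] at e1 e2
      exact (Nat.eq_of_mul_eq_mul_right Nat.card_pos (e2.trans e1.symm)).le
    rw [Finset.inf_insert]
    refine (Subgroup.Normal.eq_bot_or_eq_top (Subgroup.Normal.map inferInstance _ (hf i))).resolve_left fun hb => hT ?_
    refine ⟨⟨fun u v => ?_⟩⟩
    obtain ⟨a, ha, rfl⟩ : u ∈ A.map (f i) := hA ▸ Subgroup.mem_top u
    obtain ⟨c, hc, rfl⟩ : v ∈ (f j).ker.map (f i) := hKj ▸ Subgroup.mem_top v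
    have hm : f i (a * c * a⁻¹ * c⁻¹) ∈ ((f j).ker ⊓ A).map (f i) := by
      refine Subgroup.mem_map_of_mem _ ⟨?_, ?_⟩
      · exact Subgroup.mul_mem _ ((inferInstance : (f j).ker.Normal).conj_mem c hc a) (Subgroup.inv_mem _ hc)
      · rw [show a * c * a⁻¹ * c⁻¹ = a * (c * a⁻¹ * c⁻¹) by group]
        exact A.mul_mem ha (hAn.conj_mem _ (A.inv_mem ha) c)
    rw [hb, Subgroup.mem_bot, map_mul, map_mul, map_mul, map_inv, map_inv, mul_inv_eq_one, mul_inv_eq_iff_eq_mul] at hm
    exact hm

/-- Products or diagonals. -/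
theorem main {K : Type*} (σ : K → (ι → T) ≃* (ι → T)) (L : Subgroup (ι → T)) [Finite T] [Nonempty ι]
    (hinv : ∀ k, L.map (σ k).toMonoidHom = L) (hL : L ≠ ⊤)
    (hmax : ∀ X : Subgroup (ι → T), L ≤ X → (∀ k, X.map (σ k).toMonoidHom = X) → X = L ∨ X = ⊤)
    (hmin : ∀ S : Subgroup (ι → T), S.Normal → (∀ k, S.map (σ k).toMonoidHom = S) → S = ⊥ ∨ S = ⊤) :
    (∃ R : ι → Subgroup T, (∀ i, R i ≠ ⊤) ∧ ∀ x, x ∈ L ↔ ∀ i, x i ∈ R i) ∨
    (∃ (k : ℕ) (c : ι → ι) (θ : ι → T ≃* T), 2 ≤ k ∧
      (∀ j, Nat.card {i : ι // c i = j} = k ∨ Nat.card {i : ι // c i = j} = 0) ∧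
      ∀ x, x ∈ L ↔ ∀ i j, c i = c j → θ i (x i) = θ j (x j)) := by
  classical
  haveI := Fintype.ofFinite ι
  choose π θ hπb hπ using fun k => exists_perm hT (σ k)
  have hmemL : ∀ k x, σ k x ∈ L ↔ x ∈ L := fun k x => by
    constructor
    · intro h
      rw [← hinv k] at h
      obtain ⟨y, hy, e⟩ := h
      rwa [← (σ k).injective e]
    · exact fun h => hinv k ▸ Subgroup.mem_map_of_mem _ h
  -- an invariant set of coordinates is trivial
  have hJ : ∀ J : Set ι, (∀ k i, i ∈ J ↔ π k i ∈ J) → J = ∅ ∨ J = Set.univ := by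
    intro J hJ
    let S : Subgroup (ι → T) :=
      { carrier := {x | ∀ i, i ∉ J → x i = 1}
        one_mem' := fun i _ => rfl
        mul_mem' := fun hu hv i hi => by rw [Pi.mul_apply, hu i hi, hv i hi, one_mul]
        inv_mem' := fun hu i hi => by rw [Pi.inv_apply, hu i hi, inv_one] }
    have hSn : S.Normal := ⟨fun x hx y i hi => by simp [hx i hi]⟩
    have hle : ∀ k, S.map (σ k).toMonoidHom ≤ S := by
      rintro k _ ⟨x, hx, rfl⟩ i hi
      show σ k x i = 1
      rw [hπ, hx _ (fun h => hi ((hJ k i).2 h)), map_one]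
    have hS : ∀ k, S.map (σ k).toMonoidHom = S := fun k =>
      Subgroup.eq_of_le_of_card_ge (hle k) (Subgroup.card_map_of_injective (σ k).injective).ge
    obtain ⟨t, ht⟩ := exists_ne (1 : T)
    rcases hmin S hSn hS with h | h
    · left
      refine Set.eq_empty_iff_forall_notMem.2 fun i hi => ht ?_
      have hm : Pi.mulSingle i t ∈ S := fun l hl => Pi.mulSingle_eq_of_ne (fun e => hl (by rw [e]; exact hi)) _
      rw [h, Subgroup.mem_bot, Pi.mulSingle_eq_one_iff] at hm
      exact hm
    · right
      refine Set.eq_univ_iff_forall.2 fun i => ?_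
      by_contra hi
      have := (h.ge (Subgroup.mem_top (Pi.mulSingle i t))) i hi
      rw [Pi.mulSingle_eq_same] at this
      exact ht this
  -- the projections
  set f : ι → L →* T := fun i => (Pi.evalMonoidHom (fun _ : ι => T) i).comp L.subtype
  have htrans : ∀ k i, (f i).range = (f (π k i)).range.map (θ k i).toMonoidHom := by
    intro k i
    ext u
    constructor
    · rintro ⟨y, rfl⟩
      obtain ⟨x, hx⟩ := (σ k).surjective (y : ι → T)
      refine ⟨x (π k i), ⟨⟨x, (hmemL k x).1 (hx ▸ y.2)⟩, rfl⟩, ?_⟩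
      show θ k i (x (π k i)) = (y : ι → T) i
      rw [← hπ, hx]
    · rintro ⟨_, ⟨x, rfl⟩, rfl⟩
      exact ⟨⟨σ k x, (hmemL k x).2 x.2⟩, hπ k x i⟩
  rcases hJ {i | (f i).range = ⊤} (fun k i => by
    simp only [Set.mem_setOf_eq]
    rw [htrans k i]
    constructor
    · intro h
      exact Subgroup.map_injective (f := (θ k i).toMonoidHom) (θ k i).injective
        (h.trans (Subgroup.map_top_of_surjective _ (θ k i).surjective).symm)
    · intro h
      rw [h, Subgroup.map_top_of_surjective _ (θ k i).surjective]) with hJ' | hJ'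
  · left
    have hne : ∀ i, (f i).range ≠ ⊤ := fun i h => (Set.eq_empty_iff_forall_notMem.1 hJ') i h
    let X : Subgroup (ι → T) :=
      { carrier := {x | ∀ i, x i ∈ (f i).range}
        one_mem' := fun i => Subgroup.one_mem _
        mul_mem' := fun hu hv i => Subgroup.mul_mem _ (hu i) (hv i)
        inv_mem' := fun hu i => Subgroup.inv_mem _ (hu i) }
    have hLX : L ≤ X := fun x hx i => ⟨⟨x, hx⟩, rfl⟩
    have hXk : ∀ k, X.map (σ k).toMonoidHom = X := fun k => by
      refine Subgroup.eq_of_le_of_card_ge ?_ (Subgroup.card_map_of_injective (σ k).injective).ge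
      rintro _ ⟨x, hx, rfl⟩ i
      rw [htrans k i]
      exact ⟨x (π k i), hx _, (hπ k x i).symm⟩
    rcases hmax X hLX hXk with h | h
    · exact ⟨fun i => (f i).range, hne, fun x => ⟨fun hx => hLX hx, fun hx => h.le hx⟩⟩
    · exfalso
      obtain ⟨i⟩ := ‹Nonempty ι›
      refine hne i (eq_top_iff.2 fun t _ => ?_)
      have := (h.ge (Subgroup.mem_top (Pi.mulSingle i t))) i
      rwa [Pi.mulSingle_eq_same] at this
  · right
    have hsurj : ∀ i, Function.Surjective (f i) := fun i =>
      MonoidHom.range_eq_top.1 ((Set.eq_univ_iff_forall.1 hJ') i)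
    -- classes of equal kernels
    let r : Setoid ι := Setoid.ker fun i => (f i).ker
    let c : ι → ι := fun i => (Quotient.mk r i).out
    have hc1 : ∀ i, (f (c i)).ker = (f i).ker := fun i => Quotient.exact (Quotient.out_eq (Quotient.mk r i))
    have hc2 : ∀ i j, c i = c j ↔ (f i).ker = (f j).ker := fun i j =>
      ⟨fun h => by rw [← hc1 i, h, hc1 j], fun h => by
        show (Quotient.mk r i).out = (Quotient.mk r j).out
        rw [show Quotient.mk r i = Quotient.mk r j from Quotient.sound h]⟩
    have hcc : ∀ i, c (c i) = c i := fun i => (hc2 _ _).2 (hc1 i)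
    have hθ : ∀ i, ∃ e : T ≃* T, ∀ x : L, e (f i x) = f (c i) x := by
      intro i
      let e : T ≃* T := (QuotientGroup.quotientKerEquivOfSurjective (f i) (hsurj i)).symm.trans
        ((QuotientGroup.quotientMulEquivOfEq (hc1 i).symm).trans
          (QuotientGroup.quotientKerEquivOfSurjective (f (c i)) (hsurj _)))
      refine ⟨e, fun x => ?_⟩
      have e1 : (QuotientGroup.quotientKerEquivOfSurjective (f i) (hsurj i)).symm (f i x) = (x : L ⧸ (f i).ker) := by
        rw [MulEquiv.symm_apply_eq]; rfl
      simp only [e, MulEquiv.trans_apply, e1]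
      rfl
    choose η hη using hθ
    have hmem : ∀ x, x ∈ L ↔ ∀ i j, c i = c j → η i (x i) = η j (x j) := by
      intro x
      constructor
      · intro hx i j hij
        rw [show x i = f i ⟨x, hx⟩ from rfl, show x j = f j ⟨x, hx⟩ from rfl, hη, hη, hij]
      · intro hx
        -- every vector on the representatives comes from `L`
        have hsingle : ∀ i, ∀ t, ∃ y : L, (f (c i)) y = t ∧ ∀ j, c j ≠ c i → f j y = 1 := by
          intro i t
          have hind := independent hT f hsurj ((Finset.univ : Finset ι).filter fun j => c j ≠ c i) (c i)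
            (by simp [hcc]) (fun j hj => by
              simp only [Finset.mem_filter, Finset.mem_univ, true_and] at hj
              rw [hc1]; exact fun h => hj ((hc2 _ _).2 h))
          obtain ⟨y, hy, hyt⟩ : t ∈ Subgroup.map (f (c i)) _ := hind.ge (Subgroup.mem_top t)
          refine ⟨y, hyt, fun j hj => ?_⟩
          rw [SetLike.mem_coe, Finset.inf_eq_iInf, Subgroup.mem_iInf] at hy
          have := hy j
          rw [Subgroup.mem_iInf] at this
          exact this (by simp [hj])
        -- agree on a growing set of classes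
        have main : ∀ S : Finset ι, ∃ y : L, ∀ i ∈ S, f i y = x i := by
          intro S
          induction S using Finset.induction with
          | empty => exact ⟨1, by simp⟩
          | insert l S hl ih =>
            obtain ⟨y, hy⟩ := ih
            obtain ⟨z, hz1, hz2⟩ := hsingle l ((f (c l) y)⁻¹ * η l (x l))
            refine ⟨y * z, fun i hi => ?_⟩
            by_cases hil : c i = c l
            · apply (η i).injective
              rw [hη, hil, map_mul, hz1, mul_inv_cancel_left]
              exact hx l i hil.symm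
            · rw [map_mul, hz2 i hil, mul_one]
              exact hy i ((Finset.mem_insert.1 hi).resolve_left fun e => hil (by rw [e]))
        obtain ⟨y, hy⟩ := main Finset.univ
        have : (y : ι → T) = x := funext fun i => hy i (Finset.mem_univ i)
        exact this ▸ y.2
    -- equal class sizes
    have hcls : ∀ k i j, c i = c j → c (π k i) = c (π k j) := by
      intro k i j h
      rw [hc2] at h ⊢
      ext y
      have e1 : ∀ l, f (π k l) y = 1 ↔ f l ⟨σ k y, (hmemL k y).2 y.2⟩ = 1 := fun l => by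
        show (y : ι → T) (π k l) = 1 ↔ σ k y l = 1
        rw [hπ, map_eq_one_iff _ (θ k l).injective]
      rw [MonoidHom.mem_ker, MonoidHom.mem_ker, e1, e1]
      exact SetLike.ext_iff.1 h _
    let cls : ι → ℕ := fun i => Nat.card {l : ι // c l = c i}
    have hsz : ∀ k i, cls i ≤ cls (π k i) := fun k i =>
      Nat.card_le_card_of_injective (fun l : {l : ι // c l = c i} => (⟨π k l, hcls k _ _ l.2⟩ : {l : ι // c l = c (π k i)}))
        fun l l' e => Subtype.ext ((hπb k).1 (congrArg Subtype.val e))
    obtain ⟨i₀, -, hi₀⟩ := Finset.exists_max_image Finset.univ cls Finset.univ_nonempty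
    have hall : ∀ i, cls i = cls i₀ := by
      have hinvJ : ∀ k i, i ∈ {i | cls i = cls i₀} ↔ π k i ∈ {i | cls i = cls i₀} := by
        intro k i
        have hfwd : ∀ l, l ∈ {i | cls i = cls i₀} → π k l ∈ {i | cls i = cls i₀} := fun l hl =>
          le_antisymm (hi₀ _ (Finset.mem_univ _)) (hl ▸ hsz k l)
        refine ⟨hfwd i, fun h => ?_⟩
        let ψ : {i | cls i = cls i₀} → {i | cls i = cls i₀} := fun l => ⟨π k l, hfwd l l.2⟩
        obtain ⟨l, hl⟩ := (Finite.injective_iff_surjective.1 (fun u v e => Subtype.ext ((hπb k).1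
          (congrArg Subtype.val e)) : Function.Injective ψ)) ⟨π k i, h⟩
        rw [← (hπb k).1 (congrArg Subtype.val hl)]
        exact l.2
      rcases hJ _ hinvJ with h | h
      · exact absurd (show i₀ ∈ {i | cls i = cls i₀} from rfl) (by rw [h]; exact id)
      · exact fun i => (Set.eq_univ_iff_forall.1 h) i
    refine ⟨cls i₀, c, η, ?_, fun j => ?_, hmem⟩
    · by_contra h
      apply hL
      refine eq_top_iff.2 fun x _ => (hmem x).2 fun i j hij => ?_
      have h1 : Nat.card {l : ι // c l = c i} ≤ 1 := by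
        show cls i ≤ 1
        rw [hall]; omega
      have hsub := Finite.card_le_one_iff_subsingleton.1 h1
      have : (⟨i, rfl⟩ : {l : ι // c l = c i}) = ⟨j, hij.symm⟩ := Subsingleton.elim _ _
      rw [show i = j from congrArg Subtype.val this]
    · by_cases h : ∃ i, c i = j
      · obtain ⟨i, rfl⟩ := h
        exact Or.inl (hall i)
      · right
        push Not at h
        haveI : IsEmpty {i : ι // c i = j} := ⟨fun u => h u.1 u.2⟩
        exact Nat.card_of_isEmpty

end Cfsg.Agent.PermGroups.ONanScottCore
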