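import Cfsg.Agent.Blocks.Orth
import Cfsg.Agent.Blocks.Brauer
import Cfsg.Agent.Blocks.Nilp
import Cfsg.Agent.Blocks.Graph
import Cfsg.Agent.Blocks.Defect

/-! A local criterion for a group to have a single block, and mean values of characters on
elements of prime order. -/

set_option autoImplicit false

open scoped ComplexConjugate

namespace Cfsg.Agent.PermGroups.OneBlock

open Cfsg Cfsg.Agent

universe u

variable {G : Type u} [Group G] {p : ℕ} [Fact p.Prime] {M : Ideal AlgInt}

/-- A self-centralising normal `p`-subgroup forces a single block. -/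
theorem sameBlock_of_normal [Finite G] (hM : IsPModular p M) (Q : Subgroup G) (hn : Q.Normal)
    (hQ : IsPGroup p Q) (hC : Subgroup.centralizer (Q : Set G) ≤ Q) (χ ψ : IrrCharacter G) :
    SameBlock M (χ : G → ℂ) (ψ : G → ℂ) := by
  classical
  haveI := Fintype.ofFinite G
  haveI : M.IsMaximal := hM.2.1
  have hpM := hM.2.2
  by_contra hne
  set B := blockOf M (χ : G → ℂ)
  have hB : IsPBlock M B := Blocks.isPBlock_blockOf χ
  set f : G → ℂ := blockCoeff B - (blockCoeff B 1) • Blocks.delta G with hf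
  have hcls : IsClassFunction G f := fun x a => by
    simp only [hf, Pi.sub_apply, Pi.smul_apply]
    rw [Blocks.isClassFunction_blockCoeff B x a, Blocks.isClassFunction_delta x a]
  have hfR : Blocks.RFun M f := Blocks.rFun_sub (Blocks.rFun_blockCoeff hpM hB)
    (Blocks.rFun_smul (Blocks.rFun_blockCoeff hpM hB 1) Blocks.rFun_delta)
  have hv : ∀ x ∈ Subgroup.centralizer (Q : Set G), MemLocalIdeal M (f x) := by
    intro x hx
    by_cases hx1 : x = 1
    · subst hx1; simp [hf, Blocks.delta_one, Blocks.memI_zero]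
    · have h0 : blockCoeff B x = 0 := Blocks.blockCoeff_eq_zero_of_dvd hpM hB
        (Blocks.p_dvd_orderOf hQ (hC hx) hx1)
      simp [hf, h0, Blocks.delta_of_ne hx1, Blocks.memI_zero]
  have key : ∀ φ : IrrCharacter G,
      MemLocalIdeal M (Blocks.omega (φ : G → ℂ) (blockCoeff B) - blockCoeff B 1) := fun φ => by
    have := Blocks.omega_memI_of_vanish hpM hn hQ φ hcls hfR hv
    rwa [hf, Blocks.omega_sub, Blocks.omega_smul,
      Blocks.omega_delta (Chars.irr_apply_one_ne_zero φ.2), mul_one] at this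
  have h1 := key χ
  have h2 := key ψ
  rw [Blocks.omega_blockCoeff_mem (Blocks.mem_blockOf_self χ)] at h1
  rw [Blocks.omega_blockCoeff_not_mem (show ψ ∉ B from hne)] at h2
  have := Blocks.memI_sub h1 h2
  rw [sub_sub_sub_cancel_right, sub_zero] at this
  exact Blocks.not_memI_one this

/-- Without blocks of defect zero, single blocks in centralisers of elements of order `p` give a
single block. -/
theorem sameBlock_of_local [Finite G] (hM : IsPModular p M)
    (hloc : ∀ t : G, orderOf t = p → ∃ c : G,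
      ∀ χ ψ : IrrCharacter (Subgroup.centralizer ({c * t * c⁻¹} : Set G)),
        SameBlock M (χ : Subgroup.centralizer ({c * t * c⁻¹} : Set G) → ℂ)
          (ψ : Subgroup.centralizer ({c * t * c⁻¹} : Set G) → ℂ))
    (hdef : ∀ χ : IrrCharacter G,
      (charDegree (χ : G → ℂ)).factorization p < (Nat.card G).factorization p)
    (χ ψ : IrrCharacter G) : SameBlock M (χ : G → ℂ) (ψ : G → ℂ) := by
  classical
  haveI := Fintype.ofFinite G
  haveI : M.IsMaximal := hM.2.1
  have hpM := hM.2.2
  suffices h : ∀ φ : IrrCharacter G, SameBlock M (φ : G → ℂ) (Blocks.oneChar G : G → ℂ) from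
    Blocks.sameBlock_trans (h χ) (Blocks.sameBlock_symm (h ψ))
  intro φ
  by_contra hne
  set B := blockOf M (φ : G → ℂ)
  have hB : IsPBlock M B := Blocks.isPBlock_blockOf φ
  obtain ⟨D, hD⟩ := Blocks.exists_isDefectGroup hpM hB
  have hDp : p ∣ Nat.card D := by
    rw [Blocks.card_defectGroup hpM hB hD]
    refine dvd_pow_self _ ?_
    have h1 : sInf ((fun χ : IrrCharacter G => (charDegree (χ : G → ℂ)).factorization p) '' B) ≤
        (charDegree (φ : G → ℂ)).factorization p :=
      Nat.sInf_le (Set.mem_image_of_mem _ (Blocks.mem_blockOf_self φ))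
    have h2 := hdef φ
    simp only [blockDefect]
    omega
  obtain ⟨t, ht⟩ := exists_prime_orderOf_dvd_card' (G := D) p hDp
  rw [← Subgroup.orderOf_coe] at ht
  obtain ⟨c, hc⟩ := hloc t ht
  have hD' : IsDefectGroup p M B (Blocks.conjSub c D) := Blocks.isDefectGroup_conj hD c
  set s : G := c * (t : G) * c⁻¹ with hs
  have hsD : s ∈ Blocks.conjSub c D := by
    rw [Blocks.mem_conjSub, hs]
    simpa [mul_assoc] using t.2
  obtain ⟨g, hg, hgD⟩ := Blocks.isDefectGroup_iff.1 hD'
  have hgs : g * s = s * g := (Subgroup.mem_centralizer_singleton_iff.1 (hgD.1 hsD)).symm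
  set H := Subgroup.centralizer ({s} : Set G) with hH
  haveI : Fintype H := Fintype.ofFinite _
  set P := Subgroup.zpowers s with hPdef
  have hCP : Subgroup.centralizer (P : Set G) = H := by
    rw [hH, hPdef, Subgroup.zpowers_eq_closure, Subgroup.centralizer_closure]
  have hP : IsPGroup p P := by
    refine IsPGroup.of_card (n := 1) ?_
    rw [Nat.card_zpowers, pow_one, hs]
    exact ((MulAut.conj c).orderOf_eq (t : G)).trans ht
  have hHN : H ≤ Subgroup.normalizer (P : Set G) := by
    intro x hx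
    rw [← hCP, Subgroup.mem_centralizer_iff] at hx
    rw [Subgroup.mem_normalizer_iff]
    intro q
    constructor
    · intro hq
      rwa [← hx q hq, mul_inv_cancel_right]
    · intro hq
      have h1 := hx _ hq
      have h2 : q = x * q * x⁻¹ := by
        calc q = x⁻¹ * ((x * q * x⁻¹) * x) := by group
          _ = x⁻¹ * (x * (x * q * x⁻¹)) := by rw [h1]
          _ = x * q * x⁻¹ := by group
      rw [h2]; exact hq
  set e := blockCoeff B with he
  have hecls : IsClassFunction G e := Blocks.isClassFunction_blockCoeff B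
  have heR : Blocks.RFun M e := Blocks.rFun_blockCoeff hpM hB
  set h := Blocks.brRes H P e with hh
  have hhcls : IsClassFunction H h := Blocks.isClassFunction_brRes H hHN hecls
  have hhR : Blocks.RFun M h := Blocks.rFun_brRes H P heR
  have hval : ∀ k : H, h k = e k := fun k => Blocks.brRes_of_mem H P e (hCP.symm ▸ k.2)
  -- the central characters of the image vanish
  have hone : MemLocalIdeal M (Blocks.omega ((Blocks.oneChar H : IrrCharacter H) : H → ℂ) h) := by
    have h1 := Blocks.conv_congr hpM hP (Subgroup.one_mem _) heR (h := fun _ => (1 : ℂ))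
      (fun _ => Blocks.memR_one) (fun q x => hecls x q) (fun _ _ => rfl)
    have h0 : Blocks.conv e (fun _ => (1 : ℂ)) 1 = 0 := by
      have h2 := Blocks.omega_blockCoeff_not_mem (B := B) (χ := Blocks.oneChar G)
        (show Blocks.oneChar G ∉ B from hne)
      simpa [Blocks.omega, Blocks.conv, Blocks.coe_oneChar] using h2
    rw [h0, zero_sub] at h1
    have h3 := Blocks.memI_neg h1
    rw [neg_neg] at h3
    convert h3 using 1
    simp only [Blocks.omega, Blocks.coe_oneChar, mul_one, div_one, hval]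
    exact (Finset.sum_subtype (Finset.univ.filter (· ∈ Subgroup.centralizer (P : Set G)))
      (fun x => by simp [hCP]) fun x => e x).symm
  have hall : ∀ ξ : IrrCharacter H, MemLocalIdeal M (Blocks.omega (ξ : H → ℂ) h) := fun ξ => by
    have h1 := Blocks.omega_congr (hc ξ (Blocks.oneChar H)) hhcls hhR
    have := Blocks.memI_add h1 hone
    rwa [sub_add_cancel] at this
  obtain ⟨N, hN⟩ := Blocks.exists_cpow_iFun hpM hhcls hall
  -- idempotency
  have hidem : Blocks.IFun M (Blocks.conv h h - h) := fun k => by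
    have hkC : (k : G) ∈ Subgroup.centralizer (P : Set G) := hCP.symm ▸ k.2
    have h1 := Blocks.conv_congr hpM hP hkC heR heR (fun q x => hecls x q) (fun q x => hecls x q)
    rw [he, Blocks.blockCoeff_idem] at h1
    have h2 := Blocks.memI_neg h1
    rw [neg_sub] at h2
    rw [Pi.sub_apply, hval k]
    convert h2 using 1
    congr 1
    simp only [Blocks.conv, hval, ← he, Subgroup.coe_mul, Subgroup.coe_inv]
    exact (Finset.sum_subtype (Finset.univ.filter (· ∈ Subgroup.centralizer (P : Set G)))
      (fun x => by simp [hCP]) fun x => e x * e (x⁻¹ * (k : G))).symm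
  have hpow : ∀ n, Blocks.IFun M (Blocks.cpow h (n + 1) - h) := by
    intro n
    induction n with
    | zero =>
      intro k
      simp [Blocks.cpow, Blocks.delta_conv, Blocks.memI_zero]
    | succ n ih =>
      have h1 := Blocks.iFun_conv_left ih hhR
      rw [Blocks.conv_sub_left] at h1
      intro k
      have := Blocks.memI_add (h1 k) (hidem k)
      simpa [Blocks.cpow] using this
  have hN1 : Blocks.IFun M (Blocks.cpow h (N + 1)) := Blocks.iFun_conv_left hN hhR
  have hgH : g ∈ H := Subgroup.mem_centralizer_singleton_iff.2 hgs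
  refine hg.2.1 ?_
  have := Blocks.memI_sub (hN1 ⟨g, hgH⟩) (hpow N ⟨g, hgH⟩)
  simpa [hval] using this

/-- The value of a `p`-defect zero character at an element with centraliser of order divisible by
`p` lies in the ideal. -/
theorem memI_value [Finite G] (hM : IsPModular p M) (χ : IrrCharacter G)
    (hdef : (Nat.card G).factorization p ≤ (charDegree (χ : G → ℂ)).factorization p) {g : G}
    (hg : p ∣ Nat.card (Subgroup.centralizer ({g} : Set G))) : MemLocalIdeal M ((χ : G → ℂ) g) := by
  classical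
  haveI := Fintype.ofFinite G
  haveI : M.IsMaximal := hM.2.1
  by_contra h
  have h1 := Blocks.degree_le_of_unit_value hM.2.2 χ h
  have h2 := Blocks.index_factorization (p := p) g
  have h3 := (Fact.out : p.Prime).factorization_pos_of_dvd Nat.card_pos.ne' hg
  omega

section Mean

variable {l : ℕ} [hl : Fact l.Prime] {x : G}

/-- Multiplicities of eigenvalues and the mean square of a character on a subgroup of prime order. -/
theorem exists_mult [Finite G] (hx : x ^ l = 1) (χ : IrrCharacter G) :
    ∃ m : ZMod l → ℕ, charDegree (χ : G → ℂ) = ∑ k, m k ∧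
      (∑ j : ZMod l, Complex.normSq ((χ : G → ℂ) (x ^ j.val)) = l * ∑ k, (m k : ℝ) ^ 2) ∧
      (∀ r : ZMod l, r ≠ 0 → IsConj x (x ^ r.val) → ∀ k, m (r * k) = m k) ∧
      ((χ : G → ℂ) x = ∑ k, (m k : ℂ) * ZMod.stdAddChar k) := by
  classical
  haveI := Fintype.ofFinite G
  let ω : AddChar (ZMod l) ℂ := ZMod.stdAddChar
  have hω : ω.IsPrimitive := ZMod.isPrimitive_stdAddChar l
  have horth : ∀ b : ZMod l, ∑ j, ω (j * b) = if b = 0 then (l : ℂ) else 0 := fun b => by
    rw [AddChar.sum_mulShift b hω, ZMod.card]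
    split_ifs <;> simp
  have hz : ∀ z : ℂ, z ^ l = 1 → ∃ k, z = ω k := by
    intro z hz
    have hprim : IsPrimitiveRoot (ω 1) l := by
      refine ⟨by rw [← AddChar.map_nsmul_eq_pow, nsmul_eq_mul, ZMod.natCast_self, zero_mul,
          AddChar.map_zero_eq_one], fun n hn => ?_⟩
      rw [← AddChar.map_nsmul_eq_pow, nsmul_eq_mul, mul_one] at hn
      rw [← ZMod.natCast_eq_zero_iff]
      by_contra hne
      exact hne ((AddChar.IsPrimitive.zmod_char_eq_one_iff l hω (n : ZMod l)).1 hn)
    obtain ⟨i, -, hi⟩ := hprim.eq_pow_of_pow_eq_one hz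
    exact ⟨(i : ZMod l), by rw [← hi, ← AddChar.map_nsmul_eq_pow, nsmul_eq_mul, mul_one]⟩
  obtain ⟨n, ρ, hirr, hχ⟩ := χ.2
  obtain ⟨z, hz1, hzs, -, -⟩ := Chars.exists_eigenvalues ρ x
  have hzl : ∀ i, z i ^ l = 1 := fun i => by
    have h1 := hz1 i
    obtain ⟨a, ha⟩ := orderOf_dvd_of_pow_eq_one hx
    rw [ha, pow_mul, h1, one_pow]
  choose f hf using fun i => hz (z i) (hzl i)
  let m : ZMod l → ℕ := fun k => (Finset.univ.filter fun i => f i = k).card
  have hm : ∀ j : ZMod l, (χ : G → ℂ) (x ^ j.val) = ∑ k, (m k : ℂ) * ω (j * k) := by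
    intro j
    rw [← hχ]
    show ρ.character (x ^ j.val) = _
    rw [hzs, ← Finset.sum_fiberwise Finset.univ f fun i => z i ^ j.val]
    refine Finset.sum_congr rfl fun k _ => ?_
    rw [Finset.sum_congr rfl (g := fun _ => ω (j * k)) fun i hi => ?_, Finset.sum_const, nsmul_eq_mul]
    rw [hf i, (Finset.mem_filter.1 hi).2, ← AddChar.map_nsmul_eq_pow, nsmul_eq_mul,
      ZMod.natCast_zmod_val]
  have hinv : ∀ c : ZMod l, ∑ j : ZMod l, (χ : G → ℂ) (x ^ j.val) * ω (-(c * j)) = (l : ℂ) * m c := by
    intro c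
    simp only [hm, Finset.sum_mul]
    rw [Finset.sum_comm, Finset.sum_eq_single c]
    · simp only [mul_assoc, ← AddChar.map_add_eq_mul]
      simp only [show ∀ j : ZMod l, j * c + -(c * j) = 0 from fun j => by ring, AddChar.map_zero_eq_one,
        mul_one, Finset.sum_const, Finset.card_univ, ZMod.card, nsmul_eq_mul]
    · intro k _ hk
      simp only [mul_assoc, ← AddChar.map_add_eq_mul, ← Finset.mul_sum]
      rw [show (∑ j : ZMod l, ω (j * k + -(c * j))) = ∑ j : ZMod l, ω (j * (k - c)) from
        Finset.sum_congr rfl fun j _ => by congr 1; ring, horth, if_neg (sub_ne_zero.2 hk), mul_zero]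
    · simp
  refine ⟨m, ?_, ?_, ?_, ?_⟩
  · have h1 := hm 0
    simp only [ZMod.val_zero, pow_zero, zero_mul, AddChar.map_zero_eq_one, mul_one,
      (Blocks.charDegree_eq χ.2).1] at h1
    exact_mod_cast h1
  · have key : ((∑ j : ZMod l, Complex.normSq ((χ : G → ℂ) (x ^ j.val)) : ℝ) : ℂ) =
        (((l : ℝ) * ∑ k, (m k : ℝ) ^ 2 : ℝ) : ℂ) := by
      push_cast
      rw [Finset.mul_sum]
      have hterm : ∀ j : ZMod l, (Complex.normSq ((χ : G → ℂ) (x ^ j.val)) : ℂ) =
          ∑ k, (m k : ℂ) * ((χ : G → ℂ) (x ^ j.val) * ω (-(k * j))) := by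
        intro j
        rw [← Complex.mul_conj]
        nth_rw 2 [hm j]
        rw [map_sum, Finset.mul_sum]
        refine Finset.sum_congr rfl fun k _ => ?_
        rw [map_mul, map_natCast, ← AddChar.map_neg_eq_conj, show -(j * k) = -(k * j) by ring]
        ring
      simp only [hterm]
      rw [Finset.sum_comm]
      refine Finset.sum_congr rfl fun k _ => ?_
      rw [← Finset.mul_sum, hinv k]
      ring
    exact_mod_cast key
  · intro r hr hconj k
    obtain ⟨c, hc⟩ := isConj_iff.1 hconj
    have hcl : ∀ j : ZMod l, (χ : G → ℂ) (x ^ (r * j).val) = (χ : G → ℂ) (x ^ j.val) := by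
      intro j
      have hpow : x ^ (r * j).val = (x ^ r.val) ^ j.val := by
        rw [← pow_mul, pow_eq_pow_mod (r.val * j.val) hx, ZMod.val_mul]
      have hconjp : c * x ^ j.val * c⁻¹ = x ^ (r * j).val := by
        rw [hpow, ← hc, conj_pow]
      rw [← hconjp]
      exact Chars.isClassFunction_irr χ _ c
    have h1' := hinv (r * k)
    have h2' := hinv k
    rw [← Finset.sum_congr rfl fun j _ => congrArg (· * ω (-((r * k) * j))) (hcl j)] at h1'
    rw [Fintype.sum_equiv (Equiv.mulLeft₀ r hr)
      (fun j => (χ : G → ℂ) (x ^ (r * j).val) * ω (-((r * k) * j)))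
      (fun j => (χ : G → ℂ) (x ^ j.val) * ω (-(k * j))) (fun j => by
        show _ = (χ : G → ℂ) (x ^ (r * j).val) * ω (-(k * (r * j)))
        rw [show r * k * j = k * (r * j) by ring]), h2'] at h1'
    have := mul_left_cancel₀ (Nat.cast_ne_zero.2 hl.out.ne_zero : (l : ℂ) ≠ 0) h1'
    exact_mod_cast this.symm
  · have h1 := hm 1
    rw [ZMod.val_one, pow_one] at h1
    simpa using h1

/-- Elements of order `l` carry at least a `1 / |N|` share of the sum over one subgroup. -/
theorem share [Fintype G] [DecidableEq G] (hx : orderOf x = l) (f : G → ℝ) (hf0 : ∀ g, 0 ≤ f g)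
    (hf : ∀ g c, f (c * g * c⁻¹) = f g) :
    (Nat.card G : ℝ) * ∑ j ∈ Finset.univ.erase (0 : ZMod l), f (x ^ j.val) ≤
      (Nat.card (Subgroup.normalizer ((Subgroup.zpowers x : Subgroup G) : Set G)) : ℝ) *
        ∑ g ∈ Finset.univ.filter (fun g : G => orderOf g = l), f g := by
  classical
  set N := Subgroup.normalizer ((Subgroup.zpowers x : Subgroup G) : Set G)
  let T : Finset (G × ZMod l) := Finset.univ ×ˢ (Finset.univ.erase 0)
  let φ : G × ZMod l → G := fun a => a.1 * x ^ a.2.val * a.1⁻¹
  have hord : ∀ a ∈ T, orderOf (φ a) = l := by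
    intro a ha
    have hj : a.2 ≠ 0 := Finset.ne_of_mem_erase (Finset.mem_product.1 ha).2
    rw [show φ a = MulAut.conj a.1 (x ^ a.2.val) from rfl, MulEquiv.orderOf_eq]
    refine orderOf_eq_prime (by rw [← pow_mul, mul_comm, pow_mul, orderOf_dvd_iff_pow_eq_one.1 (dvd_of_eq hx), one_pow]) ?_
    intro h
    have h1 := orderOf_dvd_of_pow_eq_one h
    rw [hx] at h1
    exact hj ((ZMod.natCast_zmod_val a.2) ▸ (ZMod.natCast_eq_zero_iff _ _).2 h1)
  have hsum : (Nat.card G : ℝ) * ∑ j ∈ Finset.univ.erase (0 : ZMod l), f (x ^ j.val) = ∑ a ∈ T, f (φ a) := by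
    rw [Finset.sum_product]
    simp only [φ, hf, Finset.sum_const, Finset.card_univ, nsmul_eq_mul, Nat.card_eq_fintype_card]
  rw [hsum, ← Finset.sum_fiberwise_of_maps_to (t := Finset.univ.filter fun g : G => orderOf g = l)
    (g := φ) (fun a ha => Finset.mem_filter.2 ⟨Finset.mem_univ _, hord a ha⟩), Finset.mul_sum]
  refine Finset.sum_le_sum fun g _ => ?_
  rw [Finset.sum_congr rfl fun a ha => congrArg f (Finset.mem_filter.1 ha).2, Finset.sum_const, nsmul_eq_mul]
  refine mul_le_mul_of_nonneg_right ?_ (hf0 g)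
  rcases (T.filter fun a => φ a = g).eq_empty_or_nonempty with h0 | ⟨a, ha⟩
  · rw [h0]; simp
  · obtain ⟨haT, hag⟩ := Finset.mem_filter.1 ha
    have hgen : ∀ b ∈ T, φ b = g → (Subgroup.zpowers x).map (MulAut.conj b.1).toMonoidHom = Subgroup.zpowers g := by
      intro b hb hbg
      rw [MonoidHom.map_zpowers]
      symm
      refine Subgroup.eq_of_le_of_card_ge (Subgroup.zpowers_le.2 ?_) ?_
      · rw [← hbg]
        refine ⟨(b.2.val : ℤ), ?_⟩
        show _ ^ (b.2.val : ℤ) = φ b; rw [zpow_natCast]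
        show (b.1 * x * b.1⁻¹) ^ b.2.val = φ b
        rw [conj_pow]
      · rw [Nat.card_zpowers, Nat.card_zpowers, ← hbg, hord b hb,
          show (MulAut.conj b.1).toMonoidHom x = MulAut.conj b.1 x from rfl, MulEquiv.orderOf_eq, hx]
    have hinj : Set.InjOn Prod.fst ((T.filter fun a => φ a = g : Finset (G × ZMod l)) : Set (G × ZMod l)) := by
      intro b hb b' hb' e
      have h1 := (Finset.mem_filter.1 hb).2.trans (Finset.mem_filter.1 hb').2.symm
      obtain ⟨c, j⟩ := b
      obtain ⟨c', j'⟩ := b'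
      simp only at e
      subst e
      simp only [φ, mul_left_inj, mul_right_inj] at h1
      refine Prod.ext rfl (ZMod.val_injective l ?_)
      exact pow_injOn_Iio_orderOf (x := x) (hx ▸ ZMod.val_lt j) (hx ▸ ZMod.val_lt j') h1
    rw [← Finset.card_image_of_injOn hinj, Nat.cast_le]
    refine (Finset.card_le_card (t := (Finset.univ.filter (· ∈ N)).image (a.1 * ·)) ?_).trans
      (Finset.card_image_le.trans (le_of_eq ?_))
    · intro c hc
      obtain ⟨b, hb, rfl⟩ := Finset.mem_image.1 hc
      obtain ⟨hbT, hbg⟩ := Finset.mem_filter.1 hb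
      refine Finset.mem_image.2 ⟨a.1⁻¹ * b.1, Finset.mem_filter.2 ⟨Finset.mem_univ _, ?_⟩, by group⟩
      refine Subgroup.mem_normalizer_iff.2 fun q => ?_
      have e := (hgen b hbT hbg).trans (hgen a haT hag).symm
      have hiff : ∀ (c q : G), q ∈ Subgroup.zpowers x ↔
          c * q * c⁻¹ ∈ (Subgroup.zpowers x).map (MulAut.conj c).toMonoidHom := fun c q =>
        ⟨fun h => ⟨q, h, rfl⟩, fun ⟨r, hr, er⟩ => (MulAut.conj c).injective er ▸ hr⟩
      rw [hiff b.1 q, e, hiff a.1 (a.1⁻¹ * b.1 * q * (a.1⁻¹ * b.1)⁻¹),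
        show a.1 * (a.1⁻¹ * b.1 * q * (a.1⁻¹ * b.1)⁻¹) * a.1⁻¹ = b.1 * q * b.1⁻¹ by group]
    · rw [Nat.card_eq_fintype_card, Fintype.card_subtype]

end Mean

end Cfsg.Agent.PermGroups.OneBlock
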