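import Cfsg.Agent.PermGroups.PrimeSylow

/-!
Subgroups of index `p` in a transitive group of prime degree `p` with even Sylow normaliser.
-/

set_option autoImplicit false
set_option linter.unusedSectionVars false

namespace Cfsg.Agent.PermGroups

open MulAction Equiv

variable {α : Type*} [Fintype α] [DecidableEq α] {p : ℕ} [hp : Fact p.Prime]

/-- The difference multiplicity of a symmetric set has the parity of membership of a half. -/
theorem card_diff_mod_two (hp2 : p ≠ 2) (E : Finset (ZMod p)) (hE : ∀ x ∈ E, -x ∈ E) {d : ZMod p}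
    : ((E.filter fun x => x + d ∈ E).card : ZMod 2) = if -(d / 2) ∈ E then 1 else 0 := by
  have h2 : (2 : ZMod p) ≠ 0 := by
    intro h
    have h' : ((2 : ℕ) : ZMod p) = 0 := by exact_mod_cast h
    rw [ZMod.natCast_eq_zero_iff] at h'
    exact hp2 ((Nat.prime_dvd_prime_iff_eq hp.out Nat.prime_two).1 h')
  set A := E.filter fun x => x + d ∈ E with hA
  set x₀ := -(d / 2) with hx₀
  have hmemA : x₀ ∈ A ↔ x₀ ∈ E := by
    rw [hA, Finset.mem_filter]
    refine ⟨And.left, fun h => ⟨h, ?_⟩⟩
    have : x₀ + d = -x₀ := by rw [hx₀]; field_simp; ring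
    rw [this]
    exact hE _ h
  have hrest : ∑ _x ∈ A.erase x₀, (1 : ZMod 2) = 0 := by
    refine Finset.sum_involution (fun x _ => -(x + d)) (fun _ _ => by decide) (fun x hx _ e => ?_)
      (fun x hx => ?_) fun x _ => by ring
    · refine (Finset.mem_erase.1 hx).1 ?_
      rw [hx₀]
      field_simp
      linear_combination -e
    · obtain ⟨hne, hxA⟩ := Finset.mem_erase.1 hx
      obtain ⟨hxE, hxd⟩ := Finset.mem_filter.1 hxA
      refine Finset.mem_erase.2 ⟨fun e => hne ?_, Finset.mem_filter.2 ⟨hE _ hxd, ?_⟩⟩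
      · rw [hx₀] at e ⊢
        field_simp at e ⊢
        linear_combination -e
      · rw [show -(x + d) + d = -x by ring]
        exact hE _ hxE
  rw [Finset.sum_const, nsmul_one] at hrest
  by_cases h : x₀ ∈ E
  · rw [if_pos h, ← Finset.card_erase_add_one (hmemA.2 h), Nat.cast_add, hrest, Nat.cast_one, zero_add]
  · rw [if_neg h, ← Finset.erase_eq_of_notMem (mt hmemA.1 h), hrest]

/-- No symmetric nontrivial cyclic difference set of prime modulus. -/
theorem symmetric_difference_set_trivial (hp2 : p ≠ 2) (E : Finset (ZMod p)) (hE : ∀ x ∈ E, -x ∈ E)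
    (hconst : ∀ d d' : ZMod p, d ≠ 0 → d' ≠ 0 →
      (E.filter fun x => x + d ∈ E).card = (E.filter fun x => x + d' ∈ E).card) :
    E.card ≤ 1 ∨ p ≤ E.card + 1 := by
  have h2 : (2 : ZMod p) ≠ 0 := by
    intro h
    have h' : ((2 : ℕ) : ZMod p) = 0 := by exact_mod_cast h
    rw [ZMod.natCast_eq_zero_iff] at h'
    exact hp2 ((Nat.prime_dvd_prime_iff_eq hp.out Nat.prime_two).1 h')
  have hsame : ∀ x y : ZMod p, x ≠ 0 → y ≠ 0 → x ∈ E → y ∈ E := by
    intro x y hx hy hxE
    have h1 := card_diff_mod_two hp2 E hE (d := -(2 * x))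
    have h3 := card_diff_mod_two hp2 E hE (d := -(2 * y))
    rw [hconst (-(2 * x)) (-(2 * y)) (by simp [h2, hx]) (by simp [h2, hy]), h3] at h1
    have e : ∀ z : ZMod p, -(-(2 * z) / 2) = z := fun z => by field_simp
    rw [e, e, if_pos hxE] at h1
    by_contra hyE
    rw [if_neg hyE] at h1
    exact zero_ne_one h1
  by_cases h : ∃ x ∈ E, x ≠ 0
  · right
    obtain ⟨x, hxE, hx⟩ := h
    have : (Finset.univ : Finset (ZMod p)).erase 0 ⊆ E := fun y hy =>
      hsame x y hx (Finset.mem_erase.1 hy).1 hxE
    have := Finset.card_le_card this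
    rw [Finset.card_erase_of_mem (Finset.mem_univ _), Finset.card_univ, ZMod.card] at this
    omega
  · left
    push Not at h
    exact Finset.card_le_one.2 fun x hx y hy => (h x hx).trans (h y hy).symm

theorem natCard_orbit_dvd {K : Type*} [Group K] (H : Subgroup K) {β : Type*} [MulAction K β] (z : β) :
    Nat.card (orbit H z) ∣ Nat.card H := by
  rw [Nat.card_congr (orbitEquivQuotientStabilizer H z)]
  exact Subgroup.card_quotient_dvd_card _

theorem eq_stabilizer_of_index_eq_prime (hα : Fintype.card α = p) (G : Subgroup (Perm α))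
    [IsPretransitive G α] (P : Sylow p G)
    (heven : Even (Nat.card (Subgroup.normalizer ((P : Subgroup G) : Set G)))) (H : Subgroup G)
    (hH : H.index = p) : ∃ a : α, H = stabilizer G a := by
  classical
  have hcardG : Nat.card G = p * Nat.card H := by rw [← hH, Subgroup.index_mul_card]
  have hPc := natCard_sylow_prime_degree hα G P
  have hpH : ¬ p ∣ Nat.card H := by
    intro hd
    obtain ⟨K, hK⟩ := Sylow.exists_subgroup_card_pow_prime (G := G) p (n := 2)
      (by rw [hcardG, sq]; exact mul_dvd_mul_left p hd)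
    obtain ⟨Q, hQ⟩ := (IsPGroup.of_card hK).exists_le_sylow
    have := Subgroup.card_dvd_of_le hQ
    rw [hK, natCard_sylow_prime_degree hα G Q, sq] at this
    have := Nat.le_of_dvd hp.out.pos this
    nlinarith [hp.out.two_le]
  suffices hfix : ∃ a : α, ∀ h ∈ H, h • a = a by
    obtain ⟨a, ha⟩ := hfix
    refine ⟨a, Subgroup.eq_of_le_of_card_ge (fun h hh => ha h hh) ?_⟩
    have h1 := (stabilizer G a).index_mul_card
    rw [index_stabilizer_of_transitive, Nat.card_eq_fintype_card (α := α), hα, hcardG] at h1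
    exact (Nat.eq_of_mul_eq_mul_left hp.out.pos h1).le
  obtain ⟨x, hx⟩ := exists_prime_orderOf_dvd_card' (G := (P : Subgroup G)) p (by rw [hPc])
  set τ : Perm α := ((x : G) : Perm α) with hτdef
  have hτG : τ ∈ G := (x : G).2
  have hτ : orderOf τ = p := by rw [hτdef, Subgroup.orderOf_coe, Subgroup.orderOf_coe, hx]
  obtain ⟨a⟩ : Nonempty α := Fintype.card_pos_iff.mp (hα ▸ hp.out.pos)
  obtain ⟨e, -, he⟩ := exists_coordinates hα hτ a
  rcases prime_degree_affine_or_two_transitive hα G hτG hτ e he with h2 | haff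
  swap
  · -- the affine case: `H` is abelian with a common fixed point
    have hfree : ∀ h ∈ H, h ≠ 1 → ∀ c : ZMod p, ¬ ∀ z, e (h • z) = 1 * e z + c := by
      intro h hh hne c hc
      by_cases hc0 : c = 0
      · refine hne (Subtype.ext (Perm.ext fun z => e.injective ?_))
        show e (h • z) = e z
        rw [hc, hc0, one_mul, add_zero]
      refine hpH ?_
      have hpow : ∀ (n : ℕ) z, e ((h ^ n) • z) = e z + n * c := by
        intro n
        induction n with
        | zero => intro z; simp
        | succ n ih => intro z; rw [pow_succ, mul_smul, ih, hc, Nat.cast_succ]; ring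
      have ho : orderOf h = p := by
        refine orderOf_eq_prime (Subtype.ext (Perm.ext fun z => e.injective ?_)) hne
        show e ((h ^ p) • z) = e z
        rw [hpow, ZMod.natCast_self, zero_mul, add_zero]
      rw [← ho]
      exact (Subgroup.orderOf_dvd_natCard H hh)
    have hcomm : ∀ h ∈ H, ∀ k ∈ H, h * k = k * h := by
      intro h hh k hk
      by_contra hne
      obtain ⟨a₁, b₁, h₁⟩ := haff (h : Perm α) h.2
      obtain ⟨a₂, b₂, h₂⟩ := haff (k : Perm α) k.2
      have h₁' : ∀ z, e (h • z) = a₁ * e z + b₁ := h₁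
      have h₂' : ∀ z, e (k • z) = a₂ * e z + b₂ := h₂
      have ha : a₁ ≠ 0 ∧ a₂ ≠ 0 := by
        constructor
        · intro h0
          have h' : e (h • e.symm 1) = e (h • e.symm 0) := by
            rw [h₁', h₁', h0, zero_mul, zero_mul]
          simpa using e.symm.injective (smul_left_cancel h (e.injective h'))
        · intro h0
          have h' : e (k • e.symm 1) = e (k • e.symm 0) := by
            rw [h₂', h₂', h0, zero_mul, zero_mul]
          simpa using e.symm.injective (smul_left_cancel k (e.injective h'))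
      refine hfree (h * k * (k * h)⁻¹) (H.mul_mem (H.mul_mem hh hk) (H.inv_mem (H.mul_mem hk hh)))
        (fun e1 => hne (mul_inv_eq_one.1 e1)) (a₁ * b₂ + b₁ - (a₂ * b₁ + b₂)) fun z => ?_
      obtain ⟨w, rfl⟩ : ∃ w, (k * h) • w = z := ⟨(k * h)⁻¹ • z, smul_inv_smul _ _⟩
      rw [mul_smul (h * k) (k * h)⁻¹, inv_smul_smul, mul_smul, mul_smul, h₁', h₂', h₂', h₁']
      ring
    by_cases hH1 : ∀ h ∈ H, h = 1
    · exact ⟨a, fun h hh => by rw [hH1 h hh, one_smul]⟩
    push Not at hH1
    obtain ⟨h₀, hh₀, hne₀⟩ := hH1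
    obtain ⟨a₀, b₀, h₀'⟩ := haff (h₀ : Perm α) h₀.2
    have h₀'' : ∀ z, e (h₀ • z) = a₀ * e z + b₀ := h₀'
    have ha₀ : a₀ - 1 ≠ 0 := fun h => hfree h₀ hh₀ hne₀ b₀ (by rw [sub_eq_zero] at h; subst h; exact h₀'')
    refine ⟨e.symm (-b₀ / (a₀ - 1)), fun k hk => ?_⟩
    have hfixed : h₀ • e.symm (-b₀ / (a₀ - 1)) = e.symm (-b₀ / (a₀ - 1)) := by
      rw [Equiv.eq_symm_apply, h₀'', apply_symm_apply]
      field_simp
      ring
    have h1 : h₀ • (k • e.symm (-b₀ / (a₀ - 1))) = k • e.symm (-b₀ / (a₀ - 1)) := by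
      rw [← mul_smul, hcomm h₀ hh₀ k hk, mul_smul, hfixed]
    have huniq : ∀ w, h₀ • w = w → e w = -b₀ / (a₀ - 1) := fun w hw => by
      have := h₀'' w
      rw [hw] at this
      rw [eq_div_iff ha₀]
      linear_combination -this
    exact e.injective (by rw [huniq _ h1, apply_symm_apply])
  -- the doubly transitive case
  by_contra hno
  push Not at hno
  -- an element inverting the translations
  haveI : Fact (Nat.Prime 2) := ⟨Nat.prime_two⟩
  obtain ⟨s, hs⟩ := exists_prime_orderOf_dvd_card'
    (G := Subgroup.normalizer ((P : Subgroup G) : Set G)) 2 heven.two_dvd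
  have hzp : Subgroup.zpowers x = ⊤ := Subgroup.eq_top_of_card_eq _ (by rw [Nat.card_zpowers, hx, hPc])
  have hpowx : ∀ y ∈ (P : Subgroup G), ∃ n : ℕ, (y : G) = (x : G) ^ n := by
    intro y hy
    have : (⟨y, hy⟩ : (P : Subgroup G)) ∈ Subgroup.zpowers x := hzp ▸ Subgroup.mem_top _
    obtain ⟨n, hn⟩ := mem_zpowers_iff_mem_range_orderOf.1 this |> Finset.mem_image.1
    exact ⟨n, (congrArg (fun z : (P : Subgroup G) => (z : G)) hn.2).symm⟩
  obtain ⟨j, hj⟩ := hpowx ((s : G) * x * (s : G)⁻¹)
    ((Subgroup.mem_normalizer_iff.1 s.2 x).1 x.2)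
  have hj' : ∀ z : α, (s : G) • (x : G) • z = (x : G) ^ j • (s : G) • z := fun z => by
    rw [← mul_smul, ← mul_smul, ← hj, inv_mul_cancel_right]
  have hxn : ∀ (n : ℕ) z, e ((x : G) ^ n • z) = e z + n := fun n z => he n z
  have hlin : ∀ (n : ℕ) z, e ((s : G) • (x : G) ^ n • z) = e ((s : G) • z) + n * j := by
    intro n
    induction n with
    | zero => intro z; simp
    | succ n ih =>
      intro z
      rw [pow_succ, mul_smul, ih, hj', hxn, Nat.cast_succ]; ring
  set b : ZMod p := e ((s : G) • e.symm 0) with hb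
  have hs' : ∀ z, e ((s : G) • z) = (j : ZMod p) * e z + b := by
    intro z
    have hz : (x : G) ^ (e z).val • e.symm 0 = z := e.injective (by
      rw [hxn, apply_symm_apply, ZMod.natCast_zmod_val, zero_add])
    conv_lhs => rw [← hz, hlin, ZMod.natCast_zmod_val]
    ring
  have hs2 : ∀ z : α, (s : G) • (s : G) • z = z := by
    intro z
    have : (s : G) ^ 2 = 1 := by
      rw [← Subgroup.coe_pow, ← hs, pow_orderOf_eq_one, Subgroup.coe_one]
    rw [← mul_smul, ← sq, this, one_smul]
  have hp2 : p ≠ 2 := by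
    intro hp2
    have hl : ∀ z : α, Nat.card (orbit H z) = 1 := fun z => by
      have h1 : Nat.card (orbit H z) ∣ Nat.card H := natCard_orbit_dvd H z
      have h2 : Nat.card (orbit H z) ≤ 2 := by
        rw [← hp2, ← hα, ← Nat.card_eq_fintype_card (α := α)]
        exact Finite.card_subtype_le _
      have h3 : Nat.card (orbit H z) ≠ 2 := fun h => hpH (hp2 ▸ h ▸ h1)
      haveI : Nonempty (orbit H z) := ⟨⟨z, mem_orbit_self z⟩⟩
      have h4 : 0 < Nat.card (orbit H z) := Nat.card_pos
      omega
    obtain ⟨h, hh, hne⟩ := hno a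
    have := (Nat.card_eq_one_iff_unique.1 (hl a)).1
    exact hne (congrArg Subtype.val
      (Subsingleton.elim (⟨h • a, ⟨⟨h, hh⟩, rfl⟩⟩ : orbit H a) ⟨a, mem_orbit_self a⟩))
  have hj1 : (j : ZMod p) = -1 := by
    have key : ∀ z : ZMod p, (j : ZMod p) * ((j : ZMod p) * z + b) + b = z := fun z => by
      conv_rhs => rw [← e.apply_symm_apply z, ← hs2 (e.symm z), hs', hs', apply_symm_apply]
    have k0 := key 0
    have k1 := key 1
    have hsq : (j : ZMod p) * j = 1 := by linear_combination k1 - k0
    rcases mul_self_eq_one_iff.1 hsq with h | h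
    · exfalso
      have h2b : (2 : ZMod p) * b = 0 := by rw [h] at k0; linear_combination k0
      have hb0 : b = 0 := by
        refine (mul_eq_zero.1 h2b).resolve_left fun h2 => hp2 ?_
        have h2' : ((2 : ℕ) : ZMod p) = 0 := by exact_mod_cast h2
        rw [ZMod.natCast_eq_zero_iff] at h2'
        exact (Nat.prime_dvd_prime_iff_eq hp.out Nat.prime_two).1 h2'
      have : (s : G) = 1 := Subtype.ext (Perm.ext fun z => e.injective (by
        show e ((s : G) • z) = e z
        rw [hs', h, hb0, one_mul, add_zero]))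
      rw [show s = 1 from Subtype.ext this, orderOf_one] at hs
      omega
    · exact h
  -- every element is a translation times an element of `H`
  have hPH : ∀ g : G, ∃ n : ZMod p, ∃ h ∈ H, g = (x : G) ^ n.val * h := by
    have hbij : Function.Bijective fun q : ZMod p × H => (x : G) ^ q.1.val * (q.2 : G) := by
      rw [Nat.bijective_iff_injective_and_card]
      refine ⟨?_, by rw [Nat.card_prod, Nat.card_zmod, hcardG]⟩
      rintro ⟨n, h⟩ ⟨m, k⟩ (hq : (x : G) ^ n.val * (h : G) = (x : G) ^ m.val * (k : G))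
      have hd : ((x : G) ^ m.val)⁻¹ * (x : G) ^ n.val ∈ H := by
        have e1 : ((x : G) ^ m.val)⁻¹ * (x : G) ^ n.val = (k : G) * (h : G)⁻¹ := by
          rw [eq_mul_inv_iff_mul_eq, mul_assoc, hq, inv_mul_cancel_left]
        rw [e1]; exact H.mul_mem k.2 (H.inv_mem h.2)
      have hd1 : ((x : G) ^ m.val)⁻¹ * (x : G) ^ n.val = 1 := by
        by_contra hne
        have h1 := Subgroup.orderOf_dvd_natCard (P : Subgroup G)
          ((P : Subgroup G).mul_mem ((P : Subgroup G).inv_mem (pow_mem x.2 m.val)) (pow_mem x.2 n.val))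
        rw [hPc] at h1
        rcases (Nat.dvd_prime hp.out).1 h1 with h1 | h1
        · exact hne (orderOf_eq_one_iff.1 h1)
        · exact hpH (h1 ▸ Subgroup.orderOf_dvd_natCard H hd)
      rw [inv_mul_eq_one] at hd1
      have hnm : n = m := by
        have := hxn n.val a
        rw [← hd1, hxn] at this
        simpa using this.symm
      subst hnm
      exact Prod.ext rfl (Subtype.ext (mul_left_cancel hq))
    intro g
    obtain ⟨⟨n, h⟩, hq⟩ := hbij.2 g
    exact ⟨n, h, h.2, hq.symm⟩
  -- the orbit of `H` in coordinates, shifted to be symmetric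
  let D : Finset (ZMod p) := Finset.univ.filter fun z => e.symm z ∈ orbit H a
  have hDcard : D.card = Nat.card (orbit H a) := by
    rw [← Nat.card_eq_finsetCard]
    exact Nat.card_congr
      { toFun := fun z => ⟨e.symm z.1, (Finset.mem_filter.1 z.2).2⟩
        invFun := fun z => ⟨e z.1, Finset.mem_filter.2 ⟨Finset.mem_univ _, by rw [symm_apply_apply]; exact z.2⟩⟩
        left_inv := fun z => Subtype.ext (apply_symm_apply e z.1)
        right_inv := fun z => Subtype.ext (symm_apply_apply e z.1) }
  have hblock : ∀ g : G, ∃ n : ZMod p, ∀ z : α, e z ∈ D ↔ e (g • z) - n ∈ D := by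
    intro g
    obtain ⟨n, h, hh, rfl⟩ := hPH g
    refine ⟨n, fun z => ?_⟩
    rw [mul_smul, hxn, ZMod.natCast_zmod_val, add_sub_cancel_right]
    simp only [D, Finset.mem_filter, Finset.mem_univ, true_and, symm_apply_apply]
    exact ⟨fun hz => mem_orbit_of_mem_orbit (⟨h, hh⟩ : H) hz, fun hz => by
      simpa [Subgroup.smul_def] using mem_orbit_of_mem_orbit (⟨h, hh⟩⁻¹ : H) hz⟩
  obtain ⟨m, hm⟩ := hblock (s : G)
  have hmD : ∀ z : ZMod p, z ∈ D ↔ -z + (b - m) ∈ D := by
    intro z
    have := hm (e.symm z)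
    rw [hs', hj1, apply_symm_apply] at this
    rw [this, show -1 * z + b - m = -z + (b - m) by ring]
  set c : ZMod p := (b - m) / 2 with hc
  have h2ne : (2 : ZMod p) ≠ 0 := fun h => hp2 (by
    have h2' : ((2 : ℕ) : ZMod p) = 0 := by exact_mod_cast h
    rw [ZMod.natCast_eq_zero_iff] at h2'
    exact (Nat.prime_dvd_prime_iff_eq hp.out Nat.prime_two).1 h2')
  let E : Finset (ZMod p) := Finset.univ.filter fun z => z + c ∈ D
  have hEsym : ∀ z ∈ E, -z ∈ E := by
    intro z hz
    simp only [E, Finset.mem_filter, Finset.mem_univ, true_and] at hz ⊢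
    rw [hmD] at hz
    convert hz using 1
    rw [hc]; field_simp; ring
  have hEcard : E.card = D.card := by
    refine Finset.card_bij (fun z _ => z + c) (fun z hz => (Finset.mem_filter.1 hz).2)
      (fun z _ w _ h => add_right_cancel h) fun z hz => ⟨z - c, ?_, sub_add_cancel z c⟩
    simpa [E] using hz
  have hconst : ∀ d d' : ZMod p, d ≠ 0 → d' ≠ 0 →
      (E.filter fun z => z + d ∈ E).card = (E.filter fun z => z + d' ∈ E).card := by
    suffices hle : ∀ d d' : ZMod p, d ≠ 0 → d' ≠ 0 →
        (E.filter fun z => z + d ∈ E).card ≤ (E.filter fun z => z + d' ∈ E).card from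
      fun d d' hd hd' => le_antisymm (hle d d' hd hd') (hle d' d hd' hd)
    intro d d' hd hd'
    obtain ⟨g, hg0, hgd⟩ : ∃ g : G, g • e.symm 0 = e.symm 0 ∧ g • e.symm d = e.symm d' :=
      is_two_pretransitive_iff.1 h2 (e.symm.injective.ne hd.symm) (e.symm.injective.ne hd'.symm)
    have htr : ∀ n : ZMod p, ∃ n' : ZMod p, ∀ z : α, e z - n ∈ E ↔ e (g • z) - n' ∈ E := by
      intro n
      obtain ⟨m', hm'⟩ := hblock (g * (x : G) ^ (n - c).val)
      refine ⟨m' + c, fun z => ?_⟩
      obtain ⟨w, rfl⟩ : ∃ w, (x : G) ^ (n - c).val • w = z := ⟨_, smul_inv_smul _ _⟩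
      have := hm' w
      rw [mul_smul] at this
      simp only [E, Finset.mem_filter, Finset.mem_univ, true_and]
      rw [hxn, ZMod.natCast_zmod_val, show e w + (n - c) - n + c = e w by ring, this]
      rw [show e (g • (x : G) ^ (n - c).val • w) - (m' + c) + c
        = e (g • (x : G) ^ (n - c).val • w) - m' by ring]
    choose t ht using htr
    refine Finset.card_le_card_of_injOn (fun z => -t (-z)) (fun z hz => ?_) ?_
    · simp only [Finset.coe_filter, Set.mem_setOf_eq] at hz ⊢
      have h0 := (ht (-z) (e.symm 0)).1 (by rw [apply_symm_apply, zero_sub, neg_neg]; exact hz.1)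
      have h1 := (ht (-z) (e.symm d)).1 (by rw [apply_symm_apply, sub_neg_eq_add, add_comm]; exact hz.2)
      rw [hg0, apply_symm_apply, zero_sub] at h0
      rw [hgd, apply_symm_apply, sub_eq_add_neg, add_comm] at h1
      exact ⟨h0, h1⟩
    · intro z _ w _ hzw
      have hzw' : t (-z) = t (-w) := neg_injective hzw
      by_contra hne
      -- two different translates of a proper nonempty set differ
      have hper : ∀ u, u ∈ E → u + (w - z) ∈ E := by
        intro u hu
        have h1 := (ht (-z) (e.symm (u - z))).1 (by rw [apply_symm_apply]; simpa using hu)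
        rw [hzw'] at h1
        have h2 := (ht (-w) (e.symm (u - z))).2 h1
        rw [apply_symm_apply] at h2
        convert h2 using 1
        ring
      have hall : ∀ (k : ℕ) u, u ∈ E → u + k * (w - z) ∈ E := by
        intro k
        induction k with
        | zero => intro u hu; simpa using hu
        | succ k ih =>
          intro u hu
          rw [show u + ((k + 1 : ℕ) : ZMod p) * (w - z) = u + (k : ZMod p) * (w - z) + (w - z) by
            push_cast; ring]
          exact hper _ (ih u hu)
      have hEa : e a - c ∈ E := by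
        simp only [E, D, Finset.mem_filter, Finset.mem_univ, true_and, sub_add_cancel, symm_apply_apply]
        exact mem_orbit_self a
      have hEtop : E = Finset.univ := by
        refine Finset.eq_univ_iff_forall.2 fun v => ?_
        have := hall ((v - (e a - c)) / (w - z)).val _ hEa
        rw [ZMod.natCast_zmod_val, div_mul_cancel₀ _ (sub_ne_zero.2 (Ne.symm hne))] at this
        simpa using this
      have h1 : Nat.card (orbit H a) = p := by
        rw [← hDcard, ← hEcard, hEtop, Finset.card_univ, ZMod.card]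
      exact hpH (h1 ▸ natCard_orbit_dvd H a)
  have hbig : ∀ z : α, 2 ≤ Nat.card (orbit H z) := fun z => by
    obtain ⟨h, hh, hne⟩ := hno z
    have : Nontrivial (orbit H z) := ⟨⟨⟨h • z, ⟨⟨h, hh⟩, rfl⟩⟩, ⟨z, mem_orbit_self z⟩,
      fun e1 => hne (congrArg Subtype.val e1)⟩⟩
    exact Finite.one_lt_card_iff_nontrivial.2 this
  rcases symmetric_difference_set_trivial hp2 E hEsym hconst with h | h
  · rw [hEcard, hDcard] at h
    have := hbig a
    omega
  · -- the other orbits are not singletons either
    rw [hEcard, hDcard] at h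
    have hne : Nat.card (orbit H a) ≠ p := fun h1 => hpH (h1 ▸ natCard_orbit_dvd H a)
    obtain ⟨v, hv⟩ : ∃ v : α, v ∉ orbit H a := by
      by_contra hall
      push Not at hall
      refine hne ?_
      rw [Set.eq_univ_iff_forall.2 hall, Nat.card_coe_set_eq, Set.ncard_univ, Nat.card_eq_fintype_card, hα]
    have hdisj : Disjoint (orbit H a) (orbit H v) := by
      rw [Set.disjoint_left]
      intro w hw hw'
      exact hv (by rw [← orbit_eq_iff.2 hw, orbit_eq_iff.2 hw']; exact mem_orbit_self v)
    have h2' : Nat.card (orbit H a) + Nat.card (orbit H v) ≤ p := by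
      rw [← hα, ← Nat.card_eq_fintype_card (α := α), Nat.card_coe_set_eq, Nat.card_coe_set_eq,
        ← Set.ncard_union_eq hdisj]
      exact Set.ncard_le_card _
    have := hbig v
    omega

end Cfsg.Agent.PermGroups
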