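import Cfsg.Agent.Linear.SLNormal
import Cfsg.Agent.Components.Basic
import Cfsg.Prelude.Def_Local

/-!
# A standard subgroup of the special linear group in odd dimension and odd characteristic
-/

set_option autoImplicit false
set_option backward.isDefEq.respectTransparency false

namespace Cfsg.Agent.PermGroups.SLStandard

open Matrix
open scoped commutatorElement

variable {F : Type*} [Field F] {m : ℕ}

local notation "MS" => Matrix (Fin m ⊕ Fin 1) (Fin m ⊕ Fin 1) F
local notation "G₁" => Matrix.SpecialLinearGroup (Fin (m + 1)) F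

/-- Matrices in block coordinates. -/
def re (M : MS) : Matrix (Fin (m + 1)) (Fin (m + 1)) F :=
  Matrix.reindexAlgEquiv F F finSumFinEquiv M

theorem re_mul (M N : MS) : re (M * N) = re M * re N :=
  map_mul (Matrix.reindexAlgEquiv F F finSumFinEquiv) M N

theorem re_inj {M N : MS} (h : re M = re N) : M = N :=
  (Matrix.reindexAlgEquiv F F finSumFinEquiv).injective h

theorem det_re (M : MS) : (re M).det = M.det := Matrix.det_reindexAlgEquiv F F _ _

theorem sl_ext {n : ℕ} {x y : Matrix.SpecialLinearGroup (Fin n) F}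
    (h : (x : Matrix (Fin n) (Fin n) F) = (y : Matrix (Fin n) (Fin n) F)) : x = y := Subtype.ext h

theorem sl_val {n : ℕ} {x y : Matrix.SpecialLinearGroup (Fin n) F} (h : x = y) :
    (x : Matrix (Fin n) (Fin n) F) = (y : Matrix (Fin n) (Fin n) F) := by rw [h]

theorem sl_mul {n : ℕ} (x y : Matrix.SpecialLinearGroup (Fin n) F) :
    (x * y).1 = x.1 * y.1 := rfl

theorem sl_one {n : ℕ} : (1 : Matrix.SpecialLinearGroup (Fin n) F).1 = 1 := rfl

theorem sl_sq {n : ℕ} (x : Matrix.SpecialLinearGroup (Fin n) F) : (x ^ 2).1 = x.1 * x.1 := by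
  rw [sq]; rfl

theorem exists_re (g : Matrix (Fin (m + 1)) (Fin (m + 1)) F) : ∃ M : MS, g = re M :=
  ⟨(Matrix.reindexAlgEquiv F F finSumFinEquiv).symm g,
    ((Matrix.reindexAlgEquiv F F finSumFinEquiv).apply_symm_apply g).symm⟩

/-- The small special linear group as upper block. -/
def emb : Matrix.SpecialLinearGroup (Fin m) F →* G₁ where
  toFun A := ⟨re (fromBlocks A.1 0 0 1), by
    rw [det_re, det_fromBlocks_zero₂₁, A.2, det_one, one_mul]⟩
  map_one' := Subtype.ext (by
    show re (fromBlocks 1 0 0 1) = 1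
    rw [fromBlocks_one, re, map_one])
  map_mul' A B := Subtype.ext (by
    show re (fromBlocks (A.1 * B.1) 0 0 1) = re _ * re _
    rw [← re_mul, fromBlocks_multiply]
    simp)

theorem emb_val (A : Matrix.SpecialLinearGroup (Fin m) F) :
    (emb A).1 = re (fromBlocks A.1 0 0 1) := rfl

theorem emb_injective : Function.Injective (emb : Matrix.SpecialLinearGroup (Fin m) F →* G₁) :=
  fun A B h => Subtype.ext (fromBlocks_inj.1 (re_inj (congrArg Subtype.val h))).1

theorem emb_neg_one {t : G₁} (hm : Even m)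
    (ht : (t : Matrix (Fin (m + 1)) (Fin (m + 1)) F) =
      Matrix.diagonal (fun i : Fin (m + 1) => if (i : ℕ) + 1 = m + 1 then (1 : F) else -1)) :
    ∃ A, emb A = t ∧ A.1 = -1 := by
  refine ⟨⟨-1, by rw [det_neg, det_one, Fintype.card_fin, hm.neg_one_pow, one_mul]⟩,
    sl_ext ?_, rfl⟩
  rw [ht, emb_val]
  show re (fromBlocks (-1) 0 0 1) = _
  rw [← diagonal_one, ← diagonal_one, diagonal_neg, fromBlocks_diagonal, re,
    Matrix.coe_reindexAlgEquiv, reindex_apply, submatrix_diagonal_equiv]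
  congr 1
  funext i
  obtain ⟨x, rfl⟩ := finSumFinEquiv.surjective i
  rcases x with a | a
  · have := a.2
    simp [finSumFinEquiv]
    omega
  · simp [finSumFinEquiv]

/-- The shape of a centralizing element of the involution. -/
theorem exists_blocks (h2 : (2 : F) ≠ 0) {t g : G₁} {A₀ : Matrix.SpecialLinearGroup (Fin m) F}
    (hA₀ : emb A₀ = t) (hA₀' : A₀.1 = -1) (hg : g * t = t * g) :
    ∃ A D, g.1 = re (fromBlocks A 0 0 D) := by
  obtain ⟨M, hM⟩ := exists_re g.1
  have h := sl_val hg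
  rw [sl_mul, sl_mul, ← hA₀, emb_val, hA₀', hM, ← re_mul,
    ← re_mul] at h
  have h' := re_inj h
  rw [← fromBlocks_toBlocks M, fromBlocks_multiply, fromBlocks_multiply, fromBlocks_inj] at h'
  simp at h'
  obtain ⟨h12, h21⟩ := h'
  refine ⟨M.toBlocks₁₁, M.toBlocks₂₂, ?_⟩
  have e1 : M.toBlocks₁₂ = 0 := by
    ext i j
    have := congrFun (congrFun h12 i) j
    simp only [Matrix.neg_apply] at this
    exact (mul_eq_zero.1 (show (2 : F) * M.toBlocks₁₂ i j = 0 by linear_combination this)).resolve_left h2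
  have e2 : M.toBlocks₂₁ = 0 := by
    ext i j
    have := congrFun (congrFun h21 i) j
    simp only [Matrix.neg_apply] at this
    exact (mul_eq_zero.1 (show (2 : F) * M.toBlocks₂₁ i j = 0 by linear_combination -this)).resolve_left h2
  rw [hM]
  conv_lhs => rw [← fromBlocks_toBlocks M, e1, e2]

theorem det_blocks {g : G₁} {A : Matrix (Fin m) (Fin m) F} {D : Matrix (Fin 1) (Fin 1) F}
    (hg : g.1 = re (fromBlocks A 0 0 D)) : A.det * D.det = 1 := by
  rw [← det_fromBlocks_zero₂₁ A 0 D, ← det_re, ← hg]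
  exact g.2

theorem conj_mem {t g : G₁} (h2 : (2 : F) ≠ 0) {A₀ : Matrix.SpecialLinearGroup (Fin m) F}
    (hA₀ : emb A₀ = t) (hA₀' : A₀.1 = -1) (hg : g * t = t * g) {x : G₁}
    (hx : x ∈ (emb : Matrix.SpecialLinearGroup (Fin m) F →* G₁).range) :
    g * x * g⁻¹ ∈ (emb : Matrix.SpecialLinearGroup (Fin m) F →* G₁).range := by
  obtain ⟨X, rfl⟩ := hx
  obtain ⟨A, D, hAD⟩ := exists_blocks h2 hA₀ hA₀' hg
  have hA : IsUnit A.det := IsUnit.of_mul_eq_one _ (det_blocks hAD)
  refine ⟨⟨A * X.1 * A⁻¹, by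
    rw [det_mul, det_mul, X.2, mul_one, ← det_mul, Matrix.mul_nonsing_inv _ hA, det_one]⟩, ?_⟩
  rw [eq_mul_inv_iff_mul_eq]
  apply sl_ext
  rw [sl_mul, sl_mul, emb_val, emb_val, hAD, ← re_mul,
    ← re_mul, fromBlocks_multiply, fromBlocks_multiply]
  simp [Matrix.mul_assoc, Matrix.nonsing_inv_mul _ hA]

variable [Fintype F]

theorem isQuasisimple_range (hm : 3 ≤ m) :
    Cfsg.IsQuasisimple ↥(emb : Matrix.SpecialLinearGroup (Fin m) F →* G₁).range := by
  refine Cfsg.Agent.Components.isQuasisimple_of_equiv (MonoidHom.ofInjective emb_injective) ?_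
  exact ⟨⟨Cfsg.Agent.Linear.commutator_SL_eq_top (by simpa using hm)⟩,
    Cfsg.Agent.Linear.isSimpleGroup_PSL (by simpa using hm)⟩

theorem centralizer_facts (h2 : (2 : F) ≠ 0) (hm : Even m) (hm3 : 3 ≤ m)
    {t : G₁} {A₀ : Matrix.SpecialLinearGroup (Fin m) F} (hA₀ : emb A₀ = t) (hA₀' : A₀.1 = -1)
    {z : G₁} (hz : z ∈ Subgroup.centralizer
      ((emb : Matrix.SpecialLinearGroup (Fin m) F →* G₁).range : Set G₁)) :
    ∃ (a : F) (D : Matrix (Fin 1) (Fin 1) F), z.1 = re (fromBlocks (Matrix.scalar (Fin m) a) 0 0 D) := by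
  rw [Subgroup.mem_centralizer_iff] at hz
  obtain ⟨A, D, hAD⟩ := exists_blocks h2 hA₀ hA₀' (hz t ⟨A₀, hA₀⟩).symm
  obtain ⟨a, ha⟩ := Matrix.mem_range_scalar_of_commute_transvectionStruct (M := A) fun T => by
    have hT : (TransvectionStruct.toMatrix T).det = 1 := T.det
    have h := sl_val (hz _ ⟨⟨T.toMatrix, hT⟩, rfl⟩)
    rw [sl_mul, sl_mul, emb_val, hAD, ← re_mul, ← re_mul] at h
    have h' := re_inj h
    rw [fromBlocks_multiply, fromBlocks_multiply, fromBlocks_inj] at h'
    have h'' := h'.1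
    simp at h''
    exact h''
  exact ⟨a, D, by rw [hAD, ha]⟩

theorem involution_centralizer (h2 : (2 : F) ≠ 0) (hm : Even m) (hm3 : 3 ≤ m)
    {t : G₁} {A₀ : Matrix.SpecialLinearGroup (Fin m) F} (hA₀ : emb A₀ = t) (hA₀' : A₀.1 = -1)
    {z : G₁} (hz : z ∈ Subgroup.centralizer
      ((emb : Matrix.SpecialLinearGroup (Fin m) F →* G₁).range : Set G₁))
    (hz2 : orderOf z = 2) : z = t := by
  obtain ⟨a, D, hzv⟩ := centralizer_facts h2 hm hm3 hA₀ hA₀' hz
  obtain ⟨d, rfl⟩ : ∃ d, D = diagonal fun _ => d := ⟨D 0 0, by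
    ext i j; rw [Fin.fin_one_eq_zero i, Fin.fin_one_eq_zero j, diagonal_apply_eq]⟩
  have hsq : z * z = 1 := by rw [← sq, ← hz2, pow_orderOf_eq_one]
  have h := sl_val hsq
  rw [sl_mul, hzv, ← re_mul, sl_one,
    ← map_one (Matrix.reindexAlgEquiv F F finSumFinEquiv)] at h
  have h' := re_inj h
  rw [fromBlocks_multiply, ← fromBlocks_one, fromBlocks_inj] at h'
  have ha : a * a = 1 := by
    simpa using congrFun (congrFun h'.1 ⟨0, by omega⟩) ⟨0, by omega⟩
  have hdet := det_blocks hzv
  rw [Matrix.scalar_apply, det_diagonal, det_diagonal] at hdet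
  simp at hdet
  have ham : a ^ m = 1 := by
    obtain ⟨j, rfl⟩ := hm
    rw [← two_mul, pow_mul, sq, ha, one_pow]
  rw [ham, one_mul] at hdet
  subst hdet
  rcases mul_self_eq_one_iff.1 ha with rfl | rfl
  · exfalso
    have : z = 1 := sl_ext (by
      rw [hzv, map_one, diagonal_one, fromBlocks_one, re, map_one]
      rfl)
    rw [this, orderOf_one] at hz2
    omega
  · rw [← hA₀]
    apply sl_ext
    rw [hzv, emb_val, hA₀', diagonal_one, map_neg, map_one]

open Cfsg.Agent.Components in
theorem isStandard (hF : Odd (Fintype.card F)) (hm : Even m) (hm3 : 3 ≤ m) (t : G₁)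
    (ht : (t : Matrix (Fin (m + 1)) (Fin (m + 1)) F) =
      Matrix.diagonal (fun i : Fin (m + 1) => if (i : ℕ) + 1 = m + 1 then (1 : F) else -1)) :
    Cfsg.IsStandardSubgroup ((Cfsg.layer ↥(Subgroup.centralizer ({t} : Set G₁))).map
      (Subgroup.centralizer ({t} : Set G₁)).subtype) := by
  classical
  have h2 : (2 : F) ≠ 0 := by
    refine Ring.two_ne_zero fun h => ?_
    have := FiniteField.even_card_of_char_two (F := F) h
    rcases hF with ⟨j, hj⟩
    omega
  obtain ⟨A₀, hA₀, hA₀'⟩ := emb_neg_one hm ht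
  set L := (emb : Matrix.SpecialLinearGroup (Fin m) F →* G₁).range with hLdef
  set C := Subgroup.centralizer ({t} : Set G₁) with hCdef
  have hLC : L ≤ C := by
    rintro _ ⟨X, rfl⟩
    rw [hCdef, Subgroup.mem_centralizer_singleton_iff, ← hA₀, ← map_mul, ← map_mul]
    refine congrArg emb (sl_ext ?_)
    rw [sl_mul, sl_mul, hA₀']
    simp
  have hq : Cfsg.IsQuasisimple ↥L := isQuasisimple_range hm3
  have hLn : (L.subgroupOf C).Normal := ⟨fun x hx g => by
    rw [Subgroup.mem_subgroupOf] at hx ⊢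
    exact conj_mem h2 hA₀ hA₀' (Subgroup.mem_centralizer_singleton_iff.1 g.2) hx⟩
  have hcomp : Cfsg.IsComponent (L.subgroupOf C) :=
    ⟨hLn.isSubnormal, isQuasisimple_of_equiv (Subgroup.subgroupOfEquivOfLe hLC).symm hq⟩
  have hcomm : commutator ↥C ≤ L.subgroupOf C := by
    rw [commutator_def, Subgroup.commutator_le]
    intro x _ y _
    obtain ⟨A, D, hx⟩ := exists_blocks h2 hA₀ hA₀' (Subgroup.mem_centralizer_singleton_iff.1 x.2)
    obtain ⟨B, E, hy⟩ := exists_blocks h2 hA₀ hA₀' (Subgroup.mem_centralizer_singleton_iff.1 y.2)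
    obtain ⟨K, N, hk⟩ := exists_blocks h2 hA₀ hA₀'
      (Subgroup.mem_centralizer_singleton_iff.1 (⁅x, y⁆).2)
    have heq : ⁅x, y⁆ * (y * x) = x * y := by
      rw [commutatorElement_def]; group
    have h := congrArg (fun w : ↥C => w.1.1) heq
    simp only [Subgroup.coe_mul, sl_mul] at h
    rw [hx, hy, hk, ← re_mul, ← re_mul, ← re_mul] at h
    have h' := re_inj h
    rw [fromBlocks_multiply, fromBlocks_multiply, fromBlocks_multiply, fromBlocks_inj] at h'
    have hN : N * (E * D) = D * E := by simpa using h'.2.2.2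
    have hN1 : N = 1 := by
      have hdD := det_blocks hx
      have hdE := det_blocks hy
      have h0 : N 0 0 * (E 0 0 * D 0 0) = D 0 0 * E 0 0 := by
        simpa [Matrix.mul_apply] using congrFun (congrFun hN 0) 0
      simp only [det_fin_one] at hdD hdE
      ext i j
      rw [Fin.fin_one_eq_zero i, Fin.fin_one_eq_zero j, one_apply_eq]
      exact mul_right_cancel₀ (mul_ne_zero (right_ne_zero_of_mul_eq_one hdE)
        (right_ne_zero_of_mul_eq_one hdD)) (by rw [h0, one_mul, mul_comm])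
    subst hN1
    have hK := det_blocks hk
    rw [det_one, mul_one] at hK
    exact ⟨⟨K, hK⟩, sl_ext hk.symm⟩
  have hlayer : (Cfsg.layer ↥C).map C.subtype = L := by
    have h : Cfsg.layer ↥C = L.subgroupOf C := by
      refine le_antisymm (sSup_le fun K hK => ?_) (le_sSup hcomp)
      have hp : ⁅K, K⁆ = K := by
        have := congrArg (Subgroup.map K.subtype) hK.2.1.commutator_eq_top
        rwa [commutator_def, Subgroup.map_commutator, ← MonoidHom.range_eq_map,
          Subgroup.range_subtype] at this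
      rw [← hp]
      refine le_trans ?_ hcomm
      rw [commutator_def]
      exact Subgroup.commutator_mono le_top le_top
    rw [h]
    exact Subgroup.map_subgroupOf_eq_of_le hLC
  rw [hlayer]
  set Z := Subgroup.centralizer (L : Set G₁) with hZdef
  have htZ : t ∈ Z := by
    rw [hZdef, Subgroup.mem_centralizer_iff]
    intro x hx
    exact Subgroup.mem_centralizer_singleton_iff.1 (hLC hx)
  have ht2 : orderOf t = 2 := by
    apply orderOf_eq_prime
    · rw [← hA₀, ← map_pow, ← map_one emb]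
      refine congrArg emb (sl_ext ?_)
      rw [sl_sq, hA₀', sl_one]
      simp
    · intro h
      rw [← hA₀] at h
      have h' := sl_val (emb_injective (h.trans (map_one emb).symm))
      rw [hA₀'] at h'
      have := congrFun (congrFun h' ⟨0, by omega⟩) ⟨0, by omega⟩
      simp at this
      exact h2 (by linear_combination -this)
  have hCN : ∀ g : G₁, g * t = t * g → g ∈ Subgroup.normalizer (L : Set G₁) := by
    intro g hg
    rw [Subgroup.mem_normalizer_iff]
    intro x
    refine ⟨fun hx => conj_mem h2 hA₀ hA₀' hg hx, fun hx => ?_⟩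
    have := conj_mem h2 hA₀ hA₀' (g := g⁻¹) ((Commute.inv_left hg).eq) hx
    rwa [show g⁻¹ * (g * x * g⁻¹) * g⁻¹⁻¹ = x by group] at this
  refine ⟨hq, ⟨even_iff_two_dvd.mpr (ht2 ▸ Subgroup.orderOf_dvd_natCard _ htZ), fun g hg => ?_⟩,
    fun g hg hbot => ?_, ?_⟩
  · by_contra hodd
    rw [Nat.not_odd_iff_even, even_iff_two_dvd] at hodd
    obtain ⟨⟨y, hy⟩, hy2⟩ := exists_prime_orderOf_dvd_card' 2 hodd
    obtain ⟨hyZ, z, hz, hzy⟩ := hy
    have hy2' : orderOf y = 2 := (Subgroup.orderOf_coe _).trans hy2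
    have hz2 : orderOf z = 2 := by
      rw [← hy2', ← hzy]
      exact ((MulAut.conj g).orderOf_eq z).symm
    have e1 := involution_centralizer h2 hm hm3 hA₀ hA₀' hyZ hy2'
    have e2 := involution_centralizer h2 hm hm3 hA₀ hA₀' hz hz2
    rw [e1, e2] at hzy
    have hgt : g * t = t * g := mul_inv_eq_iff_eq_mul.1 hzy
    apply hg
    have hgN := hCN g hgt
    rw [Subgroup.mem_normalizer_iff]
    intro w
    constructor
    · intro hw
      rw [Subgroup.mem_centralizer_iff] at hw ⊢
      intro x hx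
      have hx' : g⁻¹ * x * g ∈ L := by
        have := (Subgroup.mem_normalizer_iff.1 ((Subgroup.normalizer _).inv_mem hgN) x).1 hx
        rwa [inv_inv] at this
      calc x * (g * w * g⁻¹) = g * ((g⁻¹ * x * g) * w) * g⁻¹ := by group
        _ = g * (w * (g⁻¹ * x * g)) * g⁻¹ := by rw [hw _ hx']
        _ = g * w * g⁻¹ * x := by group
    · intro hw
      rw [Subgroup.mem_centralizer_iff] at hw ⊢
      intro x hx
      have hx' : g * x * g⁻¹ ∈ L := (Subgroup.mem_normalizer_iff.1 hgN x).1 hx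
      calc x * w = g⁻¹ * ((g * x * g⁻¹) * (g * w * g⁻¹)) * g := by group
        _ = g⁻¹ * ((g * w * g⁻¹) * (g * x * g⁻¹)) * g := by rw [hw _ hx']
        _ = w * x := by group
  · -- a conjugate commuting with `L` would be abelian
    rw [Subgroup.commutator_comm, Subgroup.commutator_eq_bot_iff_le_centralizer] at hbot
    have hab : ∀ x ∈ Z, ∀ y ∈ Z, x * y = y * x := by
      intro x hx y hy
      obtain ⟨a, D, hxv⟩ := centralizer_facts h2 hm hm3 hA₀ hA₀' hx
      obtain ⟨b, E, hyv⟩ := centralizer_facts h2 hm hm3 hA₀ hA₀' hy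
      apply sl_ext
      rw [sl_mul, sl_mul, hxv, hyv, ← re_mul, ← re_mul,
        fromBlocks_multiply, fromBlocks_multiply]
      refine congrArg re ?_
      have hDE : D * E = E * D := by
        ext i j
        rw [Fin.fin_one_eq_zero i, Fin.fin_one_eq_zero j]
        simp [Matrix.mul_apply, mul_comm]
      simp [hDE, mul_comm a b]
    have hLab : ∀ x ∈ L, ∀ y ∈ L, x * y = y * x := fun x hx y hy =>
      (MulAut.conj g).injective (by
        rw [map_mul, map_mul]
        exact hab _ (hbot ⟨x, hx, rfl⟩) _ (hbot ⟨y, hy, rfl⟩))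
    haveI := hq.1
    haveI := quasisimple_nontrivial hq
    refine Group.IsPerfect.not_isSolvable ↥L ?_
    exact Group.isSolvable_of_comm fun a b => Subtype.ext (hLab _ a.2 _ b.2)
  · refine le_antisymm (fun g hg => ?_) (fun g hg => hCN g ?_)
    · rw [Subgroup.mem_normalizer_iff]
      intro w
      constructor
      · intro hw
        rw [Subgroup.mem_centralizer_iff] at hw ⊢
        intro x hx
        have hx' : g⁻¹ * x * g ∈ L := by
          have := (Subgroup.mem_normalizer_iff.1 ((Subgroup.normalizer _).inv_mem hg) x).1 hx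
          rwa [inv_inv] at this
        calc x * (g * w * g⁻¹) = g * ((g⁻¹ * x * g) * w) * g⁻¹ := by group
          _ = g * (w * (g⁻¹ * x * g)) * g⁻¹ := by rw [hw _ hx']
          _ = g * w * g⁻¹ * x := by group
      · intro hw
        rw [Subgroup.mem_centralizer_iff] at hw ⊢
        intro x hx
        have hx' : g * x * g⁻¹ ∈ L := (Subgroup.mem_normalizer_iff.1 hg x).1 hx
        calc x * w = g⁻¹ * ((g * x * g⁻¹) * (g * w * g⁻¹)) * g := by group
          _ = g⁻¹ * ((g * w * g⁻¹) * (g * x * g⁻¹)) * g := by rw [hw _ hx']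
          _ = w * x := by group
    · have h1 : g * t * g⁻¹ ∈ Z := (Subgroup.mem_normalizer_iff.1 hg t).1 htZ
      have h3 := involution_centralizer h2 hm hm3 hA₀ hA₀' h1
        (((MulAut.conj g).orderOf_eq t).trans ht2)
      exact mul_inv_eq_iff_eq_mul.1 h3

end Cfsg.Agent.PermGroups.SLStandard
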