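import Cfsg.Agent.PermGroups.MaximalFixed

/-!
In a `k`-transitive group with `4 ≤ k < n` some set of `k + 1` points has all even permutations
induced.
-/

set_option autoImplicit false
set_option linter.unusedSectionVars false
set_option linter.style.haveILetI false

namespace Cfsg.Agent.PermGroups

open MulAction

universe u

variable {α : Type u} [Fintype α] [DecidableEq α]

/-- A multiply transitive group extends injective maps on small sets. -/
theorem exists_extend {G : Subgroup (Equiv.Perm α)} {k : ℕ} (hk : IsMultiplyPretransitive G α k)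
    (s : Finset α) (hs : s.card = k) (f : α → α) (hf : Set.InjOn f s) :
    ∃ g ∈ G, ∀ x ∈ s, g x = f x := by
  let e := s.equivFinOfCardEq hs
  let u : Fin k ↪ α := ⟨fun i => (e.symm i : α), fun i j h => e.symm.injective (Subtype.ext h)⟩
  let v : Fin k ↪ α :=
    ⟨fun i => f (e.symm i : α), fun i j h => e.symm.injective (Subtype.ext (hf (e.symm i).2 (e.symm j).2 h))⟩
  obtain ⟨g, hg⟩ := hk.exists_smul_eq u v
  refine ⟨g, g.2, fun x hx => ?_⟩
  have h : g • ((e.symm (e ⟨x, hx⟩)) : α) = f ((e.symm (e ⟨x, hx⟩)) : α) :=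
    congrArg (fun q : Fin k ↪ α => q (e ⟨x, hx⟩)) hg
  rwa [Equiv.symm_apply_apply] at h

/-- With transitive stabilisers of `k`-sets all permutations of a set are induced. -/
theorem induces_of_succ_transitive {G : Subgroup (Equiv.Perm α)} {k : ℕ}
    (hk : IsMultiplyPretransitive G α k) (Δ : Finset α) (hΔ : Δ.card = k) (σ : Equiv.Perm Δ) :
    ∃ g ∈ G, ∀ x : Δ, g (x : α) = σ x := by
  obtain ⟨g, hg, h⟩ := exists_extend hk Δ hΔ (fun x => Equiv.Perm.ofSubtype σ x)
    ((Equiv.injective _).injOn)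
  refine ⟨g, hg, fun x => ?_⟩
  rw [h x x.2, Equiv.Perm.ofSubtype_apply_coe]

/-- The point outside a set which an element of small order must fix. -/
theorem exists_extra_fixed (Γ : Finset α) (g : Equiv.Perm α) {r : ℕ} (hr : r.Prime) (hg : g ^ r = 1)
    (M : Finset α) (hM : M ⊆ Γ) (hMr : M.card = r) (hmove : ∀ x ∈ M, g x ≠ x)
    (hfix : ∀ x ∈ Γ, x ∉ M → g x = x) (hn : Fintype.card α % r = (Γ.card + 1) % r)
    (hle : (Finset.univ.filter fun x => g x = x).card ≤ Γ.card) (hsmall : r ≤ 3) :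
    ∃ e, e ∉ Γ ∧ g e = e ∧ ∀ x, x ∉ Γ → g x = x → x = e := by
  set X := (Finset.univ.filter fun x => g x = x) with hX
  have hmod : Fintype.card α ≡ X.card [MOD r] :=
    card_modEq_card_filter_fixed g hr hg Finset.univ (Finset.image_univ_of_surjective g.surjective)
  have hsub : Γ \ M ⊆ X := fun x hx => by
    rw [Finset.mem_sdiff] at hx
    exact Finset.mem_filter.2 ⟨Finset.mem_univ _, hfix x hx.1 hx.2⟩
  have hout : X \ Γ = X \ (Γ \ M) := by
    ext x
    simp only [Finset.mem_sdiff, hX, Finset.mem_filter, Finset.mem_univ, true_and]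
    exact ⟨fun h => ⟨h.1, fun h' => h.2 h'.1⟩, fun h => ⟨h.1, fun hΓ => h.2 ⟨hΓ, fun hM' => hmove x hM' h.1⟩⟩⟩
  have hc : (X \ Γ).card = 1 := by
    rw [hout, Finset.card_sdiff_of_subset hsub, Finset.card_sdiff_of_subset hM, hMr]
    have h1 := Finset.card_le_card hsub
    rw [Finset.card_sdiff_of_subset hM, hMr] at h1
    have h2 : r ≤ Γ.card := hMr ▸ Finset.card_le_card hM
    unfold Nat.ModEq at hmod
    rw [hn] at hmod
    have h3 : 2 ≤ r := hr.two_le
    interval_cases r <;> omega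
  obtain ⟨e, he⟩ := Finset.card_eq_one.1 hc
  have hmem : e ∈ X \ Γ := by rw [he]; exact Finset.mem_singleton_self e
  rw [Finset.mem_sdiff] at hmem
  refine ⟨e, hmem.2, (Finset.mem_filter.1 hmem.1).2, fun x hx hgx => ?_⟩
  have : x ∈ X \ Γ := Finset.mem_sdiff.2 ⟨Finset.mem_filter.2 ⟨Finset.mem_univ _, hgx⟩, hx⟩
  rwa [he, Finset.mem_singleton] at this

/-- The three-cycle through three points. -/
theorem three_swap_apply {a b c : α} (hab : a ≠ b) (hac : a ≠ c) (hbc : b ≠ c) :
    (Equiv.swap a c * Equiv.swap a b) a = b ∧ (Equiv.swap a c * Equiv.swap a b) b = c ∧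
      (Equiv.swap a c * Equiv.swap a b) c = a ∧
      (∀ x, x ≠ a → x ≠ b → x ≠ c → (Equiv.swap a c * Equiv.swap a b) x = x) ∧
      ∀ x, (Equiv.swap a c * Equiv.swap a b)
        ((Equiv.swap a c * Equiv.swap a b) ((Equiv.swap a c * Equiv.swap a b) x)) = x := by
  have h1 : (Equiv.swap a c * Equiv.swap a b) a = b := by
    simp [Equiv.swap_apply_of_ne_of_ne hab.symm hbc]
  have h2 : (Equiv.swap a c * Equiv.swap a b) b = c := by simp
  have h3 : (Equiv.swap a c * Equiv.swap a b) c = a := by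
    simp [Equiv.swap_apply_of_ne_of_ne hac.symm hbc.symm]
  have h4 : ∀ x, x ≠ a → x ≠ b → x ≠ c → (Equiv.swap a c * Equiv.swap a b) x = x := fun x p q r => by
    simp [Equiv.swap_apply_of_ne_of_ne p q, Equiv.swap_apply_of_ne_of_ne p r]
  refine ⟨h1, h2, h3, h4, fun x => ?_⟩
  by_cases p : x = a
  · rw [p, h1, h2, h3]
  by_cases q : x = b
  · rw [q, h2, h3, h1]
  by_cases r : x = c
  · rw [r, h3, h1, h2]
  rw [h4 x p q r, h4 x p q r, h4 x p q r]

/-- Sharply `k`-transitive groups with `k + 1 ≡ n` modulo two and three: every `k`-set has a further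
point fixed by all elements preserving it. -/
theorem exists_common_point {G : Subgroup (Equiv.Perm α)} {k : ℕ} (hk4 : 4 ≤ k)
    (hk : IsMultiplyPretransitive G α k)
    (hsharp : ∀ g ∈ G, ∀ s : Finset α, k ≤ s.card → (∀ x ∈ s, g x = x) → g = 1)
    (hn2 : Fintype.card α % 2 = (k + 1) % 2) (hn3 : Fintype.card α % 3 = (k + 1) % 3)
    (Γ : Finset α) (hΓ : Γ.card = k) :
    ∃ e, e ∉ Γ ∧ ∀ g ∈ G, (∀ x ∈ Γ, g x ∈ Γ) → g e = e := by
  have huniq : ∀ g ∈ G, ∀ h ∈ G, (∀ x ∈ Γ, g x = h x) → g = h := by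
    intro g hg h hh he
    exact (inv_mul_eq_one.1 (hsharp _ (G.mul_mem (G.inv_mem hh) hg) Γ hΓ.ge fun x hx => by
      rw [Equiv.Perm.mul_apply, he x hx]; exact h.symm_apply_apply x)).symm
  have hle : ∀ g ∈ G, g ≠ 1 → (Finset.univ.filter fun x => g x = x).card ≤ Γ.card := by
    intro g hg hg1
    by_contra h
    exact hg1 (hsharp g hg (Finset.univ.filter fun x => g x = x) (by omega) fun x hx => (Finset.mem_filter.1 hx).2)
  -- transpositions of the set
  have hswap : ∀ a ∈ Γ, ∀ b ∈ Γ, a ≠ b → ∃ t ∈ G, (∀ x ∈ Γ, t x = Equiv.swap a b x) ∧ t * t = 1 ∧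
      ∃ e, e ∉ Γ ∧ t e = e ∧ ∀ x, x ∉ Γ → t x = x → x = e := by
    intro a ha b hb hab
    obtain ⟨t, ht, htΓ⟩ := exists_extend hk Γ hΓ (Equiv.swap a b) ((Equiv.injective _).injOn)
    have hΓs : ∀ x ∈ Γ, Equiv.swap a b x ∈ Γ := by
      intro x hx
      rw [Equiv.swap_apply_def]
      split_ifs <;> assumption
    have htt : t * t = 1 := huniq _ (G.mul_mem ht ht) 1 G.one_mem fun x hx => by
      rw [Equiv.Perm.mul_apply, htΓ x hx, htΓ _ (hΓs x hx), Equiv.swap_apply_self]; rfl
    have hta : t a = b := by rw [htΓ a ha, Equiv.swap_apply_left]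
    have htb : t b = a := by rw [htΓ b hb, Equiv.swap_apply_right]
    refine ⟨t, ht, htΓ, htt, exists_extra_fixed Γ t Nat.prime_two (by rw [sq]; exact htt) {a, b}
      (by simp [Finset.insert_subset_iff, ha, hb]) (Finset.card_pair hab) ?_ ?_ (by rw [hΓ]; exact hn2)
      (hle t ht fun e => hab (by rw [e] at hta; exact hta)) (by norm_num)⟩
    · intro x hx
      rcases Finset.mem_insert.1 hx with rfl | hx
      · rw [hta]; exact hab.symm
      · rw [Finset.mem_singleton] at hx; subst hx; rw [htb]; exact hab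
    · intro x hx hxM
      simp only [Finset.mem_insert, Finset.mem_singleton, not_or] at hxM
      rw [htΓ x hx, Equiv.swap_apply_of_ne_of_ne hxM.1 hxM.2]
  choose! T hTG hTΓ hTT E hEΓ hTE hTuniq using hswap
  -- neighbouring transpositions share the point
  have hshare : ∀ a ∈ Γ, ∀ b ∈ Γ, ∀ c ∈ Γ, a ≠ b → a ≠ c → b ≠ c → E a b = E a c := by
    intro a ha b hb c hc hab hac hbc
    set σ : Equiv.Perm α := Equiv.swap a c * Equiv.swap a b with hσ
    obtain ⟨g, hg, hgΓ⟩ := exists_extend hk Γ hΓ σ ((Equiv.injective _).injOn)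
    have hσΓ : ∀ x ∈ Γ, σ x ∈ Γ := by
      intro x hx
      simp only [hσ, Equiv.Perm.mul_apply, Equiv.swap_apply_def]
      split_ifs <;> assumption
    have hσa : σ a = b := by
      simp [hσ, Equiv.swap_apply_left, Equiv.swap_apply_of_ne_of_ne hab.symm hbc]
    have hσb : σ b = c := by simp [hσ]
    have hσc : σ c = a := by
      simp [hσ, Equiv.swap_apply_of_ne_of_ne hac.symm hbc.symm]
    have hσo : ∀ x, x ≠ a → x ≠ b → x ≠ c → σ x = x := fun x h1 h2 h3 => by
      simp [hσ, Equiv.swap_apply_of_ne_of_ne h1 h2, Equiv.swap_apply_of_ne_of_ne h1 h3]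
    have hσ3 : ∀ x, σ (σ (σ x)) = x := by
      intro x
      by_cases h1 : x = a
      · subst h1; rw [hσa, hσb, hσc]
      by_cases h2 : x = b
      · subst h2; rw [hσb, hσc, hσa]
      by_cases h3 : x = c
      · subst h3; rw [hσc, hσa, hσb]
      rw [hσo x h1 h2 h3, hσo x h1 h2 h3, hσo x h1 h2 h3]
    have hg3 : g ^ 3 = 1 := huniq _ (G.pow_mem hg 3) 1 G.one_mem fun x hx => by
      rw [pow_succ, pow_two, Equiv.Perm.mul_apply, Equiv.Perm.mul_apply, hgΓ x hx, hgΓ _ (hσΓ x hx),
        hgΓ _ (hσΓ _ (hσΓ x hx)), hσ3]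
      rfl
    obtain ⟨e, heΓ, hge, heu⟩ := exists_extra_fixed Γ g Nat.prime_three hg3 {a, b, c}
      (by simp [Finset.insert_subset_iff, ha, hb, hc])
      (Finset.card_eq_three.2 ⟨a, b, c, hab, hac, hbc, rfl⟩) (fun x hx => by
        simp only [Finset.mem_insert, Finset.mem_singleton] at hx
        rcases hx with rfl | rfl | rfl
        · rw [hgΓ _ ha, hσa]; exact hab.symm
        · rw [hgΓ _ hb, hσb]; exact hbc.symm
        · rw [hgΓ _ hc, hσc]; exact hac)
      (fun x hx hxM => by
        simp only [Finset.mem_insert, Finset.mem_singleton, not_or] at hxM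
        rw [hgΓ x hx, hσo x hxM.1 hxM.2.1 hxM.2.2]) (by rw [hΓ]; exact hn3)
      (hle g hg fun e' => hab (by
        have h := hgΓ a ha
        rw [e', hσa] at h
        exact h)) le_rfl
    -- both transpositions invert the three-cycle
    have hinv : ∀ y ∈ ({b, c} : Finset α), E a y = e := by
      intro y hy
      have hy' : y ∈ Γ ∧ a ≠ y ∧ (y = b ∨ y = c) := by
        simp only [Finset.mem_insert, Finset.mem_singleton] at hy
        rcases hy with rfl | rfl
        · exact ⟨hb, hab, Or.inl rfl⟩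
        · exact ⟨hc, hac, Or.inr rfl⟩
      obtain ⟨hyΓ, hay, hyc⟩ := hy'
      set t := T a y with ht
      have htG := hTG a ha y hyΓ hay
      have hgt : g * t * g = t := huniq _ (G.mul_mem (G.mul_mem hg htG) hg) t htG fun x hx => by
        have hσΓy : ∀ z ∈ Γ, Equiv.swap a y z ∈ Γ := fun z hz => by
          rw [Equiv.swap_apply_def]; split_ifs <;> assumption
        rw [Equiv.Perm.mul_apply, Equiv.Perm.mul_apply, hgΓ x hx, hTΓ a ha y hyΓ hay _ (hσΓ x hx),
          hgΓ _ (hσΓy _ (hσΓ x hx)), hTΓ a ha y hyΓ hay x hx]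
        by_cases h1 : x = a
        · subst h1; rcases hyc with rfl | rfl <;>
            simp [hσa, hσb, hσc, Equiv.swap_apply_of_ne_of_ne hab.symm hbc]
        by_cases h2 : x = b
        · subst h2; rcases hyc with rfl | rfl <;>
            simp [hσa, hσb, hσc, Equiv.swap_apply_of_ne_of_ne hac.symm hbc.symm,
              Equiv.swap_apply_of_ne_of_ne hab.symm hbc]
        by_cases h3 : x = c
        · subst h3; rcases hyc with rfl | rfl <;>
            simp [hσa, hσb, hσc, Equiv.swap_apply_of_ne_of_ne hac.symm hbc.symm]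
        rw [hσo x h1 h2 h3, Equiv.swap_apply_of_ne_of_ne h1
          (by rcases hyc with rfl | rfl <;> assumption), hσo x h1 h2 h3]
      have hgte : g (t e) = t e := by
        have h := congrArg (fun τ : Equiv.Perm α => τ e) hgt
        simp only [Equiv.Perm.mul_apply, hge] at h
        exact h
      have hteΓ : t e ∉ Γ := fun hmem => by
        refine heΓ ?_
        have h := congrArg (fun τ : Equiv.Perm α => τ e) (hTT a ha y hyΓ hay)
        simp only [Equiv.Perm.mul_apply, Equiv.Perm.one_apply] at h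
        rw [← h, hTΓ a ha y hyΓ hay _ hmem, Equiv.swap_apply_def]
        split_ifs <;> assumption
      exact (hTuniq a ha y hyΓ hay e heΓ (heu _ hteΓ hgte)).symm
    rw [hinv b (by simp), hinv c (by simp)]
  have hsym : ∀ a ∈ Γ, ∀ b ∈ Γ, a ≠ b → E a b = E b a := by
    intro a ha b hb hab
    refine hTuniq b hb a ha hab.symm _ (hEΓ a ha b hb hab) ?_
    have : T b a = T a b := huniq _ (hTG b hb a ha hab.symm) _ (hTG a ha b hb hab) fun x hx => by
      rw [hTΓ b hb a ha hab.symm x hx, hTΓ a ha b hb hab x hx, Equiv.swap_comm]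
    rw [this]
    exact hTE a ha b hb hab
  obtain ⟨a₀, ha₀, b₀, hb₀, hab₀⟩ := Finset.one_lt_card.1 (show 1 < Γ.card by omega)
  have hall : ∀ a ∈ Γ, ∀ b ∈ Γ, a ≠ b → E a b = E a₀ b₀ := by
    have hfst : ∀ b ∈ Γ, a₀ ≠ b → E a₀ b = E a₀ b₀ := by
      intro b hb h
      rcases eq_or_ne b b₀ with rfl | hne
      · rfl
      · exact hshare a₀ ha₀ b hb b₀ hb₀ h hab₀ hne
    intro a ha b hb hab
    rcases eq_or_ne a a₀ with rfl | hna
    · exact hfst b hb hab
    rcases eq_or_ne b a₀ with rfl | hnb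
    · rw [hsym a ha b hb hab]; exact hfst a ha hab.symm
    rw [hshare a ha b hb a₀ ha₀ hab hna hnb, hsym a ha a₀ ha₀ hna]
    exact hfst a ha hna.symm
  refine ⟨E a₀ b₀, hEΓ a₀ ha₀ b₀ hb₀ hab₀, fun g hg hgΓ => ?_⟩
  -- permutations of the set
  have key : ∀ π : Equiv.Perm Γ, ∀ g ∈ G, (∀ x : Γ, g (x : α) = π x) → g (E a₀ b₀) = E a₀ b₀ := by
    intro π
    induction π using Equiv.Perm.swap_induction_on with
    | one =>
      intro g hg h
      rw [huniq g hg 1 G.one_mem fun x hx => h ⟨x, hx⟩]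
      rfl
    | swap_mul π x y hxy ih =>
      intro g hg h
      have hxy' : (x : α) ≠ y := fun e => hxy (Subtype.ext e)
      have htG := hTG x x.2 y y.2 hxy'
      have h1 := ih (T x y * g) (G.mul_mem htG hg) fun z => by
        rw [Equiv.Perm.mul_apply, h z, Equiv.Perm.mul_apply, hTΓ x x.2 y y.2 hxy' _ (Subtype.coe_prop _),
          Subtype.coe_injective.swap_apply, Equiv.swap_apply_self]
      rw [Equiv.Perm.mul_apply] at h1
      have h2 := congrArg (T x y) h1
      rw [← Equiv.Perm.mul_apply, hTT x x.2 y y.2 hxy', Equiv.Perm.one_apply] at h2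
      rw [h2, ← hall x x.2 y y.2 hxy', hTE x x.2 y y.2 hxy']
  let π : Equiv.Perm Γ := Equiv.ofBijective (fun x => ⟨g x, hgΓ x x.2⟩)
    (Finite.injective_iff_bijective.1 fun x y e => Subtype.ext (g.injective (congrArg Subtype.val e)))
  exact key π g hg fun x => rfl

/-- Every permutation of `Γ ∪ {e}` is induced in the sharply transitive case. -/
theorem induces_sharp {G : Subgroup (Equiv.Perm α)} {k : ℕ} (hk4 : 4 ≤ k)
    (hk : IsMultiplyPretransitive G α k)
    (hsharp : ∀ g ∈ G, ∀ s : Finset α, k ≤ s.card → (∀ x ∈ s, g x = x) → g = 1)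
    (hn2 : Fintype.card α % 2 = (k + 1) % 2) (hn3 : Fintype.card α % 3 = (k + 1) % 3)
    (hkn : k ≤ Fintype.card α) :
    ∃ Δ : Finset α, Δ.card = k + 1 ∧ ∀ σ : Equiv.Perm Δ, ∃ g ∈ G, ∀ x : Δ, g (x : α) = σ x := by
  obtain ⟨Γ, -, hΓ⟩ := Finset.exists_subset_card_eq (s := (Finset.univ : Finset α)) (n := k)
    (by rwa [Finset.card_univ])
  obtain ⟨e, he, hefix⟩ := exists_common_point hk4 hk hsharp hn2 hn3 Γ hΓ
  obtain ⟨d, hd⟩ := Finset.card_pos.1 (show 0 < Γ.card by omega)
  have hed : e ≠ d := fun h => he (h ▸ hd)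
  set Γ' := insert e (Γ.erase d) with hΓ'
  have hΓ'c : Γ'.card = k := by
    rw [hΓ', Finset.card_insert_of_notMem fun h => he (Finset.mem_of_mem_erase h),
      Finset.card_erase_of_mem hd, hΓ]
    omega
  obtain ⟨e', he', he'fix⟩ := exists_common_point hk4 hk hsharp hn2 hn3 Γ' hΓ'c
  have he'd : e' = d := by
    -- a three-cycle away from `d` fixes both
    obtain ⟨a, b, c, ha, hb, hc, hab, hac, hbc⟩ := Finset.two_lt_card_iff.1
      (show 2 < (Γ.erase d).card by rw [Finset.card_erase_of_mem hd, hΓ]; omega)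
    obtain ⟨had, haΓ⟩ := Finset.mem_erase.1 ha
    obtain ⟨hbd, hbΓ⟩ := Finset.mem_erase.1 hb
    obtain ⟨hcd, hcΓ⟩ := Finset.mem_erase.1 hc
    set σ : Equiv.Perm α := Equiv.swap a c * Equiv.swap a b with hσ
    have hσΓ : ∀ x ∈ Γ, σ x ∈ Γ := by
      intro x hx
      simp only [hσ, Equiv.Perm.mul_apply, Equiv.swap_apply_def]
      split_ifs <;> assumption
    obtain ⟨g, hg, hgΓ⟩ := exists_extend hk Γ hΓ σ ((Equiv.injective _).injOn)
    have hgd : g d = d := by
      rw [hgΓ d hd, hσ, Equiv.Perm.mul_apply, Equiv.swap_apply_of_ne_of_ne (Ne.symm had) (Ne.symm hbd),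
        Equiv.swap_apply_of_ne_of_ne (Ne.symm had) (Ne.symm hcd)]
    have hge : g e = e := hefix g hg fun x hx => hgΓ x hx ▸ hσΓ x hx
    have hgΓ' : ∀ x ∈ Γ', g x ∈ Γ' := by
      intro x hx
      rcases Finset.mem_insert.1 hx with rfl | hx
      · rw [hge]; exact Finset.mem_insert_self _ _
      · obtain ⟨hxd, hxΓ⟩ := Finset.mem_erase.1 hx
        refine Finset.mem_insert_of_mem (Finset.mem_erase.2 ⟨fun h => hxd ?_, hgΓ x hxΓ ▸ hσΓ x hxΓ⟩)
        exact g.injective (h.trans hgd.symm)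
    have hge' := he'fix g hg hgΓ'
    -- the fixed points of `g` outside `Γ` reduce to `e`
    have hle : (Finset.univ.filter fun x => g x = x).card ≤ Γ.card := by
      by_contra h
      have h1 := hsharp g hg (Finset.univ.filter fun x => g x = x) (by omega) fun x hx => (Finset.mem_filter.1 hx).2
      have h2 := hgΓ a haΓ
      rw [h1, hσ, Equiv.Perm.mul_apply, Equiv.swap_apply_left,
        Equiv.swap_apply_of_ne_of_ne hab.symm hbc] at h2
      exact hab h2
    have hσ3 : g ^ 3 = 1 := by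
      refine hsharp _ (G.pow_mem hg 3) Γ hΓ.ge fun x hx => ?_
      rw [pow_succ, pow_two, Equiv.Perm.mul_apply, Equiv.Perm.mul_apply, hgΓ x hx, hgΓ _ (hσΓ x hx),
        hgΓ _ (hσΓ _ (hσΓ x hx))]
      exact (three_swap_apply hab hac hbc).2.2.2.2 x
    obtain ⟨f, hfΓ, hgf, hfu⟩ := exists_extra_fixed Γ g Nat.prime_three hσ3 {a, b, c}
      (by simp [Finset.insert_subset_iff, haΓ, hbΓ, hcΓ])
      (Finset.card_eq_three.2 ⟨a, b, c, hab, hac, hbc, rfl⟩) (fun x hx => by
        simp only [Finset.mem_insert, Finset.mem_singleton] at hx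
        rcases hx with rfl | rfl | rfl
        · rw [hgΓ _ haΓ, hσ, (three_swap_apply hab hac hbc).1]; exact hab.symm
        · rw [hgΓ _ hbΓ, hσ, (three_swap_apply hab hac hbc).2.1]; exact hbc.symm
        · rw [hgΓ _ hcΓ, hσ, (three_swap_apply hab hac hbc).2.2.1]; exact hac)
      (fun x hx hxM => by
        simp only [Finset.mem_insert, Finset.mem_singleton, not_or] at hxM
        rw [hgΓ x hx, hσ, (three_swap_apply hab hac hbc).2.2.2.1 x hxM.1 hxM.2.1 hxM.2.2])
      (by rw [hΓ]; exact hn3) hle le_rfl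
    by_contra hne
    have h1 : e' ∉ Γ := fun h => he' (Finset.mem_insert_of_mem (Finset.mem_erase.2 ⟨hne, h⟩))
    exact he' ((hfu e' h1 hge').trans (hfu e he hge).symm ▸ Finset.mem_insert_self _ _)
  subst he'd
  refine ⟨insert e Γ, by rw [Finset.card_insert_of_notMem he, hΓ], ?_⟩
  -- swaps avoiding one of the two extra points
  have hsw : ∀ (S : Finset α) (z : α), S.card = k → z ∉ S →
      (∀ g ∈ G, (∀ x ∈ S, g x ∈ S) → g z = z) → insert z S = insert e Γ →
      ∀ x y : (insert e Γ : Finset α), (x : α) ∈ S → (y : α) ∈ S →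
        ∃ g ∈ G, ∀ w : (insert e Γ : Finset α), g (w : α) = Equiv.swap x y w := by
    intro S z hS hz hfix heq x y hx hy
    obtain ⟨g, hg, hgS⟩ := exists_extend hk S hS (Equiv.swap (x : α) y) ((Equiv.injective _).injOn)
    refine ⟨g, hg, fun w => ?_⟩
    rw [← Subtype.coe_injective.swap_apply]
    have hw : (w : α) ∈ insert z S := by rw [heq]; exact w.2
    rcases Finset.mem_insert.1 hw with hw | hw
    · rw [hw, hfix g hg fun u hu => by
          rw [hgS u hu, Equiv.swap_apply_def]; split_ifs <;> assumption,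
        Equiv.swap_apply_of_ne_of_ne (ne_of_mem_of_not_mem hx hz).symm (ne_of_mem_of_not_mem hy hz).symm]
    · exact hgS _ hw
  have heq' : insert e' Γ' = insert e Γ := by
    rw [hΓ', Finset.insert_comm, Finset.insert_erase hd]
  have hswaps : ∀ x y : (insert e Γ : Finset α), x ≠ y →
      ∃ g ∈ G, ∀ w : (insert e Γ : Finset α), g (w : α) = Equiv.swap x y w := by
    intro x y hxy
    have hxy' : (x : α) ≠ y := fun h => hxy (Subtype.ext h)
    have hmem : ∀ z : (insert e Γ : Finset α), (z : α) ≠ e → (z : α) ∈ Γ := fun z h =>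
      (Finset.mem_insert.1 z.2).resolve_left h
    have hmem' : ∀ z : (insert e Γ : Finset α), (z : α) ≠ e' → (z : α) ∈ Γ' := fun z h =>
      (Finset.mem_insert.1 (heq'.symm ▸ z.2 : (z : α) ∈ insert e' Γ')).resolve_left h
    by_cases h1 : (x : α) ≠ e ∧ (y : α) ≠ e
    · exact hsw Γ e hΓ he hefix rfl x y (hmem x h1.1) (hmem y h1.2)
    by_cases h2 : (x : α) ≠ e' ∧ (y : α) ≠ e'
    · exact hsw Γ' e' hΓ'c he' he'fix heq' x y (hmem' x h2.1) (hmem' y h2.2)
    obtain ⟨c, hc, hcd⟩ := Finset.exists_mem_ne (show 1 < Γ.card by omega) e'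
    have hce : c ≠ e := fun h => he (h ▸ hc)
    let c' : (insert e Γ : Finset α) := ⟨c, Finset.mem_insert_of_mem hc⟩
    let d' : (insert e Γ : Finset α) := ⟨e', Finset.mem_insert_of_mem hd⟩
    let e₁ : (insert e Γ : Finset α) := ⟨e, Finset.mem_insert_self _ _⟩
    obtain ⟨g₁, hg₁, h₁⟩ := hsw Γ e hΓ he hefix rfl c' d' hc hd
    obtain ⟨g₂, hg₂, h₂⟩ := hsw Γ' e' hΓ'c he' he'fix heq' e₁ c'
      (Finset.mem_insert_self _ _) (Finset.mem_insert_of_mem (Finset.mem_erase.2 ⟨hcd, hc⟩))
    refine ⟨g₁ * g₂ * g₁, G.mul_mem (G.mul_mem hg₁ hg₂) hg₁, fun w => ?_⟩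
    rw [Equiv.Perm.mul_apply, Equiv.Perm.mul_apply, h₁, h₂, h₁]
    congr 1
    have hconj : Equiv.swap c' d' * Equiv.swap e₁ c' * Equiv.swap c' d' = Equiv.swap e₁ d' := by
      have h := (Equiv.mul_swap_eq_swap_mul (Equiv.swap c' d') e₁ c')
      rw [h, Equiv.swap_apply_left, Equiv.swap_apply_of_ne_of_ne (fun h => hce (congrArg Subtype.val h).symm)
        (fun h => hed (congrArg Subtype.val h)), mul_assoc, Equiv.swap_mul_self, mul_one]
    have hpair : (x = e₁ ∧ y = d') ∨ (x = d' ∧ y = e₁) := by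
      simp only [not_and_or, not_not] at h1 h2
      rcases h1 with h1 | h1 <;> rcases h2 with h2 | h2
      · exact absurd (h1.symm.trans h2) hed
      · exact Or.inl ⟨Subtype.ext h1, Subtype.ext h2⟩
      · exact Or.inr ⟨Subtype.ext h2, Subtype.ext h1⟩
      · exact absurd (h1.symm.trans h2) hed
    have h := Equiv.congr_fun hconj w
    simp only [Equiv.Perm.mul_apply] at h
    rw [h]
    rcases hpair with ⟨rfl, rfl⟩ | ⟨rfl, rfl⟩
    · rfl
    · rw [Equiv.swap_comm]
  intro σ
  induction σ using Equiv.Perm.swap_induction_on with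
  | one => exact ⟨1, G.one_mem, fun x => rfl⟩
  | swap_mul σ x y hxy ih =>
    obtain ⟨g, hg, h⟩ := ih
    obtain ⟨t, ht, h'⟩ := hswaps x y hxy
    exact ⟨t * g, G.mul_mem ht hg, fun w => by rw [Equiv.Perm.mul_apply, h, h']; rfl⟩

set_option maxHeartbeats 1000000 in
/-- **Alternating set stabilisers.** -/
theorem exists_induces_alternating : ∀ n : ℕ, ∀ {α : Type u} [Fintype α] [DecidableEq α],
    Fintype.card α = n → ∀ (G : Subgroup (Equiv.Perm α)) {k : ℕ}, 4 ≤ k → k < n →
    IsMultiplyPretransitive G α k →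
    ∃ Δ : Finset α, Δ.card = k + 1 ∧
      ∀ σ : Equiv.Perm Δ, σ ∈ alternatingGroup Δ → ∃ g ∈ G, ∀ x : Δ, g (x : α) = σ x := by
  intro n
  induction n using Nat.strong_induction_on with
  | _ n ih =>
  intro α _ _ hn G k hk4 hkn hk
  subst hn
  obtain ⟨Γ, -, hΓ⟩ := Finset.exists_subset_card_eq (s := (Finset.univ : Finset α)) (n := k + 1)
    (by rw [Finset.card_univ]; omega)
  by_cases hsmall : Fintype.card α ≤ k + 2
  · -- the group contains the alternating group
    have hle : alternatingGroup α ≤ G := by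
      apply Equiv.Perm.alternatingGroup_le_of_index_le_two
      obtain ⟨s, -, hs⟩ := Finset.exists_subset_card_eq (s := (Finset.univ : Finset α)) (n := k)
        (by rw [Finset.card_univ]; omega)
      have h := natCard_eq_descFactorial_mul hk (by omega) k s hs le_rfl
      have hidx := G.index_mul_card
      rw [h, Nat.card_perm, Nat.card_eq_fintype_card (α := α), ← Nat.factorial_mul_descFactorial (show k ≤ Fintype.card α by omega)] at hidx
      have hpos : 0 < (Fintype.card α).descFactorial k :=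
        Nat.pos_of_ne_zero fun e0 => by rw [Nat.descFactorial_eq_zero_iff_lt] at e0; omega
      have h2 : G.index * Nat.card (fixingSubgroup G (s : Set α)) = (Fintype.card α - k).factorial :=
        Nat.eq_of_mul_eq_mul_right hpos (by rw [← hidx]; ring)
      have h3 : (Fintype.card α - k).factorial ≤ 2 :=
        (Nat.factorial_le (show Fintype.card α - k ≤ 2 by omega)).trans (le_of_eq rfl)
      have h4 : 0 < Nat.card (fixingSubgroup G (s : Set α)) := Nat.card_pos
      nlinarith
    refine ⟨Γ, hΓ, fun σ hσ => ⟨Equiv.Perm.ofSubtype σ, hle ?_, fun x => Equiv.Perm.ofSubtype_apply_coe σ x⟩⟩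
    rw [Equiv.Perm.mem_alternatingGroup, Equiv.Perm.sign_ofSubtype]
    exact Equiv.Perm.mem_alternatingGroup.1 hσ
  by_cases hfix : ∃ g : G, g ≠ 1 ∧ k < (fixFinset g : Finset α).card
  · -- a smaller group
    obtain ⟨g, hg1, hgk⟩ := hfix
    obtain ⟨p, hp, hpd⟩ := Nat.exists_prime_and_dvd (fun h : orderOf g = 1 => hg1 (orderOf_eq_one_iff.1 h))
    haveI := Fact.mk hp
    obtain ⟨m, hm⟩ := hpd
    have hm0 : m ≠ 0 := fun e => (orderOf_pos g).ne' (by rw [hm, e, mul_zero])
    have hord : orderOf (g ^ m) = p := by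
      rw [orderOf_pow' _ hm0, hm, Nat.gcd_eq_right (dvd_mul_left m p), Nat.mul_div_cancel _ (Nat.pos_of_ne_zero hm0)]
    obtain ⟨Φ, M, hΦk, hΦn, -, hM, hlift⟩ := exists_restricted_transitive G (by omega) hk (by omega)
      (g := g ^ m) (p := p) (fun e => by rw [e, orderOf_one] at hord; exact hp.one_lt.ne hord)
      ⟨1, by rw [pow_one, ← hord]; exact pow_orderOf_eq_one _⟩
      (lt_of_lt_of_le hgk (Finset.card_le_card fun x hx => by
        rw [mem_fixFinset] at hx ⊢
        have hmem : g ∈ stabilizer G x := hx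
        exact pow_mem hmem m))
    obtain ⟨Δ', hΔ', hind⟩ := ih Φ.card hΦn (Fintype.card_coe Φ) M hk4 hΦk hM
    refine ⟨Δ'.map (Function.Embedding.subtype _), by rw [Finset.card_map]; exact hΔ', fun σ hσ => ?_⟩
    let e : {x // x ∈ Δ'} ≃ {x // x ∈ Δ'.map (Function.Embedding.subtype _)} :=
      Equiv.ofBijective (fun x => ⟨((x : Φ) : α), Finset.mem_map.2 ⟨x, x.2, rfl⟩⟩)
        ⟨fun x y h => Subtype.ext (Subtype.ext (Subtype.mk.inj h :)), fun y => by
          obtain ⟨z, hz, hzy⟩ := Finset.mem_map.1 y.2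
          exact ⟨⟨z, hz⟩, Subtype.ext hzy⟩⟩
    obtain ⟨m', hm', hmσ⟩ := hind (e.symm.permCongr σ) (by
      rw [Equiv.Perm.mem_alternatingGroup, Equiv.Perm.sign_permCongr]
      exact Equiv.Perm.mem_alternatingGroup.1 hσ)
    obtain ⟨g', hg', hgm⟩ := hlift m' hm'
    refine ⟨g', hg', fun x => ?_⟩
    obtain ⟨z, rfl⟩ := e.surjective x
    show g' ((z : Φ) : α) = _
    rw [hgm (z : Φ), hmσ z, Equiv.permCongr_apply, Equiv.symm_symm]
    exact congrArg Subtype.val (e.apply_symm_apply (σ (e z)))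
  push Not at hfix
  -- the fixer of `k` points is semiregular outside
  have hfix5 : ∀ g : G, ∀ s : Finset α, k < s.card → (∀ x ∈ s, g • x = x) → g = 1 := by
    intro g s hs hgs
    by_contra hne
    have := Finset.card_le_card (s := s) (t := fixFinset g) fun x hx => mem_fixFinset.2 (hgs x hx)
    have := hfix g hne
    omega
  have hsucc : (IsMultiplyPretransitive G α (k + 1)) →
      ∃ Δ : Finset α, Δ.card = k + 1 ∧
        ∀ σ : Equiv.Perm Δ, σ ∈ alternatingGroup Δ → ∃ g ∈ G, ∀ x : Δ, g (x : α) = σ x :=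
    fun h => ⟨Γ, hΓ, fun σ _ => induces_of_succ_transitive h Γ hΓ σ⟩
  by_cases h11 : Fintype.card α = k + 7
  · by_cases h1 : ∀ s : Finset α, s.card = k → Nat.card (fixingSubgroup G (s : Set α)) = 1
    · obtain ⟨Δ, hΔ, hind⟩ := induces_sharp hk4 hk (fun g hg s hs hgs => by
        obtain ⟨t, hts, htc⟩ := Finset.exists_subset_card_eq hs
        have h := (Nat.card_eq_one_iff_unique.1 (h1 t htc)).1.allEq
          (⟨⟨g, hg⟩, mem_fix_iff.2 fun x hx => hgs x (hts hx)⟩ : fixingSubgroup G (t : Set α)) 1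
        exact congrArg (fun z : fixingSubgroup G (t : Set α) => ((z : G) : Equiv.Perm α)) h)
        (by omega) (by omega) (by omega)
      exact ⟨Δ, hΔ, fun σ _ => hind σ⟩
    refine hsucc (isMultiplyPretransitive_of_fixator (by omega) fun s hs u v hu hv => ?_)
    have hs' : s.card = k := by omega
    set F := fixingSubgroup G (s : Set α) with hF
    have horb : ∀ x ∉ s, Nat.card (orbit F x) = Nat.card F := by
      intro x hx
      refine (Nat.card_eq_of_bijective (fun f : F => (⟨f • x, mem_orbit x f⟩ : orbit F x))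
        ⟨fun f f' e => ?_, fun ⟨y, f, hf⟩ => ⟨f, Subtype.ext hf⟩⟩).symm
      have e' : (f : G) • x = (f' : G) • x := congrArg Subtype.val e
      have h1 := hfix5 ((f'⁻¹ * f : F) : G) (insert x s) (by rw [Finset.card_insert_of_notMem hx]; omega)
        fun y hy => by
          rcases Finset.mem_insert.1 hy with rfl | hy
          · rw [Subgroup.coe_mul, Subgroup.coe_inv, mul_smul, inv_smul_eq_iff, e']
          · exact mem_fix_iff.1 (f'⁻¹ * f).2 y hy
      exact (inv_mul_eq_one.1 (Subtype.ext h1 : f'⁻¹ * f = 1)).symm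
    have hd : Nat.card F ∣ 7 := by
      have h := dvd_natCard_of_invariant (H := F) ((s : Set α)ᶜ)
        (fun g x hx hgx => hx (by
          have h1 := mem_fix_iff.1 g.2 _ (Finset.mem_coe.1 hgx)
          have : ((g : G) • x : α) ∈ (s : Set α) := hgx
          rwa [show (g : G) • x = x from smul_left_cancel (g : G) h1] at this))
        (Nat.card F) fun x hx => dvd_of_eq (horb x fun h => hx (Finset.mem_coe.2 h)).symm
      rwa [Nat.card_coe_set_eq, Set.ncard_compl, Set.ncard_coe_finset, Nat.card_eq_fintype_card (α := α), hs',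
        show Fintype.card α - k = 7 by omega] at h
    rcases (Nat.dvd_prime (show Nat.Prime 7 by norm_num)).1 hd with h | h
    · exfalso
      push Not at h1
      obtain ⟨t, ht, htne⟩ := h1
      have e := (natCard_eq_descFactorial_mul hk (by omega) k s hs' le_rfl).symm.trans
        (natCard_eq_descFactorial_mul hk (by omega) k t ht le_rfl)
      exact htne ((Nat.eq_of_mul_eq_mul_left
        (Nat.pos_of_ne_zero fun e0 => by rw [Nat.descFactorial_eq_zero_iff_lt] at e0; omega) e).symm.trans h)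
    have ho : orbit F u = ((s : Set α))ᶜ := by
      refine Set.eq_of_subset_of_ncard_le (orbit_fixingSubgroup_subset_compl (by simpa using hu)) ?_
      rw [← Nat.card_coe_set_eq (orbit _ u), horb u hu, Set.ncard_compl, Set.ncard_coe_finset,
        Nat.card_eq_fintype_card, h, hs']
      omega
    have hv' : v ∈ orbit F u := by rw [ho]; simpa using hv
    obtain ⟨⟨g, hg⟩, hgv⟩ := hv'
    exact ⟨g, fun x hx => mem_fix_iff.1 hg x hx, hgv⟩
  refine hsucc (isMultiplyPretransitive_of_fixator (by omega) fun s hs u v hu hv => ?_)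
  obtain ⟨s₀, hs₀, hs₀c⟩ := Finset.exists_subset_card_eq (s := s) (n := k - 4) (by omega)
  let X := fixingSubgroup G (s₀ : Set α)
  let β := SubMulAction.ofFixingSubgroup G (s₀ : Set α)
  haveI : Fintype β := Fintype.ofFinite _
  have hβ : Fintype.card β = Fintype.card α - (k - 4) := by
    rw [← Nat.card_eq_fintype_card]
    have : Nat.card β = Nat.card ((s₀ : Set α)ᶜ : Set α) := rfl
    rw [this, Nat.card_coe_set_eq, Set.ncard_compl, Set.ncard_coe_finset, Nat.card_eq_fintype_card, hs₀c]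
  have h4 : IsMultiplyPretransitive X β 4 := by
    haveI := hk
    exact SubMulAction.ofFixingSubgroup.isMultiplyPretransitive' _
      (show (s₀ : Set α).ncard + 4 ≤ k by rw [Set.ncard_coe_finset, hs₀c]; omega) (by
        rw [ENat.card_eq_coe_natCard, Nat.card_eq_fintype_card]
        exact_mod_cast (show k ≤ Fintype.card α by omega))
  have h5 := five_transitive_of_four_transitive (G := X) (α := β) h4 (fun g t ht hgt => by
    refine Subtype.ext (hfix5 (g : G) (s₀ ∪ t.image Subtype.val) ?_ fun x hx => ?_)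
    · rw [Finset.card_union_of_disjoint, Finset.card_image_of_injective _ Subtype.val_injective, hs₀c]
      · omega
      · rw [Finset.disjoint_left]
        intro x hx hx'
        obtain ⟨y, -, rfl⟩ := Finset.mem_image.1 hx'
        exact y.2 hx
    · rcases Finset.mem_union.1 hx with hx | hx
      · exact mem_fix_iff.1 g.2 x hx
      · obtain ⟨y, hy, rfl⟩ := Finset.mem_image.1 hx
        exact congrArg Subtype.val (hgt y hy)) (by omega) (by omega)
  have hout : ∀ z, z ∈ insert u (s \ s₀) → z ∉ (s₀ : Set α) := by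
    intro z hz hm
    rcases Finset.mem_insert.1 hz with rfl | hz
    · exact hu (hs₀ (Finset.mem_coe.1 hm))
    · exact (Finset.mem_sdiff.1 hz).2 (Finset.mem_coe.1 hm)
  have hswap : ∀ z, z ∈ insert u (s \ s₀) → Equiv.swap u v z ∉ (s₀ : Set α) := by
    intro z hz hm
    rcases Finset.mem_insert.1 hz with rfl | hz
    · rw [Equiv.swap_apply_left] at hm
      exact hv (hs₀ (Finset.mem_coe.1 hm))
    · rw [Equiv.swap_apply_of_ne_of_ne (ne_of_mem_of_not_mem (Finset.mem_sdiff.1 hz).1 hu)
        (ne_of_mem_of_not_mem (Finset.mem_sdiff.1 hz).1 hv)] at hm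
      exact (Finset.mem_sdiff.1 hz).2 (Finset.mem_coe.1 hm)
  let e := (insert u (s \ s₀)).equivFinOfCardEq (show _ = 5 by
    rw [Finset.card_insert_of_notMem fun h => hu (Finset.mem_sdiff.1 h).1,
      Finset.card_sdiff_of_subset hs₀, hs₀c]
    omega)
  let x : Fin 5 ↪ β := ⟨fun i => ⟨(e.symm i : α), hout _ (e.symm i).2⟩,
    fun i j h' => e.symm.injective (Subtype.ext (congrArg Subtype.val h' :))⟩
  let y : Fin 5 ↪ β := ⟨fun i => ⟨Equiv.swap u v (e.symm i : α), hswap _ (e.symm i).2⟩,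
    fun i j h' => e.symm.injective (Subtype.ext ((Equiv.swap u v).injective (congrArg Subtype.val h' :)))⟩
  obtain ⟨g, hg⟩ := h5.exists_smul_eq x y
  have key : ∀ z, z ∈ insert u (s \ s₀) → (g : G) • z = Equiv.swap u v z := by
    intro z hz
    have h' : (g : G) • ((e.symm (e ⟨z, hz⟩) : α)) = Equiv.swap u v (e.symm (e ⟨z, hz⟩) : α) :=
      congrArg (fun q : Fin 5 ↪ β => ((q (e ⟨z, hz⟩) : β) : α)) hg
    rwa [Equiv.symm_apply_apply] at h'
  refine ⟨(g : G), fun z hz => ?_, ?_⟩
  · by_cases hz0 : z ∈ s₀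
    · exact mem_fix_iff.1 g.2 z hz0
    · rw [key z (Finset.mem_insert_of_mem (Finset.mem_sdiff.2 ⟨hz, hz0⟩))]
      exact Equiv.swap_apply_of_ne_of_ne (ne_of_mem_of_not_mem hz hu) (ne_of_mem_of_not_mem hz hv)
  · rw [key u (Finset.mem_insert_self _ _), Equiv.swap_apply_left]

end Cfsg.Agent.PermGroups
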