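import Mathlib
import Cfsg.Agent.PermGroups.FixedSubsets

/-!
Tits' bound for sharply four-transitive groups.
-/

set_option autoImplicit false
set_option linter.unusedSectionVars false
set_option linter.style.haveILetI false

namespace Cfsg.Agent.PermGroups

open MulAction

variable {G Ω : Type*} [Group G] [MulAction G Ω]

set_option maxHeartbeats 2000000 in
/-- A sharply four-transitive group has degree at most eleven, and at most six if it is even. -/
theorem sharply_four_degree_le (h4 : IsMultiplyPretransitive G Ω 4)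
    (hsharp : ∀ x : Fin 4 ↪ Ω, stabilizer G x = ⊥) (hne : Nonempty (Fin 4 ↪ Ω)) :
    Finite Ω ∧ Nat.card Ω ≤ 11 ∧ (Even (Nat.card Ω) → Nat.card Ω ≤ 6) := by
  classical
  have hmove : ∀ a b c d a' b' c' d' : Ω, [a, b, c, d].Nodup → [a', b', c', d'].Nodup →
      ∃ g : G, g • a = a' ∧ g • b = b' ∧ g • c = c' ∧ g • d = d' := by
    intro a b c d a' b' c' d' h h'
    let x : Fin 4 ↪ Ω := ⟨[a, b, c, d].get, List.nodup_iff_injective_get.1 h⟩
    let y : Fin 4 ↪ Ω := ⟨[a', b', c', d'].get, List.nodup_iff_injective_get.1 h'⟩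
    obtain ⟨g, hg⟩ := h4.exists_smul_eq x y
    exact ⟨g, congrArg (fun q : Fin 4 ↪ Ω => q 0) hg, congrArg (fun q : Fin 4 ↪ Ω => q 1) hg,
      congrArg (fun q : Fin 4 ↪ Ω => q 2) hg, congrArg (fun q : Fin 4 ↪ Ω => q 3) hg⟩
  have hone : ∀ (g : G) (a b c d : Ω), [a, b, c, d].Nodup → g • a = a → g • b = b → g • c = c →
      g • d = d → g = 1 := by
    intro g a b c d h ha hb hc hd
    let x : Fin 4 ↪ Ω := ⟨[a, b, c, d].get, List.nodup_iff_injective_get.1 h⟩
    have hmem : g ∈ stabilizer G x := mem_stabilizer_iff.2 (Function.Embedding.ext fun i => by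
      fin_cases i <;> assumption)
    rwa [hsharp x, Subgroup.mem_bot] at hmem
  have heq : ∀ (g h : G) (a b c d : Ω), [a, b, c, d].Nodup → g • a = h • a → g • b = h • b → g • c = h • c →
      g • d = h • d → g = h := by
    intro g h a b c d hn ha hb hc hd
    exact (inv_mul_eq_one.1 (hone (h⁻¹ * g) a b c d hn (by rw [mul_smul, ha, inv_smul_smul])
      (by rw [mul_smul, hb, inv_smul_smul]) (by rw [mul_smul, hc, inv_smul_smul])
      (by rw [mul_smul, hd, inv_smul_smul]))).symm
  -- four points and the Klein group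
  obtain ⟨x₀⟩ := hne
  set a := x₀ 0 with ha
  set b := x₀ 1 with hb
  set c := x₀ 2 with hc
  set d := x₀ 3 with hd
  have hq : [a, b, c, d].Nodup := (List.nodup_ofFn.2 x₀.injective : (List.ofFn (x₀ : Fin 4 → Ω)).Nodup)
  have hd' := hq
  simp only [List.nodup_cons, List.mem_cons, List.not_mem_nil, or_false, not_or, List.nodup_nil, and_true,
    not_false_eq_true] at hd'
  obtain ⟨⟨nab, nac, nad⟩, ⟨nbc, nbd⟩, ncd⟩ := hd'
  obtain ⟨t, ta, tb, tc, td⟩ := hmove a b c d b a c d hq (by simp [Ne.symm nab, nac, nad, nbc, nbd, ncd])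
  obtain ⟨s, sa, sb, sc, sd⟩ := hmove a b c d a b d c hq (by simp [nab, nac, nad, nbc, nbd, Ne.symm ncd])
  set v := t * s with hv
  have va : v • a = b := by rw [hv, mul_smul, sa, ta]
  have vb : v • b = a := by rw [hv, mul_smul, sb, tb]
  have vc : v • c = d := by rw [hv, mul_smul, sc, td]
  have vd : v • d = c := by rw [hv, mul_smul, sd, tc]
  have hts : t * s = s * t := heq _ _ a b c d hq (by simp only [mul_smul, sa, ta, sb])
    (by simp only [mul_smul, sb, tb, sa]) (by simp only [mul_smul, sc, tc, td]) (by simp only [mul_smul, sd, tc, td, sc])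
  have htt : t * t = 1 := hone _ a b c d hq (by simp only [mul_smul, ta, tb]) (by simp only [mul_smul, ta, tb])
    (by simp only [mul_smul, tc]) (by simp only [mul_smul, td])
  have hss : s * s = 1 := hone _ a b c d hq (by simp only [mul_smul, sa]) (by simp only [mul_smul, sb])
    (by simp only [mul_smul, sc, sd]) (by simp only [mul_smul, sc, sd])
  have ht2 : ∀ x : Ω, t • t • x = x := fun x => by rw [← mul_smul, htt, one_smul]
  have hs2 : ∀ x : Ω, s • s • x = x := fun x => by rw [← mul_smul, hss, one_smul]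
  have hst : ∀ x : Ω, t • s • x = s • t • x := fun x => by rw [← mul_smul, ← mul_smul, hts]
  have hv2 : ∀ x : Ω, v • v • x = x := fun x => by
    simp only [hv, mul_smul]; rw [← hst (s • x), hs2, ht2]
  have hvt : ∀ x : Ω, v • t • x = s • x := fun x => by
    simp only [hv, mul_smul]; rw [← hst x, ht2]
  have hvs : ∀ x : Ω, v • s • x = t • x := fun x => by simp only [hv, mul_smul, hs2]
  have ht1 : t ≠ 1 := fun e => nab (by rw [← ta, e, one_smul])
  have hs1 : s ≠ 1 := fun e => ncd (by rw [← sc, e, one_smul])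
  have hv1 : v ≠ 1 := fun e => nab (by rw [← va, e, one_smul])
  -- an element other than one fixes at most three points
  have hthree : ∀ g : G, g ≠ 1 → ∀ S : Finset Ω, (∀ x ∈ S, g • x = x) → S.card ≤ 3 := by
    intro g hg S hS
    by_contra h
    obtain ⟨T, hT, hTc⟩ := Finset.exists_subset_card_eq (s := S) (n := 4) (by omega)
    obtain ⟨p₁, p₂, p₃, p₄, h12, h13, h14, h23, h24, h34, rfl⟩ := Finset.card_eq_four.1 hTc
    exact hg (hone g p₁ p₂ p₃ p₄ (by simp [h12, h13, h14, h23, h24, h34]) (hS _ (hT (by simp)))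
      (hS _ (hT (by simp))) (hS _ (hT (by simp))) (hS _ (hT (by simp))))
  -- outside the four points the transpositions have the same fixed points
  have htout : ∀ x, x ∉ [a, b, c, d] → (t • x = x ↔ s • x = x) := by
    have key : ∀ (t s : G) (a b c d : Ω), [a, b, c, d].Nodup → t ≠ 1 → t • c = c → t • d = d →
        s • c = d → s • d = c → (∀ x : Ω, t • s • x = s • t • x) → (∀ x : Ω, s • s • x = x) →
        ∀ x, x ∉ [a, b, c, d] → t • x = x → s • x = x := by
      intro t s a b c d hq ht1 tc td sc sd hst hs2 x hx htx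
      by_contra hsx
      simp only [List.mem_cons, List.not_mem_nil, or_false, not_or] at hx
      have h1 : s • x ≠ c := fun e => hx.2.2.2 (by rw [← hs2 x, e, sc])
      have h2 : s • x ≠ d := fun e => hx.2.2.1 (by rw [← hs2 x, e, sd])
      simp only [List.nodup_cons, List.mem_cons, List.not_mem_nil, or_false, not_or, List.nodup_nil, and_true,
        not_false_eq_true] at hq
      have := hthree t ht1 {x, s • x, c, d} fun z hz => by
        simp only [Finset.mem_insert, Finset.mem_singleton] at hz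
        rcases hz with rfl | rfl | rfl | rfl
        · exact htx
        · rw [hst, htx]
        · exact tc
        · exact td
      rw [Finset.card_eq_four.2 ⟨x, s • x, c, d, fun e => hsx e.symm, hx.2.2.1, hx.2.2.2, h1, h2, hq.2.2, rfl⟩] at this
      omega
    intro x hx
    have hx' : x ∉ [c, d, a, b] := by
      simp only [List.mem_cons, List.not_mem_nil, or_false, not_or] at hx ⊢
      exact ⟨hx.2.2.1, hx.2.2.2, hx.1, hx.2.1⟩
    exact ⟨key t s a b c d hq ht1 tc td sc sd hst hs2 x hx,
      key s t c d a b (by simp [ncd, Ne.symm nac, Ne.symm nbc, Ne.symm nad, Ne.symm nbd, nab]) hs1 sa sb ta tb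
        (fun x => (hst x).symm) ht2 x hx'⟩
  -- elements centralising the Klein group
  have hcentral : ∀ k : G, k * t = t * k → k * s = s * k → k = 1 ∨ k = t ∨ k = s ∨ k = v := by
    intro k hkt hks
    have ht' : ∀ x : Ω, t • x = x → t • k • x = k • x := fun x hx => by rw [← mul_smul, ← hkt, mul_smul, hx]
    have hs' : ∀ x : Ω, s • x = x → s • k • x = k • x := fun x hx => by rw [← mul_smul, ← hks, mul_smul, hx]
    have hab' : ∀ x : Ω, s • x = x → t • x ≠ x → k • x = a ∨ k • x = b := by
      intro x hsx htx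
      have h1 := hs' x hsx
      have h2 : t • k • x ≠ k • x := fun e => htx (smul_left_cancel k (by rw [← mul_smul, hkt, mul_smul, e]))
      by_contra hno
      push Not at hno
      by_cases hmem : k • x ∈ [a, b, c, d]
      · simp only [List.mem_cons, List.not_mem_nil, or_false] at hmem
        rcases hmem with h | h | h | h
        · exact hno.1 h
        · exact hno.2 h
        · exact h2 (by rw [h]; exact tc)
        · exact h2 (by rw [h]; exact td)
      · exact h2 ((htout _ hmem).2 h1)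
    have hcd' : ∀ x : Ω, t • x = x → s • x ≠ x → k • x = c ∨ k • x = d := by
      intro x htx hsx
      have h1 := ht' x htx
      have h2 : s • k • x ≠ k • x := fun e => hsx (smul_left_cancel k (by rw [← mul_smul, hks, mul_smul, e]))
      by_contra hno
      push Not at hno
      by_cases hmem : k • x ∈ [a, b, c, d]
      · simp only [List.mem_cons, List.not_mem_nil, or_false] at hmem
        rcases hmem with h | h | h | h
        · exact h2 (by rw [h]; exact sa)
        · exact h2 (by rw [h]; exact sb)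
        · exact hno.1 h
        · exact hno.2 h
      · exact h2 ((htout _ hmem).1 h1)
    have hka := hab' a sa (by rw [ta]; exact Ne.symm nab)
    have hkb : k • b = t • k • a := by rw [← ta, ← mul_smul, hkt, mul_smul]
    have hkc := hcd' c tc (by rw [sc]; exact Ne.symm ncd)
    have hkd : k • d = s • k • c := by rw [← sc, ← mul_smul, hks, mul_smul]
    rcases hka with e1 | e1 <;> rw [e1] at hkb <;> rcases hkc with e2 | e2 <;> rw [e2] at hkd
    · exact Or.inl (heq _ _ a b c d hq (by rw [e1, one_smul]) (by rw [hkb, ta, one_smul]) (by rw [e2, one_smul]) (by rw [hkd, sc, one_smul]))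
    · exact Or.inr (Or.inr (Or.inl (heq _ _ a b c d hq (by rw [e1, sa]) (by rw [hkb, ta, sb]) (by rw [e2, sc]) (by rw [hkd]))))
    · exact Or.inr (Or.inl (heq _ _ a b c d hq (by rw [e1, ta]) (by rw [hkb]) (by rw [e2, tc]) (by rw [hkd, sc, td])))
    · exact Or.inr (Or.inr (Or.inr (heq _ _ a b c d hq (by rw [e1, va]) (by rw [hkb, tb, vb]) (by rw [e2, vc]) (by rw [hkd, sd, vd]))))
  -- regular orbits of the Klein group
  have hreg : ∀ p, p ∉ [a, b, c, d] → v • p ≠ p →
      [p, t • p, s • p, v • p].Nodup ∧ (∀ z ∈ [p, t • p, s • p, v • p],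
        t • z ∈ [p, t • p, s • p, v • p] ∧ s • z ∈ [p, t • p, s • p, v • p]) := by
    intro p hp hvp
    have h1 : t • p ≠ p := fun e => hvp (by rw [hv, mul_smul, (htout p hp).1 e, e])
    have h2 : s • p ≠ p := fun e => h1 ((htout p hp).2 e)
    refine ⟨?_, fun z hz => ?_⟩
    · simp only [List.nodup_cons, List.mem_cons, List.not_mem_nil, or_false, not_or, List.nodup_nil, and_true,
        not_false_eq_true]
      refine ⟨⟨Ne.symm h1, Ne.symm h2, Ne.symm hvp⟩, ⟨fun e => hvp ?_, fun e => h2 ?_⟩, fun e => h1 ?_⟩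
      · rw [hv, mul_smul, ← e, ht2]
      · rw [← ht2 (s • p), ← mul_smul t s, ← hv, ← e, ht2]
      · rw [← hvs p, e, hv2]
    · simp only [List.mem_cons, List.not_mem_nil, or_false] at hz ⊢
      rcases hz with rfl | rfl | rfl | rfl
      · exact ⟨Or.inr (Or.inl rfl), Or.inr (Or.inr (Or.inl rfl))⟩
      · exact ⟨Or.inl (ht2 _), Or.inr (Or.inr (Or.inr (by rw [← hst, hv, mul_smul])))⟩
      · exact ⟨Or.inr (Or.inr (Or.inr (by rw [hv, mul_smul]))), Or.inl (hs2 _)⟩
      · exact ⟨Or.inr (Or.inr (Or.inl (by rw [hv, mul_smul, ht2]))),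
          Or.inr (Or.inl (by rw [hv, mul_smul, ← hst, hs2]))⟩
  -- the element exchanging the two middle points of a regular orbit
  have htau : ∀ p, p ∉ [a, b, c, d] → v • p ≠ p → ∃ τ : G, τ ≠ 1 ∧ τ • p = p ∧ τ • v • p = v • p ∧
      τ * τ = 1 ∧ τ * t * τ = s ∧ τ * s * τ = t := by
    intro p hp hvp
    obtain ⟨hnd, -⟩ := hreg p hp hvp
    have hnd' := hnd
    simp only [List.nodup_cons, List.mem_cons, List.not_mem_nil, or_false, not_or, List.nodup_nil, and_true,
      not_false_eq_true] at hnd'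
    obtain ⟨τ, k1, k2, k3, k4⟩ := hmove p (t • p) (s • p) (v • p) p (s • p) (t • p) (v • p) hnd (by
      simp [hnd'.1.1, hnd'.1.2.1, hnd'.1.2.2, Ne.symm hnd'.2.1.1, hnd'.2.1.2, hnd'.2.2])
    have hτ : τ * τ = 1 := hone _ p (t • p) (s • p) (v • p) hnd (by simp only [mul_smul, k1])
      (by simp only [mul_smul, k2, k3]) (by simp only [mul_smul, k2, k3]) (by simp only [mul_smul, k4])
    have htv : t • v • p = s • p := by rw [hv, mul_smul, ht2]
    have hsv : s • v • p = t • p := by rw [hv, mul_smul, ← hst, hs2]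
    have htsp : t • s • p = v • p := by rw [hv, mul_smul]
    have hstp : s • t • p = v • p := by rw [← hst, htsp]
    refine ⟨τ, fun e => hnd'.2.1.1 (by rw [← k3, e, one_smul]), k1, k4, hτ, ?_, ?_⟩
    · refine heq _ _ p (t • p) (s • p) (v • p) hnd ?_ ?_ ?_ ?_ <;> simp only [mul_smul]
      · rw [k1, k2]
      · rw [k2, htsp, k4, hstp]
      · rw [k3, ht2, k1, hs2]
      · rw [k4, htv, k3, hsv]
    · refine heq _ _ p (t • p) (s • p) (v • p) hnd ?_ ?_ ?_ ?_ <;> simp only [mul_smul]
      · rw [k1, k3]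
      · rw [k2, hs2, k1, ht2]
      · rw [k3, hstp, k4, htsp]
      · rw [k4, hsv, k2, htv]
  -- there is at most one regular orbit
  have huniq : ∀ p p', p ∉ [a, b, c, d] → v • p ≠ p → p' ∉ [a, b, c, d] → v • p' ≠ p' →
      p' ∈ [p, t • p, s • p, v • p] := by
    intro p p' hp hvp hp' hvp'
    by_contra hno
    obtain ⟨hnd, hcl⟩ := hreg p hp hvp
    obtain ⟨hnd', hcl'⟩ := hreg p' hp' hvp'
    obtain ⟨τ, τ1, τp, τvp, ττ, τt, τs⟩ := htau p hp hvp
    obtain ⟨τ', τ'1, τ'p, τ'vp, τ'τ', τ't, τ's⟩ := htau p' hp' hvp'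
    have conjeq : ∀ (τ x y : G), τ * τ = 1 → τ * x * τ = y → τ * x = y * τ := fun τ x y h e => by
      rw [← e, mul_assoc _ τ τ, h, mul_one]
    have e1 : τ * τ' * t = t * (τ * τ') := by
      rw [mul_assoc, conjeq τ' t s τ'τ' τ't, ← mul_assoc, conjeq τ s t ττ τs, mul_assoc]
    have e2 : τ * τ' * s = s * (τ * τ') := by
      rw [mul_assoc, conjeq τ' s t τ'τ' τ's, ← mul_assoc, conjeq τ t s ττ τt, mul_assoc]
    have hne : ∀ z ∈ [p', t • p', s • p', v • p'], z ≠ p ∧ z ≠ v • p := by
      have hback : ∀ z, z = p ∨ z = v • p → t • z ∈ [p, t • p, s • p, v • p] ∧ s • z ∈ [p, t • p, s • p, v • p] :=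
        fun z hz => hcl z (by rcases hz with rfl | rfl <;> simp)
      intro z hz
      simp only [List.mem_cons, List.not_mem_nil, or_false] at hz
      rw [← not_or]
      intro hz'
      have hz2 : z ∈ [p, t • p, s • p, v • p] := by rcases hz' with rfl | rfl <;> simp
      rcases hz with rfl | rfl | rfl | rfl
      · exact hno hz2
      · exact hno (by rw [← ht2 p']; exact (hcl _ hz2).1)
      · exact hno (by rw [← hs2 p']; exact (hcl _ hz2).2)
      · refine hno ?_
        have h := (hcl _ (hcl _ hz2).1).2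
        rw [show s • t • v • p' = p' by simp only [hv, mul_smul, ht2, hs2]] at h
        exact h
    -- two further fixed points of `τ`
    obtain ⟨z₁, z₂, hz₁, hz₂, hz12, f₁, f₂⟩ : ∃ z₁ z₂, z₁ ∈ [p', t • p', s • p', v • p'] ∧
        z₂ ∈ [p', t • p', s • p', v • p'] ∧ z₁ ≠ z₂ ∧ τ • z₁ = z₁ ∧ τ • z₂ = z₂ := by
      have hnd'' := hnd'
      simp only [List.nodup_cons, List.mem_cons, List.not_mem_nil, or_false, not_or, List.nodup_nil, and_true,
        not_false_eq_true] at hnd''
      rcases hcentral (τ * τ') e1 e2 with h | h | h | h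
      · have : τ = τ' := by rw [← mul_one τ, ← τ'τ', ← mul_assoc, h, one_mul]
        exact ⟨p', v • p', by simp, by simp, hnd''.1.2.2, by rw [this]; exact τ'p, by rw [this]; exact τ'vp⟩
      · exfalso
        have : τ = t * τ' := by rw [← mul_one τ, ← τ'τ', ← mul_assoc, h]
        rw [this, show t * τ' * (t * τ') = t * (τ' * t * τ') by simp only [mul_assoc], τ't] at ττ
        exact hv1 (hv.trans ττ)
      · exfalso
        have : τ = s * τ' := by rw [← mul_one τ, ← τ'τ', ← mul_assoc, h]
        rw [this, show s * τ' * (s * τ') = s * (τ' * s * τ') by simp only [mul_assoc], τ's] at ττ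
        exact hv1 (by rw [hv, hts]; exact ττ)
      · have : τ = v * τ' := by rw [← mul_one τ, ← τ'τ', ← mul_assoc, h]
        refine ⟨t • p', s • p', by simp, by simp, hnd''.2.1.1, ?_, ?_⟩
        · have e3 : τ' • t • p' = s • p' := by rw [← mul_smul, conjeq τ' t s τ'τ' τ't, mul_smul, τ'p]
          rw [this, mul_smul v τ', e3, hvs]
        · have e3 : τ' • s • p' = t • p' := by rw [← mul_smul, conjeq τ' s t τ'τ' τ's, mul_smul, τ'p]
          rw [this, mul_smul v τ', e3, hvt]
    have h := hthree τ τ1 {p, v • p, z₁, z₂} fun z hz => by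
      simp only [Finset.mem_insert, Finset.mem_singleton] at hz
      rcases hz with rfl | rfl | rfl | rfl <;> assumption
    rw [Finset.card_eq_four.2 ⟨p, v • p, z₁, z₂, Ne.symm hvp, (hne _ hz₁).1.symm, (hne _ hz₂).1.symm,
      (hne _ hz₁).2.symm, (hne _ hz₂).2.symm, hz12, rfl⟩] at h
    omega
  -- finiteness
  have hVfix : {x : Ω | v • x = x}.Finite := by
    by_contra hinf
    obtain ⟨S, hS, hSc⟩ := Set.Infinite.exists_subset_card_eq (Set.not_finite.1 hinf |> fun h => h) 4
    have := hthree v hv1 S fun x hx => hS hx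
    omega
  set Fv := hVfix.toFinset with hFv
  have hFvc : Fv.card ≤ 3 := hthree v hv1 Fv fun x hx => hVfix.mem_toFinset.1 hx
  have hcover : ∃ O : Finset Ω, (O = ∅ ∨ ∃ p, p ∉ [a, b, c, d] ∧ v • p ≠ p ∧ O = [p, t • p, s • p, v • p].toFinset) ∧
      ∀ x, x ∈ [a, b, c, d].toFinset ∪ Fv ∪ O := by
    by_cases h : ∃ p, p ∉ [a, b, c, d] ∧ v • p ≠ p
    · obtain ⟨p, hp, hvp⟩ := h
      refine ⟨_, Or.inr ⟨p, hp, hvp, rfl⟩, fun x => ?_⟩
      simp only [Finset.mem_union, List.mem_toFinset, hFv, Set.Finite.mem_toFinset, Set.mem_setOf_eq]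
      by_cases h1 : x ∈ [a, b, c, d]
      · exact Or.inl (Or.inl h1)
      by_cases h2 : v • x = x
      · exact Or.inl (Or.inr h2)
      exact Or.inr (huniq p x hp hvp h1 h2)
    · push Not at h
      refine ⟨∅, Or.inl rfl, fun x => ?_⟩
      simp only [Finset.mem_union, List.mem_toFinset, hFv, Set.Finite.mem_toFinset, Set.mem_setOf_eq]
      by_cases h1 : x ∈ [a, b, c, d]
      · exact Or.inl (Or.inl h1)
      · exact Or.inl (Or.inr (h x h1))
  obtain ⟨O, hO, hcov⟩ := hcover
  haveI : Finite Ω := by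
    refine Set.finite_univ_iff.1 (((([a, b, c, d].toFinset ∪ Fv ∪ O) : Finset Ω).finite_toSet).subset fun x _ => ?_)
    exact hcov x
  haveI : Fintype Ω := Fintype.ofFinite Ω
  have hn : Nat.card Ω = ([a, b, c, d].toFinset ∪ Fv ∪ O).card := by
    rw [Nat.card_eq_fintype_card, ← Finset.card_univ, Finset.eq_univ_iff_forall.2 hcov]
  have hq4 : [a, b, c, d].toFinset.card = 4 := List.toFinset_card_of_nodup hq
  have hOc : O.card ≤ 4 := by
    rcases hO with rfl | ⟨p, -, -, rfl⟩
    · simp
    · exact (List.toFinset_card_le _).trans le_rfl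
  refine ⟨inferInstance, ?_, fun heven => ?_⟩
  · rw [hn]
    have := Finset.card_union_le ([a, b, c, d].toFinset ∪ Fv) O
    have := Finset.card_union_le [a, b, c, d].toFinset Fv
    omega
  by_contra hlt
  -- parity: involutions fix an even number of points
  have hpar : ∀ g : G, g * g = 1 → g ≠ 1 → ((Finset.univ.filter fun x : Ω => g • x = x).card = 0 ∨
      (Finset.univ.filter fun x : Ω => g • x = x).card = 2) := by
    intro g hg hg1
    have hle := hthree g hg1 (Finset.univ.filter fun x : Ω => g • x = x) fun x hx => (Finset.mem_filter.1 hx).2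
    let σ : Equiv.Perm Ω := toPermHom G Ω g
    have hσ : σ ^ 2 = 1 := by rw [sq, ← map_mul, hg, map_one]
    have hm : Fintype.card Ω ≡ (Finset.univ.filter fun x : Ω => g • x = x).card [MOD 2] :=
      card_modEq_card_filter_fixed σ Nat.prime_two hσ Finset.univ (Finset.image_univ_of_surjective σ.surjective)
    rw [← Nat.card_eq_fintype_card] at hm
    obtain ⟨r, hr⟩ := heven
    unfold Nat.ModEq at hm
    omega
  have hvv : v * v = 1 := by
    rw [hv, show t * s * (t * s) = t * (s * t) * s by simp only [mul_assoc], ← hts,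
      show t * (t * s) * s = t * t * (s * s) by simp only [mul_assoc], htt, hss, one_mul]
  -- `t` fixes exactly two points, so there are no common fixed points
  have hcard2 : (Finset.univ.filter fun x : Ω => t • x = x).card = 2 := by
    have h1 : ({c, d} : Finset Ω) ⊆ Finset.univ.filter fun x : Ω => t • x = x := by
      intro x hx
      simp only [Finset.mem_insert, Finset.mem_singleton] at hx
      rcases hx with rfl | rfl <;> simp [tc, td]
    have h2 := Finset.card_le_card h1
    rw [Finset.card_pair ncd] at h2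
    rcases hpar t htt ht1 with h | h <;> omega
  have hFout : ∀ x : Ω, v • x = x → t • x ≠ x := by
    intro x hx htx
    have hsub : ({c, d} : Finset Ω) ⊆ Finset.univ.filter fun x : Ω => t • x = x := by
      intro y hy
      simp only [Finset.mem_insert, Finset.mem_singleton] at hy
      rcases hy with rfl | rfl <;> simp [tc, td]
    have heq' := Finset.eq_of_subset_of_card_le hsub (by rw [hcard2, Finset.card_pair ncd])
    have : x ∈ ({c, d} : Finset Ω) := heq' ▸ Finset.mem_filter.2 ⟨Finset.mem_univ _, htx⟩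
    simp only [Finset.mem_insert, Finset.mem_singleton] at this
    rcases this with rfl | rfl
    · exact ncd (hx.symm.trans vc)
    · exact ncd (vd.symm.trans hx)
  have hFeq : (Finset.univ.filter fun x : Ω => v • x = x) = Fv := by
    ext x; simp [hFv]
  have hvcard := hpar v hvv hv1
  rw [hFeq] at hvcard
  rcases hO with rfl | ⟨p, hp, hvp, rfl⟩
  · have := Finset.card_union_le [a, b, c, d].toFinset Fv
    rw [hn, Finset.union_empty] at hlt
    omega
  obtain ⟨hnd, hcl⟩ := hreg p hp hvp
  have hnd' := hnd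
  simp only [List.nodup_cons, List.mem_cons, List.not_mem_nil, or_false, not_or, List.nodup_nil, and_true,
    not_false_eq_true] at hnd'
  -- `t` is conjugate to `v`
  obtain ⟨h, h1, h2, h3, h4'⟩ := hmove a b c d p (t • p) (s • p) (v • p) hq hnd
  have hconj : h * v * h⁻¹ = t := by
    rw [mul_inv_eq_iff_eq_mul]
    refine heq _ _ a b c d hq ?_ ?_ ?_ ?_ <;> simp only [mul_smul]
    · rw [va, h2, h1]
    · rw [vb, h1, h2, ht2]
    · rw [vc, h4', h3, hv, mul_smul]
    · rw [vd, h3, h4', hv, mul_smul, ht2]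
  have hF2 : Fv.card = 2 := by
    rw [← hFeq, ← hcard2]
    refine Finset.card_bij' (fun x _ => h • x) (fun x _ => h⁻¹ • x) ?_ ?_ ?_ ?_
    · intro x hx
      simp only [Finset.mem_filter, Finset.mem_univ, true_and] at hx ⊢
      rw [← hconj, mul_smul, mul_smul, inv_smul_smul, hx]
    · intro x hx
      simp only [Finset.mem_filter, Finset.mem_univ, true_and] at hx ⊢
      rw [← hconj, mul_smul, mul_smul] at hx
      rw [eq_inv_smul_iff]
      exact hx
    · intro x _; simp
    · intro x _; simp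
  obtain ⟨e₀, f₀, hef, hFvef⟩ := Finset.card_eq_two.1 hF2
  have hmemF : ∀ x, v • x = x ↔ x = e₀ ∨ x = f₀ := fun x => by
    have h := hVfix.mem_toFinset (a := x)
    rw [← hFv, hFvef, Finset.mem_insert, Finset.mem_singleton] at h
    exact h.symm
  obtain ⟨τ, τ1, τp, τvp, ττ, τt, τs⟩ := htau p hp hvp
  have hτv : τ * v = v * τ := by
    have e : τ * v * τ = v := by
      rw [hv, show τ * (t * s) * τ = τ * t * (τ * τ) * s * τ by rw [ττ]; simp only [mul_one, mul_assoc],
        show τ * t * (τ * τ) * s * τ = (τ * t * τ) * (τ * s * τ) by simp only [mul_assoc], τt, τs, hts]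
    calc τ * v = τ * v * (τ * τ) := by rw [ττ, mul_one]
      _ = (τ * v * τ) * τ := by simp only [mul_assoc]
      _ = v * τ := by rw [e]
  have hcomm : ∀ g : G, g * v = v * g → ∀ x : Ω, v • x = x → v • g • x = g • x := fun g hg x hx => by
    rw [← mul_smul, ← hg, mul_smul, hx]
  have htv : t * v = v * t := by
    rw [hv, ← mul_assoc, htt, one_mul, hts, mul_assoc, htt, mul_one]
  have he₀ : v • e₀ = e₀ := (hmemF _).2 (Or.inl rfl)
  have hf₀ : v • f₀ = f₀ := (hmemF _).2 (Or.inr rfl)
  have hte : t • e₀ = f₀ := ((hmemF _).1 (hcomm t htv e₀ he₀)).resolve_left (hFout e₀ he₀)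
  have hτe : τ • e₀ = f₀ := by
    refine ((hmemF _).1 (hcomm τ hτv e₀ he₀)).resolve_left fun e => ?_
    have hf : τ • f₀ = f₀ := ((hmemF _).1 (hcomm τ hτv f₀ hf₀)).resolve_left fun e' =>
      hef (smul_left_cancel τ (e.trans e'.symm))
    have h := hthree τ τ1 {p, v • p, e₀, f₀} fun z hz => by
      simp only [Finset.mem_insert, Finset.mem_singleton] at hz
      rcases hz with rfl | rfl | rfl | rfl <;> assumption
    have hp' : ∀ x, v • x = x → p ≠ x ∧ v • p ≠ x := fun x hx =>
      ⟨fun e => hvp (e ▸ hx), fun e => hvp ((hv2 p).symm.trans (by rw [e, hx]) |>.symm)⟩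
    rw [Finset.card_eq_four.2 ⟨p, v • p, e₀, f₀, Ne.symm hvp, (hp' e₀ he₀).1, (hp' f₀ hf₀).1,
      (hp' e₀ he₀).2, (hp' f₀ hf₀).2, hef, rfl⟩] at h
    omega
  set z := τ * t with hz
  have hτf : τ • f₀ = e₀ := by rw [← hτe, ← mul_smul, ττ, one_smul]
  have htf : t • f₀ = e₀ := by rw [← hte, ht2]
  have hze : z • e₀ = e₀ := by rw [hz, mul_smul, hte, hτf]
  have hzf : z • f₀ = f₀ := by rw [hz, mul_smul, htf, hτe]
  have hzz : z * z = v := by
    rw [hz, show τ * t * (τ * t) = (τ * t * τ) * t by simp only [mul_assoc], τt, hv, hts]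
  -- the stabiliser of the two points is sharply doubly transitive on eight points
  set R : Finset Ω := Finset.univ \ {e₀, f₀} with hR
  have hRc : R.card = 8 := by
    rw [hR, Finset.card_sdiff, Finset.inter_univ, Finset.card_pair hef, Finset.card_univ, ← Nat.card_eq_fintype_card, hn]
    have h5 := Finset.card_union_le ([a, b, c, d].toFinset ∪ Fv) [p, t • p, s • p, v • p].toFinset
    have h6 := Finset.card_union_le [a, b, c, d].toFinset Fv
    have h8 : [p, t • p, s • p, v • p].toFinset.card = 4 := List.toFinset_card_of_nodup hnd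
    have hd1 : Disjoint [a, b, c, d].toFinset Fv := by
      rw [Finset.disjoint_left]
      intro x hx hx'
      rw [hFv, Set.Finite.mem_toFinset] at hx'
      simp only [List.mem_toFinset, List.mem_cons, List.not_mem_nil, or_false] at hx
      rcases hx with rfl | rfl | rfl | rfl
      · exact nab (hx'.symm.trans va)
      · exact nab (vb.symm.trans hx')
      · exact ncd (hx'.symm.trans vc)
      · exact ncd (vd.symm.trans hx')
    have hd2 : Disjoint ([a, b, c, d].toFinset ∪ Fv) [p, t • p, s • p, v • p].toFinset := by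
      rw [Finset.disjoint_left]
      intro x hx hx'
      rw [List.mem_toFinset] at hx'
      rcases Finset.mem_union.1 hx with hx | hx
      · rw [List.mem_toFinset] at hx
        have hclq : ∀ y ∈ [a, b, c, d], t • y ∈ [a, b, c, d] ∧ s • y ∈ [a, b, c, d] := by
          intro y hy
          simp only [List.mem_cons, List.not_mem_nil, or_false] at hy ⊢
          rcases hy with rfl | rfl | rfl | rfl <;> simp [ta, tb, tc, td, sa, sb, sc, sd]
        simp only [List.mem_cons, List.not_mem_nil, or_false] at hx'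
        rcases hx' with rfl | rfl | rfl | rfl
        · exact hp hx
        · exact hp (by rw [← ht2 p]; exact (hclq _ hx).1)
        · exact hp (by rw [← hs2 p]; exact (hclq _ hx).2)
        · refine hp ?_
          have h' := (hclq _ (hclq _ hx).1).2
          rwa [hv, mul_smul, ht2, hs2] at h'
      · rw [hFv, Set.Finite.mem_toFinset] at hx
        have hclv : ∀ y, v • y = y → v • t • y = t • y ∧ v • s • y = s • y := fun y hy => ⟨hcomm t htv y hy,
          hcomm s (by rw [hv, ← mul_assoc, ← hts]) y hy⟩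
        simp only [List.mem_cons, List.not_mem_nil, or_false] at hx'
        rcases hx' with rfl | rfl | rfl | rfl
        · exact hvp hx
        · exact hvp (by have := (hclv _ hx).1; rwa [ht2] at this)
        · exact hvp (by have := (hclv _ hx).2; rwa [hs2] at this)
        · exact hvp (smul_left_cancel v hx)
    rw [Finset.card_union_of_disjoint hd2, Finset.card_union_of_disjoint hd1, hq4, hF2, h8]
  set H : Subgroup G := stabilizer G e₀ ⊓ stabilizer G f₀ with hH
  have hHR : ∀ g ∈ H, ∀ x ∈ R, g • x ∈ R := by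
    intro g hg x hx
    simp only [hR, Finset.mem_sdiff, Finset.mem_univ, true_and, Finset.mem_insert, Finset.mem_singleton, not_or] at hx ⊢
    exact ⟨fun e => hx.1 (smul_left_cancel g (e.trans (mem_stabilizer_iff.1 hg.1).symm)),
      fun e => hx.2 (smul_left_cancel g (e.trans (mem_stabilizer_iff.1 hg.2).symm))⟩
  have hR' : ∀ x ∈ R, x ≠ e₀ ∧ x ≠ f₀ := fun x hx => by
    simpa [hR, not_or] using hx
  have hpair : ∀ x ∈ R, ∀ y ∈ R, x ≠ y → ∀ x' ∈ R, ∀ y' ∈ R, x' ≠ y' → ∃ g ∈ H, g • x = x' ∧ g • y = y' := by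
    intro x hx y hy hxy x' hx' y' hy' hxy'
    have := hR' x hx; have := hR' y hy; have := hR' x' hx'; have := hR' y' hy'
    obtain ⟨g, g1, g2, g3, g4⟩ := hmove e₀ f₀ x y e₀ f₀ x' y'
      (by simp [hef, Ne.symm (hR' x hx).1, Ne.symm (hR' x hx).2, Ne.symm (hR' y hy).1, Ne.symm (hR' y hy).2, hxy])
      (by simp [hef, Ne.symm (hR' x' hx').1, Ne.symm (hR' x' hx').2, Ne.symm (hR' y' hy').1, Ne.symm (hR' y' hy').2, hxy'])
    exact ⟨g, ⟨g1, g2⟩, g3, g4⟩
  have hsemi : ∀ g ∈ H, ∀ x ∈ R, ∀ y ∈ R, x ≠ y → g • x = x → g • y = y → g = 1 := by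
    intro g hg x hx y hy hxy gx gy
    exact hone g e₀ f₀ x y
      (by simp [hef, Ne.symm (hR' x hx).1, Ne.symm (hR' x hx).2, Ne.symm (hR' y hy).1, Ne.symm (hR' y hy).2, hxy])
      hg.1 hg.2 gx gy
  haveI : Finite G := by
    refine Finite.of_injective (fun g : G => (g • a, g • b, g • c, g • d)) fun g h e => ?_
    simp only [Prod.mk.injEq] at e
    exact heq g h a b c d hq e.1 e.2.1 e.2.2.1 e.2.2.2
  haveI : Fintype G := Fintype.ofFinite G
  set Hs : Finset G := Finset.univ.filter fun g => g ∈ H with hHs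
  obtain ⟨r₀, hr₀⟩ := Finset.card_pos.1 (show 0 < R.card by omega)
  obtain ⟨r₁, hr₁'⟩ := Finset.card_pos.1 (show 0 < (R.erase r₀).card by
    rw [Finset.card_erase_of_mem hr₀]; omega)
  obtain ⟨hr10, hr₁⟩ := Finset.mem_erase.1 hr₁'
  have hHcard : Hs.card = 56 := by
    rw [show 56 = R.offDiag.card by rw [Finset.offDiag_card, hRc]]
    refine Finset.card_bij (fun g _ => (g • r₀, g • r₁)) ?_ ?_ ?_
    · intro g hg
      rw [hHs, Finset.mem_filter] at hg
      exact Finset.mem_offDiag.2 ⟨hHR g hg.2 r₀ hr₀, hHR g hg.2 r₁ hr₁,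
        fun e => hr10 (smul_left_cancel g e.symm)⟩
    · intro g hg g' hg' e
      rw [hHs, Finset.mem_filter] at hg hg'
      simp only [Prod.mk.injEq] at e
      exact (inv_mul_eq_one.1 (hsemi _ (H.mul_mem (H.inv_mem hg'.2) hg.2) r₀ hr₀ r₁ hr₁ (Ne.symm hr10)
        (by rw [mul_smul, e.1, inv_smul_smul]) (by rw [mul_smul, e.2, inv_smul_smul]))).symm
    · rintro ⟨x', y'⟩ hxy
      obtain ⟨hx', hy', hne'⟩ := Finset.mem_offDiag.1 hxy
      obtain ⟨g, hg, g1, g2⟩ := hpair r₀ hr₀ r₁ hr₁ (Ne.symm hr10) x' hx' y' hy' hne'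
      exact ⟨g, Finset.mem_filter.2 ⟨Finset.mem_univ _, hg⟩, by simp [g1, g2]⟩
  have hstab : ∀ r ∈ R, (Hs.filter fun g => g • r = r).card = 7 := by
    intro r hr
    obtain ⟨r', hr'⟩ := Finset.card_pos.1 (show 0 < (R.erase r).card by
      rw [Finset.card_erase_of_mem hr]; omega)
    obtain ⟨hr'r, hr'R⟩ := Finset.mem_erase.1 hr'
    rw [show 7 = (R.erase r).card by rw [Finset.card_erase_of_mem hr, hRc]]
    refine Finset.card_bij (fun g _ => g • r') ?_ ?_ ?_
    · intro g hg
      simp only [hHs, Finset.mem_filter, Finset.mem_univ, true_and] at hg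
      exact Finset.mem_erase.2 ⟨fun e => hr'r (smul_left_cancel g (e.trans hg.2.symm)), hHR g hg.1 r' hr'R⟩
    · intro g hg g' hg' e
      simp only [hHs, Finset.mem_filter, Finset.mem_univ, true_and] at hg hg'
      exact (inv_mul_eq_one.1 (hsemi _ (H.mul_mem (H.inv_mem hg'.1) hg.1) r hr r' hr'R (Ne.symm hr'r)
        (by rw [mul_smul, hg.2, inv_smul_eq_iff, hg'.2]) (by rw [mul_smul, e, inv_smul_smul]))).symm
    · intro y hy
      obtain ⟨hyr, hyR⟩ := Finset.mem_erase.1 hy
      obtain ⟨g, hg, g1, g2⟩ := hpair r hr r' hr'R (Ne.symm hr'r) r hr y hyR (Ne.symm hyr)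
      exact ⟨g, by simp [hHs, hg, g1], g2⟩
  -- so there are exactly seven derangements
  set D : Finset G := (Hs.erase 1).filter fun g => ∀ r ∈ R, g • r ≠ r with hD
  have hDc : D.card = 7 := by
    have hsum : ∑ g ∈ Hs, (R.filter fun r => g • r = r).card = 56 := by
      simp only [Finset.card_filter]
      rw [Finset.sum_comm]
      simp only [← Finset.card_filter]
      rw [Finset.sum_congr rfl hstab, Finset.sum_const, hRc, smul_eq_mul]
    have h1mem : (1 : G) ∈ Hs := Finset.mem_filter.2 ⟨Finset.mem_univ _, H.one_mem⟩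
    rw [← Finset.add_sum_erase _ _ h1mem, Finset.filter_true_of_mem (fun r _ => one_smul G r), hRc] at hsum
    have hle : ∀ g ∈ Hs.erase 1, (R.filter fun r => g • r = r).card =
        if (∀ r ∈ R, g • r ≠ r) then 0 else 1 := by
      intro g hg
      obtain ⟨hg1, hgH⟩ := Finset.mem_erase.1 hg
      rw [hHs, Finset.mem_filter] at hgH
      split_ifs with hh
      · rw [Finset.card_eq_zero, Finset.filter_eq_empty_iff]
        exact fun r hr => hh r hr
      · push Not at hh
        obtain ⟨r, hr, hgr⟩ := hh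
        rw [Finset.card_eq_one]
        refine ⟨r, Finset.eq_singleton_iff_unique_mem.2 ⟨Finset.mem_filter.2 ⟨hr, hgr⟩, fun r' hr' => ?_⟩⟩
        obtain ⟨hr'R, hgr'⟩ := Finset.mem_filter.1 hr'
        by_contra hne'
        exact hg1 (hsemi g hgH.2 r' hr'R r hr hne' hgr' hgr)
    rw [Finset.sum_congr rfl hle, Finset.sum_ite, Finset.sum_const_zero, zero_add, Finset.sum_const,
      smul_eq_mul, mul_one] at hsum
    have htot := Finset.card_filter_add_card_filter_not (s := Hs.erase 1) (fun g => ∀ r ∈ R, g • r ≠ r)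
    rw [Finset.card_erase_of_mem h1mem, hHcard, ← hD] at htot
    omega
  -- they are all conjugate to `v`
  set S₀ : Finset G := Hs.filter fun g => g • r₀ = r₀ with hS₀
  have hvH : v ∈ H := ⟨he₀, hf₀⟩
  have hvR : ∀ x ∈ R, v • x ≠ x := fun x hx e => by
    rcases (hmemF x).1 e with rfl | rfl
    · exact (hR' x hx).1 rfl
    · exact (hR' x hx).2 rfl
  have hinj : Set.InjOn (fun g => g * v * g⁻¹) (S₀ : Set G) := by
    intro g hg g' hg' e
    simp only [hS₀, hHs, Finset.coe_filter, Set.mem_setOf_eq, Finset.mem_filter, Finset.mem_univ, true_and] at hg hg'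
    have ev : g'⁻¹ * g * v = v * (g'⁻¹ * g) := by
      have e' : g * v * g⁻¹ = g' * v * g'⁻¹ := e
      calc g'⁻¹ * g * v = g'⁻¹ * (g * v * g⁻¹) * g := by simp [mul_assoc]
        _ = g'⁻¹ * (g' * v * g'⁻¹) * g := by rw [e']
        _ = v * (g'⁻¹ * g) := by simp [mul_assoc]
    have hk1 : (g'⁻¹ * g) • r₀ = r₀ := by rw [mul_smul, hg.2, inv_smul_eq_iff, hg'.2]
    exact (inv_mul_eq_one.1 (hsemi _ (H.mul_mem (H.inv_mem hg'.1) hg.1) r₀ hr₀ (v • r₀) (hHR v hvH r₀ hr₀)
      (Ne.symm (hvR r₀ hr₀)) hk1 (by rw [← mul_smul, ev, mul_smul, hk1]))).symm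
  have himg : S₀.image (fun g => g * v * g⁻¹) = D := by
    refine Finset.eq_of_subset_of_card_le ?_ ?_
    · intro u hu
      obtain ⟨g, hg, rfl⟩ := Finset.mem_image.1 hu
      simp only [hS₀, hHs, Finset.mem_filter, Finset.mem_univ, true_and] at hg
      simp only [hD, hHs, Finset.mem_filter, Finset.mem_erase, Finset.mem_univ, true_and]
      refine ⟨⟨fun e => hv1 (conj_eq_one_iff.1 e), H.mul_mem (H.mul_mem hg.1 hvH) (H.inv_mem hg.1)⟩, fun r hr e => ?_⟩
      rw [mul_smul, mul_smul] at e
      exact hvR _ (hHR _ (H.inv_mem hg.1) r hr) (eq_inv_smul_iff.2 e)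
    · rw [Finset.card_image_of_injOn hinj, hDc, hstab r₀ hr₀]
  have hzD : z ∈ D := by
    simp only [hD, hHs, Finset.mem_filter, Finset.mem_erase, Finset.mem_univ, true_and]
    refine ⟨⟨fun e => hv1 ?_, hze, hzf⟩, fun r hr e => hvR r hr ?_⟩
    · rw [← hzz, e, one_mul]
    · rw [← hzz, mul_smul, e, e]
  rw [← himg] at hzD
  obtain ⟨g, -, hgz⟩ := Finset.mem_image.1 hzD
  refine hv1 ?_
  rw [← hzz, ← hgz, show g * v * g⁻¹ * (g * v * g⁻¹) = g * (v * v) * g⁻¹ by simp [mul_assoc], hvv, mul_one,
    mul_inv_cancel]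

end Cfsg.Agent.PermGroups
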