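import Mathlib
import Cfsg.Agent.PermGroups.DerangementIndex

/-!
A three-halves transitive group is primitive or has trivial two-point stabilisers.
-/

set_option autoImplicit false

namespace Cfsg.Agent.PermGroups

open MulAction
open scoped Pointwise

variable {N Ω : Type*} [Group N] [MulAction N Ω]

theorem natCard_orbit_stabilizer [Finite N] (a b : Ω) :
    Nat.card (orbit (stabilizer N a) b) =
      (stabilizer N a ⊓ stabilizer N b).relIndex (stabilizer N a) := by
  rw [Subgroup.inf_relIndex_left, Nat.card_coe_set_eq, ← index_stabilizer, Subgroup.relIndex]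
  rfl

/-- The key step: stabilisers of `a` and `c` fix the block of `c` pointwise. -/
theorem fixes_block_of_threeHalves [Finite N] [Finite Ω] [IsPretransitive N Ω] {s : ℕ}
    (hs : ∀ a b : Ω, a ≠ b → Nat.card (orbit (stabilizer N a) b) = s) {B C : Set Ω}
    (hB : IsBlock N B) (hBC : ∃ t : N, C = t • B) (hdisj : Disjoint B C) {a a' c c' : Ω}
    (haB : a ∈ B) (ha'B : a' ∈ B) (hne : a' ≠ a) (hc : c ∈ C) (hc' : c' ∈ C) {g : N}
    (hga : g • a = a) (hgc : g • c = c) : g • c' = c' := by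
  classical
  have hac : a ≠ c := fun e => Set.disjoint_left.1 hdisj haB (e ▸ hc)
  have hac' : a ≠ c' := fun e => Set.disjoint_left.1 hdisj haB (e ▸ hc')
  obtain ⟨t, rfl⟩ := hBC
  set NB := stabilizer N B with hNB
  set NC := stabilizer N (t • B) with hNC
  have hNaB : stabilizer N a ≤ NB := fun h hh => by
    rw [hNB, mem_stabilizer_iff]
    exact hB.smul_eq_of_nonempty ⟨a, ⟨a, haB, hh⟩, haB⟩
  set d := B.ncard with hd
  -- `s` divides `d - 1`
  have hdvd : s ∣ d - 1 := by
    have h1 : s ∣ Nat.card (B \ {a} : Set Ω) := by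
      refine dvd_natCard_of_invariant (H := stabilizer N a) _ (fun h x hx => ?_) s fun x hx =>
        (hs a x fun e => hx.2 e.symm).symm.dvd
      refine ⟨?_, fun e => hx.2 ?_⟩
      · have : (h : N) • B = B := mem_stabilizer_iff.1 (hNaB h.2)
        exact this ▸ Set.smul_mem_smul_set hx.1
      · have e' : (h : N) • x = a := e
        rw [Set.mem_singleton_iff, ← smul_left_cancel_iff (h : N), e', mem_stabilizer_iff.1 h.2]
    rwa [Nat.card_coe_set_eq, Set.ncard_sdiff_singleton_of_mem haB] at h1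
  have hd1 : 1 < d := (Set.one_lt_ncard).2 ⟨a', ha'B, a, haB, hne⟩
  have hcop : s.Coprime d :=
    Nat.Coprime.coprime_dvd_left hdvd ((Nat.coprime_self_sub_left (by omega : 1 ≤ d)).2 (Nat.coprime_one_left d))
  -- the orbit of `C`
  set T := orbit NB (t • B) with hT
  have hTblock : ∀ S ∈ T, ∃ u : N, S = u • B ∧ Disjoint B S := by
    rintro _ ⟨u, rfl⟩
    refine ⟨(u : N) * t, (mul_smul (u : N) t B).symm, ?_⟩
    have hu : (u : N) • B = B := u.2
    show Disjoint B ((u : N) • t • B)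
    rw [← hu, Set.disjoint_smul_set, hu]
    exact hdisj
  have hcardT : ∀ S : T, Nat.card (S.1 : Set Ω) = d := by
    intro S
    obtain ⟨u, e, -⟩ := hTblock S.1 S.2
    rw [Nat.card_coe_set_eq, e, Set.ncard_smul_set]
  let U : Set Ω := {x | ∃ S ∈ T, x ∈ S}
  have hUcard : Nat.card U = Nat.card T * d := by
    let f : (Σ S : T, (S.1 : Set Ω)) → U := fun x => ⟨x.2.1, x.1.1, x.1.2, x.2.2⟩
    have hf : Function.Bijective f := by
      constructor
      · rintro ⟨⟨S, hS⟩, ⟨x, hx⟩⟩ ⟨⟨S', hS'⟩, ⟨x', hx'⟩⟩ e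
        obtain rfl : x = x' := congrArg Subtype.val e
        obtain ⟨u, rfl, -⟩ := hTblock S hS
        obtain ⟨u', rfl, -⟩ := hTblock S' hS'
        have : u • B = u' • B :=
          (hB.smul_eq_smul_or_disjoint u u').resolve_right (Set.not_disjoint_iff.2 ⟨x, hx, hx'⟩)
        exact Sigma.subtype_ext (Subtype.ext this) rfl
      · rintro ⟨x, S, hS, hx⟩
        exact ⟨⟨⟨S, hS⟩, ⟨x, hx⟩⟩, rfl⟩
    haveI := Fintype.ofFinite T
    rw [← Nat.card_congr (Equiv.ofBijective f hf), Nat.card_sigma,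
      Finset.sum_congr rfl fun S _ => hcardT S, Finset.sum_const, Finset.card_univ,
      ← Nat.card_eq_fintype_card, smul_eq_mul]
  have hsv : s ∣ Nat.card T := by
    refine hcop.dvd_of_dvd_mul_right (hUcard ▸ ?_)
    refine dvd_natCard_of_invariant (H := stabilizer N a) U ?_ s ?_
    · rintro h x ⟨S, hS, hx⟩
      exact ⟨(h : N) • S, mem_orbit_of_mem_orbit (⟨h.1, hNaB h.2⟩ : NB) hS, Set.smul_mem_smul_set hx⟩
    · rintro x ⟨S, hS, hx⟩
      obtain ⟨u, -, hSd⟩ := hTblock S hS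
      exact (hs a x fun e => Set.disjoint_left.1 hSd haB (e ▸ hx)).symm.dvd
  have hvidx : Nat.card T = (NB ⊓ NC).relIndex NB := by
    rw [Subgroup.inf_relIndex_left, Nat.card_coe_set_eq, ← index_stabilizer, Subgroup.relIndex]
    rfl
  have hdidx : (stabilizer N a).relIndex NB = d := by
    have horb : orbit NB a = B := by
      refine Set.Subset.antisymm ?_ fun x hx => ?_
      · rintro _ ⟨u, rfl⟩
        have hu : (u : N) • B = B := u.2
        exact hu ▸ Set.smul_mem_smul_set haB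
      · obtain ⟨u, rfl⟩ := exists_smul_eq N a x
        exact ⟨⟨u, mem_stabilizer_iff.2
          (hB.smul_eq_of_nonempty ⟨u • a, ⟨a, haB, rfl⟩, hx⟩)⟩, rfl⟩
    rw [hd, ← horb, ← index_stabilizer, Subgroup.relIndex]
    rfl
  have hCeq : ∀ h : N, h • c = c → h • (t • B) = t • B := fun h hh =>
    (hB.translate t).smul_eq_of_nonempty ⟨c, ⟨c, hc, hh⟩, hc⟩
  have hCeq' : ∀ h : N, h • c' = c' → h • (t • B) = t • B := fun h hh =>
    (hB.translate t).smul_eq_of_nonempty ⟨c', ⟨c', hc', hh⟩, hc'⟩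
  set Na := stabilizer N a
  have hle1 : Na ⊓ stabilizer N c ≤ Na ⊓ NC := inf_le_inf le_rfl fun h hh => hCeq h hh
  have hle2 : Na ⊓ stabilizer N c' ≤ Na ⊓ NC := inf_le_inf le_rfl fun h hh => hCeq' h hh
  set s' := (Na ⊓ NC).relIndex Na with hs'
  have hs1 : s ∣ s' := by
    have h1 : (NB ⊓ NC).relIndex NB ∣ (Na ⊓ NC).relIndex NB :=
      Subgroup.relIndex_dvd_of_le_left _ (inf_le_inf hNaB le_rfl)
    rw [← hvidx, ← Subgroup.relIndex_mul_relIndex _ _ _ (inf_le_left : Na ⊓ NC ≤ Na) hNaB, hdidx] at h1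
    exact hcop.dvd_of_dvd_mul_right (hsv.trans h1)
  have key : ∀ z : Ω, a ≠ z → Na ⊓ stabilizer N z ≤ Na ⊓ NC → Na ⊓ stabilizer N z = Na ⊓ NC := by
    intro z hz hle
    have h1 : (Na ⊓ stabilizer N z).relIndex Na = s := by
      rw [← natCard_orbit_stabilizer, hs a z hz]
    have h2 := Subgroup.relIndex_mul_relIndex _ _ _ hle (inf_le_left : Na ⊓ NC ≤ Na)
    rw [h1, ← hs'] at h2
    have hs0 : s ≠ 0 := h1 ▸ Subgroup.index_ne_zero_of_finite
    refine le_antisymm hle (Subgroup.relIndex_eq_one.1 ?_)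
    obtain ⟨k, hk⟩ := hs1
    rw [hk] at h2
    rcases Nat.eq_zero_or_pos k with rfl | hk0
    · rw [mul_zero, mul_zero] at h2; exact absurd h2.symm hs0
    · refine Nat.eq_one_of_dvd_one ⟨k, (Nat.eq_of_mul_eq_mul_left (Nat.pos_of_ne_zero hs0) ?_).symm⟩
      rw [mul_one]; linear_combination h2
  have hg : g ∈ Na ⊓ stabilizer N c' := by
    rw [key c' hac' hle2, ← key c hac hle1]
    exact ⟨hga, hgc⟩
  exact hg.2

/-- A three-halves transitive group is primitive or has trivial two-point stabilisers. -/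
theorem primitive_or_semiregular_of_threeHalves [Finite N] [Finite Ω] [FaithfulSMul N Ω]
    [IsPretransitive N Ω] {s : ℕ}
    (hs : ∀ a b : Ω, a ≠ b → Nat.card (orbit (stabilizer N a) b) = s) :
    IsPreprimitive N Ω ∨ ∀ (g : N) (a b : Ω), a ≠ b → g • a = a → g • b = b → g = 1 := by
  classical
  rw [or_iff_not_imp_left]
  intro hnp g a b hab hga hgb
  obtain ⟨B₀, hB₀, hsub, huniv⟩ : ∃ B : Set Ω, IsBlock N B ∧ ¬ B.Subsingleton ∧ B ≠ Set.univ := by
    by_contra h
    push Not at h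
    exact hnp ⟨fun {B} hB => or_iff_not_imp_left.2 fun hsub => h B hB (Set.not_subsingleton_iff.1 hsub)⟩
  obtain ⟨x₀, hx₀, y₀, hy₀, hxy⟩ := Set.not_subsingleton_iff.1 hsub
  -- a translate containing `a`
  obtain ⟨u, hu⟩ := exists_smul_eq N x₀ a
  set B := u • B₀ with hBdef
  have hB : IsBlock N B := hB₀.translate u
  have haB : a ∈ B := hu ▸ Set.smul_mem_smul_set hx₀
  obtain ⟨a', ha'B, ha'⟩ : ∃ a' ∈ B, a' ≠ a := ⟨u • y₀, Set.smul_mem_smul_set hy₀,
    fun e => hxy (smul_left_cancel u (hu.trans e.symm))⟩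
  obtain ⟨c₀, hc₀⟩ := (Set.ne_univ_iff_exists_notMem B).1 (fun e => huniv
    (by rw [← inv_smul_smul u B₀, ← hBdef, e, Set.smul_set_univ]))
  have htriv : ∀ h : N, h • a = a → h • a' = a' → h = 1 := by
    intro h hha hha'
    -- fixing `a` and an outside point is fixing `a` and `a'`
    have hout : ∀ z, z ∉ B → stabilizer N a ⊓ stabilizer N z = stabilizer N a ⊓ stabilizer N a' := by
      intro z hz
      obtain ⟨v, hv⟩ := exists_smul_eq N a z
      have hzC : z ∈ v • B := hv ▸ Set.smul_mem_smul_set haB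
      have hdisj : Disjoint B (v • B) := by
        rcases hB.smul_eq_or_disjoint v with e | e
        · exact absurd (e ▸ hzC) hz
        · exact e.symm
      have hfix : ∀ b ∈ B, ∀ k : N, k • a = a → k • z = z → k • b = b := by
        intro b hb k hka hkz
        exact fixes_block_of_threeHalves hs (hB.translate v) ⟨v⁻¹, (inv_smul_smul v B).symm⟩
          hdisj.symm hzC (Set.smul_mem_smul_set ha'B)
          (fun e => ha' (smul_left_cancel v (e.trans hv.symm))) haB hb hkz hka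
      have hle : stabilizer N a ⊓ stabilizer N z ≤ stabilizer N a ⊓ stabilizer N a' :=
        fun k hk => ⟨hk.1, hfix a' ha'B k hk.1 hk.2⟩
      refine le_antisymm hle (Subgroup.relIndex_eq_one.1 ?_)
      have h2 := Subgroup.relIndex_mul_relIndex _ _ _ hle (inf_le_left : stabilizer N a ⊓ stabilizer N a' ≤ _)
      rw [← natCard_orbit_stabilizer, ← natCard_orbit_stabilizer, hs a a' ha'.symm,
        hs a z (fun e => hz (e ▸ haB))] at h2
      have hs0 : 0 < s := by
        rw [← hs a a' ha'.symm]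
        exact Nat.card_pos_iff.2 ⟨⟨⟨a', mem_orbit_self _⟩⟩, inferInstance⟩
      exact Nat.eq_of_mul_eq_mul_right hs0 (h2.trans (one_mul s).symm)
    refine eq_of_smul_eq_smul (α := Ω) fun z => ?_
    rw [one_smul]
    by_cases hz : z ∈ B
    · obtain ⟨v, hv⟩ := exists_smul_eq N a c₀
      have hcC : c₀ ∈ v • B := hv ▸ Set.smul_mem_smul_set haB
      have hdisj : Disjoint B (v • B) := by
        rcases hB.smul_eq_or_disjoint v with e | e
        · exact absurd (e ▸ hcC) hc₀
        · exact e.symm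
      have hm : h ∈ stabilizer N a ⊓ stabilizer N c₀ := hout c₀ hc₀ ▸ ⟨hha, hha'⟩
      exact fixes_block_of_threeHalves hs (hB.translate v) ⟨v⁻¹, (inv_smul_smul v B).symm⟩
        hdisj.symm hcC (Set.smul_mem_smul_set ha'B)
        (fun e => ha' (smul_left_cancel v (e.trans hv.symm))) haB hz hm.2 hm.1
    · exact (hout z hz ▸ (⟨hha, hha'⟩ : h ∈ stabilizer N a ⊓ stabilizer N a') :
        h ∈ stabilizer N a ⊓ stabilizer N z).2
  -- all two point stabilisers in `a` have the same order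
  have hcard : ∀ z, a ≠ z → Nat.card (stabilizer N a ⊓ stabilizer N z : Subgroup N) * s =
      Nat.card (stabilizer N a) := by
    intro z hz
    rw [← hs a z hz, natCard_orbit_stabilizer, Subgroup.relIndex,
      ← Subgroup.card_mul_index ((stabilizer N a ⊓ stabilizer N z).subgroupOf (stabilizer N a)),
      Nat.card_congr (Subgroup.subgroupOfEquivOfLe inf_le_left).toEquiv]
  have h1 : Nat.card (stabilizer N a ⊓ stabilizer N a' : Subgroup N) = 1 :=
    Subgroup.card_eq_one.2 ((Subgroup.eq_bot_iff_forall _).2 fun k hk => htriv k hk.1 hk.2)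
  have h2 := (hcard b hab).trans (hcard a' ha'.symm).symm
  have hs0 : 0 < s := by
    rw [← hs a b hab]
    exact Nat.card_pos_iff.2 ⟨⟨⟨b, mem_orbit_self _⟩⟩, inferInstance⟩
  have h3 : Nat.card (stabilizer N a ⊓ stabilizer N b : Subgroup N) = 1 :=
    (Nat.eq_of_mul_eq_mul_right hs0 h2).trans h1
  exact Subgroup.mem_bot.1 (Subgroup.card_eq_one.1 h3 ▸ (⟨hga, hgb⟩ : g ∈ stabilizer N a ⊓ stabilizer N b))

/-- Normal subgroups of doubly transitive groups are three-halves transitive. -/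
theorem exists_orbit_size_of_normal {G : Type*} [Group G] [MulAction G Ω] [Nontrivial Ω]
    (h2 : IsMultiplyPretransitive G Ω 2) (M : Subgroup G) [hM : M.Normal] :
    ∃ s : ℕ, ∀ a b : Ω, a ≠ b → Nat.card (orbit (stabilizer M a) b) = s := by
  obtain ⟨a₀, b₀, hne⟩ := exists_pair_ne Ω
  refine ⟨Nat.card (orbit (stabilizer M a₀) b₀), fun a b hab => ?_⟩
  obtain ⟨g, rfl, rfl⟩ := is_two_pretransitive_iff.1 h2 hne hab
  rw [Nat.card_coe_set_eq, Nat.card_coe_set_eq,
    ← Set.ncard_image_of_injective (orbit (stabilizer M a₀) b₀) (MulAction.injective g)]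
  congr 1
  ext x
  constructor
  · rintro ⟨⟨⟨m, hm⟩, hma⟩, rfl⟩
    refine ⟨g⁻¹ • m • g • b₀, ⟨⟨⟨g⁻¹ * m * g, by simpa using hM.conj_mem m hm g⁻¹⟩, ?_⟩, ?_⟩, ?_⟩
    · have : m • g • a₀ = g • a₀ := hma
      show (g⁻¹ * m * g) • a₀ = a₀
      rw [mul_smul, mul_smul, this, inv_smul_smul]
    · show (g⁻¹ * m * g) • b₀ = _
      rw [mul_smul, mul_smul]
    · show g • g⁻¹ • m • g • b₀ = m • g • b₀
      rw [smul_inv_smul]
  · rintro ⟨_, ⟨⟨⟨m, hm⟩, hma⟩, rfl⟩, rfl⟩
    refine ⟨⟨⟨g * m * g⁻¹, hM.conj_mem m hm g⟩, ?_⟩, ?_⟩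
    · have : m • a₀ = a₀ := hma
      show (g * m * g⁻¹) • g • a₀ = g • a₀
      rw [mul_smul, mul_smul, inv_smul_smul, this]
    · show (g * m * g⁻¹) • g • b₀ = g • m • b₀
      rw [mul_smul, mul_smul, inv_smul_smul]

end Cfsg.Agent.PermGroups
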