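import Cfsg.Agent.PermGroups.Transitivity

/-!
Degree-minus-one transitivity gives full transitivity.
-/

namespace Cfsg.Agent.PermGroups

open MulAction

variable {G α : Type*} [Group G] [MulAction G α]

theorem isMultiplyPretransitive_succ_of_card_eq [Fintype α] {k : ℕ} (hk : k + 1 = Fintype.card α)
    (h : IsMultiplyPretransitive G α k) : IsMultiplyPretransitive G α (k + 1) := by
  rw [isMultiplyPretransitive_iff] at h ⊢
  intro x y
  obtain ⟨g, hg⟩ := h (Fin.castSuccEmb.trans x) (Fin.castSuccEmb.trans y)
  refine ⟨g, Function.Embedding.ext fun i => ?_⟩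
  have hy : Function.Surjective y :=
    ((Fintype.bijective_iff_injective_and_card y).mpr ⟨y.injective, by simp [hk]⟩).2
  induction i using Fin.lastCases with
  | cast i => exact DFunLike.congr_fun hg i
  | last =>
    obtain ⟨j, hj⟩ := hy (g • x (Fin.last k))
    induction j using Fin.lastCases with
    | cast j =>
      exfalso
      have h1 : g • x (Fin.castSucc j) = y (Fin.castSucc j) := DFunLike.congr_fun hg j
      rw [← h1, smul_left_cancel_iff] at hj
      exact Fin.castSucc_ne_last j (x.injective hj)
    | last => exact hj.symm

end Cfsg.Agent.PermGroups
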