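import Mathlib

/-!
Subgroups of index `n` of doubly transitive groups of degree `n`.
-/

set_option autoImplicit false

namespace Cfsg.Agent.PermGroups

open MulAction Matrix

variable {G Ω : Type*} [Group G] [MulAction G Ω]

theorem smul_mem_orbit_iff' {H : Subgroup G} (h : H) {c x : Ω} :
    h • x ∈ orbit H c ↔ x ∈ orbit H c :=
  ⟨fun m => by simpa using mem_orbit_of_mem_orbit h⁻¹ m, mem_orbit_of_mem_orbit h⟩

/-- An intransitive subgroup without fixed points, of index equal to the degree, has two orbits. -/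
theorem natCard_orbits_eq_two [Finite Ω] (h2 : IsMultiplyPretransitive G Ω 2) (H : Subgroup G)
    (hidx : H.index = Nat.card Ω) (hnt : ¬ IsPretransitive H Ω)
    (hfix : ∀ a : Ω, ∃ h : H, h • a ≠ a) : Nat.card (orbitRel.Quotient H Ω) = 2 := by
  classical
  haveI := Fintype.ofFinite Ω
  haveI : Fintype (orbitRel.Quotient H Ω) := Fintype.ofFinite _
  by_contra hne
  have hge : 1 < Nat.card (orbitRel.Quotient H Ω) := by
    by_contra hle
    push Not at hle
    refine hnt ⟨fun a b => ?_⟩
    have hsub : Subsingleton (orbitRel.Quotient H Ω) := Finite.card_le_one_iff_subsingleton.1 hle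
    obtain ⟨h, hh⟩ := Quotient.exact (Subsingleton.elim (⟦b⟧ : orbitRel.Quotient H Ω) ⟦a⟧)
    exact ⟨h, hh⟩
  obtain ⟨o, o', o'', ho, ho', ho''⟩ := Fintype.two_lt_card_iff.1
    (show 2 < Fintype.card (orbitRel.Quotient H Ω) by rw [← Nat.card_eq_fintype_card]; omega)
  obtain ⟨a, rfl⟩ := Quotient.exists_rep o
  obtain ⟨a', rfl⟩ := Quotient.exists_rep o'
  obtain ⟨a'', rfl⟩ := Quotient.exists_rep o''
  have hΩpos : 0 < Nat.card Ω := by
    have : Nonempty Ω := ⟨a⟩
    exact Nat.card_pos
  haveI : Finite (G ⧸ H) := Nat.finite_of_card_ne_zero (by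
    show H.index ≠ 0
    omega)
  obtain ⟨e⟩ : Nonempty (Ω ≃ G ⧸ H) := Finite.card_eq.1 hidx.symm
  -- incidence matrices
  let P : Ω → G ⧸ H → Ω → Prop := fun c q x => q.out⁻¹ • x ∈ orbit H c
  let M : Ω → Matrix Ω Ω ℚ := fun c => Matrix.of fun x y => if P c (e y) x then 1 else 0
  have hP : ∀ (c : Ω) (g : G) (q : G ⧸ H) (x : Ω), P c (g • q) (g • x) ↔ P c q x := by
    intro c g q x
    obtain ⟨h, hh⟩ : ∃ h : H, (g • q).out = g * q.out * h := by
      have e1 : ((g * q.out : G) : G ⧸ H) = g • q := by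
        conv_rhs => rw [← q.out_eq]
        rfl
      obtain ⟨h, hh⟩ := QuotientGroup.mk_out_eq_mul H (g * q.out)
      exact ⟨h, by rw [← e1, hh]⟩
    show (g • q).out⁻¹ • g • x ∈ orbit H c ↔ q.out⁻¹ • x ∈ orbit H c
    have e2 : (g • q).out⁻¹ • g • x = h⁻¹ • (q.out⁻¹ • x) := by
      rw [hh, smul_smul]
      show _ = ((h⁻¹ : H) : G) • (q.out⁻¹ • x)
      rw [smul_smul, Subgroup.coe_inv]
      congr 1
      group
    rw [e2]
    exact smul_mem_orbit_iff' h⁻¹
  have hdelta : ∀ c d : Ω, (⟦c⟧ : orbitRel.Quotient H Ω) ≠ ⟦d⟧ →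
      M c d (e.symm ((1 : G) : G ⧸ H)) = 0 ∧ M c c (e.symm ((1 : G) : G ⧸ H)) = 1 := by
    intro c d hcd
    obtain ⟨h, hh⟩ := QuotientGroup.mk_out_eq_mul H (1 : G)
    rw [one_mul] at hh
    have h1 : ∀ x, P c ((1 : G) : G ⧸ H) x ↔ x ∈ orbit H c := fun x => by
      show (Quotient.out _)⁻¹ • x ∈ orbit H c ↔ _
      rw [hh]
      exact smul_mem_orbit_iff' h⁻¹
    refine ⟨?_, ?_⟩
    · show (if P c _ d then (1 : ℚ) else 0) = 0
      rw [if_neg]
      rw [Equiv.apply_symm_apply, h1]
      exact fun hd => hcd (Quotient.sound hd).symm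
    · show (if P c _ c then (1 : ℚ) else 0) = 1
      rw [if_pos]
      rw [Equiv.apply_symm_apply, h1]
      exact mem_orbit_self c
  have hprod : ∀ c d : Ω, ∃ α β : ℚ, ∀ x y, (M c * (M d)ᵀ) x y = if x = y then α else β := by
    intro c d
    have hinv : ∀ (g : G) x y, (M c * (M d)ᵀ) (g • x) (g • y) = (M c * (M d)ᵀ) x y := by
      intro g x y
      simp only [mul_apply, transpose_apply]
      refine (Fintype.sum_equiv (e.trans ((MulAction.toPerm g).trans e.symm)) _ _ fun z => ?_).symm
      simp only [M, Matrix.of_apply, Equiv.trans_apply, Equiv.apply_symm_apply, MulAction.toPerm_apply, hP]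
    have htr : ∀ {a b c d : Ω}, a ≠ b → c ≠ d → ∃ g : G, g • a = c ∧ g • b = d :=
      is_two_pretransitive_iff.1 h2
    by_cases hex : ∃ y, y ≠ a
    · obtain ⟨b, hb⟩ := hex
      refine ⟨(M c * (M d)ᵀ) a a, (M c * (M d)ᵀ) a b, fun x y => ?_⟩
      split_ifs with hxy
      · subst hxy
        rcases eq_or_ne x a with rfl | hxa
        · rfl
        · obtain ⟨g, g1, -⟩ := htr hxa hb.symm
          rw [← hinv g, g1]
      · obtain ⟨g, g1, g2⟩ := htr hxy hb.symm
        rw [← hinv g, g1, g2]
    · push Not at hex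
      exact absurd (by rw [hex a']) ho
  -- the first incidence matrix is invertible
  have hunit : IsUnit (M a)ᵀ := by
    rw [isUnit_transpose, ← mulVec_injective_iff_isUnit.trans Iff.rfl]
    obtain ⟨α, β, hαβ⟩ := hprod a a
    have hα : ∀ x, α = ∑ z, M a x z := fun x => by
      have := hαβ x x
      rw [if_pos rfl] at this
      rw [← this, mul_apply]
      refine Finset.sum_congr rfl fun z _ => ?_
      simp only [M, transpose_apply, Matrix.of_apply]
      split_ifs <;> simp
    obtain ⟨b, hb⟩ := hfix a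
    have hβ0 : 0 ≤ β := by
      have := hαβ (b • a) a
      rw [if_neg hb] at this
      rw [← this, mul_apply]
      refine Finset.sum_nonneg fun z _ => ?_
      simp only [M, transpose_apply, Matrix.of_apply]
      split_ifs <;> simp
    have hβα : β < α := by
      have := hαβ a a'
      rw [if_neg fun e0 : a = a' => ho (by rw [e0])] at this
      rw [← this, hα a, mul_apply]
      refine Finset.sum_lt_sum (fun z _ => ?_) ⟨e.symm ((1 : G) : G ⧸ H), Finset.mem_univ _, ?_⟩
      · simp only [M, transpose_apply, Matrix.of_apply]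
        split_ifs <;> simp
      · rw [transpose_apply, (hdelta a a' ho).1, (hdelta a a' ho).2]
        norm_num
    have hinj : Function.Injective (M a * (M a)ᵀ).mulVec := by
      show Function.Injective (Matrix.mulVecLin (M a * (M a)ᵀ))
      rw [injective_iff_map_eq_zero]
      intro v hv
      have hv' : ∀ x, (α - β) * v x + β * ∑ y, v y = 0 := fun x => by
        have h1 := congrFun hv x
        simp only [Matrix.mulVecLin_apply, mulVec, dotProduct, hαβ, Pi.zero_apply] at h1
        have e1 : ∀ y, (if x = y then α else β) * v y =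
            (if x = y then (α - β) * v y else 0) + β * v y := fun y => by split_ifs <;> ring
        simp only [e1, Finset.sum_add_distrib, Finset.sum_ite_eq, Finset.mem_univ, if_true,
          ← Finset.mul_sum] at h1
        exact h1
      have hS : ((α - β) + β * (Fintype.card Ω : ℚ)) * ∑ y, v y = 0 := by
        have h1 := Finset.sum_eq_zero (s := (Finset.univ : Finset Ω)) fun x _ => hv' x
        rw [Finset.sum_add_distrib, ← Finset.mul_sum, Finset.sum_const, Finset.card_univ,
          nsmul_eq_mul] at h1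
        rw [← h1]; ring
      have hpos : 0 < (α - β) + β * (Fintype.card Ω : ℚ) := by
        have : 0 ≤ β * (Fintype.card Ω : ℚ) := by positivity
        linarith
      have hsum := (mul_eq_zero.1 hS).resolve_left hpos.ne'
      funext x
      have := hv' x
      rw [hsum, mul_zero, add_zero] at this
      exact (mul_eq_zero.1 this).resolve_left (by linarith)
    rw [mulVec_injective_iff_isUnit] at hinj ⊢
    exact (Matrix.isUnit_iff_isUnit_det _).2
      (isUnit_of_mul_isUnit_left (det_mul (M a) (M a)ᵀ ▸ (Matrix.isUnit_iff_isUnit_det _).1 hinj))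
  obtain ⟨U, hU⟩ := hunit
  -- all incidence matrices lie in a two dimensional space
  let N : Matrix Ω Ω ℚ := (U⁻¹ : (Matrix Ω Ω ℚ)ˣ)
  let y₀ := e.symm ((1 : G) : G ⧸ H)
  have hspan : ∀ c, ∃ α β : ℚ, ∀ x, M c x y₀ = (α - β) * N x y₀ + β * ∑ z, N z y₀ := by
    intro c
    obtain ⟨α, β, hαβ⟩ := hprod c a
    refine ⟨α, β, fun x => ?_⟩
    have hc : M c = (M c * (M a)ᵀ) * N := by
      rw [← hU, mul_assoc, Units.mul_inv, mul_one]
    have e1 : ∀ z, (if x = z then α else β) * N z y₀ =
        (if x = z then (α - β) * N z y₀ else 0) + β * N z y₀ := fun z => by split_ifs <;> ring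
    rw [hc, mul_apply]
    simp only [hαβ, e1, Finset.sum_add_distrib, Finset.sum_ite_eq, Finset.mem_univ, if_true,
      ← Finset.mul_sum]
  obtain ⟨p, q, hpq⟩ := hspan a
  obtain ⟨p', q', hpq'⟩ := hspan a'
  obtain ⟨p'', q'', hpq''⟩ := hspan a''
  have e11 := (hpq a).symm.trans (hdelta a a' ho).2
  have e12 := (hpq a').symm.trans (hdelta a a' ho).1
  have e13 := (hpq a'').symm.trans (hdelta a a'' ho').1
  have e21 := (hpq' a).symm.trans (hdelta a' a (Ne.symm ho)).1
  have e22 := (hpq' a').symm.trans (hdelta a' a (Ne.symm ho)).2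
  have e23 := (hpq' a'').symm.trans (hdelta a' a'' ho'').1
  have e31 := (hpq'' a).symm.trans (hdelta a'' a (Ne.symm ho')).1
  have e33 := (hpq'' a'').symm.trans (hdelta a'' a (Ne.symm ho')).2
  generalize N a y₀ = u at e11 e21 e31
  generalize N a' y₀ = u' at e12 e22
  generalize N a'' y₀ = u'' at e13 e23 e33
  generalize ∑ z, N z y₀ = s at e11 e12 e13 e21 e22 e23 e31 e33
  set A := p - q
  set A' := p' - q'
  set A'' := p'' - q''
  have hdet : A * q' - A' * q ≠ 0 := by
    intro h0
    have : (1 : ℚ) = 0 := by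
      linear_combination (-(1 : ℚ)) * e11 * (A' * u' + q' * s) - e22 + e12 * (A' * u + q' * s)
        + (u - u') * s * h0
    exact one_ne_zero this
  have hs : s = 0 := by
    apply mul_left_cancel₀ hdet
    linear_combination A * e23 - A' * e13
  have hu : u'' = 0 := by
    apply mul_left_cancel₀ hdet
    linear_combination q' * e13 - q * e23
  rw [hs, hu] at e33
  simp at e33

end Cfsg.Agent.PermGroups
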