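import Mathlib

/-!
# Witt's lemma on transitive extensions
-/

set_option autoImplicit false

namespace Cfsg.Agent.PermGroups.WittExtension

variable {α : Type*}

/-- The chain of groups in Witt's construction. -/
def chain (G : Subgroup (Equiv.Perm α)) (q : ℕ → α) (s : ℕ → Equiv.Perm α) : ℕ → Subgroup (Equiv.Perm α)
  | 0 => G ⊓ MulAction.stabilizer (Equiv.Perm α) (q 2)
  | 1 => G
  | (m + 2) => Subgroup.closure ((chain G q s (m + 1) : Set (Equiv.Perm α)) ∪ {s (m + 2)})

theorem chain_mono_succ (G : Subgroup (Equiv.Perm α)) (q : ℕ → α) (s : ℕ → Equiv.Perm α) (m : ℕ) :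
    chain G q s m ≤ chain G q s (m + 1) := by
  rcases m with _ | m
  · exact inf_le_left
  · intro x hx
    exact Subgroup.subset_closure (Or.inl hx)

theorem chain_mono (G : Subgroup (Equiv.Perm α)) (q : ℕ → α) (s : ℕ → Equiv.Perm α) :
    Monotone (chain G q s) :=
  monotone_nat_of_le_succ (chain_mono_succ G q s)

/-- Double coset closure: if `s a s ∈ A ∪ A s A` and `s^2 ∈ A` then `⟨A, s⟩ = A ∪ A s A`. -/
theorem closure_eq_union {M : Type*} [Group M] (A : Subgroup M) (s : M) (hs : s ^ 2 ∈ A)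
    (h : ∀ a ∈ A, s * a * s ∈ A ∨ ∃ u ∈ A, ∃ v ∈ A, s * a * s = u * s * v) :
    ∀ x ∈ Subgroup.closure ((A : Set M) ∪ {s}), x ∈ A ∨ ∃ u ∈ A, ∃ v ∈ A, x = u * s * v := by
  intro x hx
  have stepS : ∀ z : M, (z ∈ A ∨ ∃ u ∈ A, ∃ v ∈ A, z = u * s * v) →
      (z * s ∈ A ∨ ∃ u ∈ A, ∃ v ∈ A, z * s = u * s * v) := by
    intro z hz
    rcases hz with hz | ⟨u, hu, v, hv, rfl⟩
    · exact Or.inr ⟨z, hz, 1, one_mem _, by simp⟩
    · rcases h v hv with hc | ⟨u', hu', v', hv', hc⟩
      · left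
        have : u * s * v * s = u * (s * v * s) := by group
        rw [this]; exact mul_mem hu hc
      · right
        refine ⟨u * u', mul_mem hu hu', v', hv', ?_⟩
        have : u * s * v * s = u * (s * v * s) := by group
        rw [this, hc]; group
  have stepA : ∀ z : M, (z ∈ A ∨ ∃ u ∈ A, ∃ v ∈ A, z = u * s * v) → ∀ a ∈ A,
      (z * a ∈ A ∨ ∃ u ∈ A, ∃ v ∈ A, z * a = u * s * v) := by
    intro z hz a ha
    rcases hz with hz | ⟨u, hu, v, hv, rfl⟩
    · exact Or.inl (mul_mem hz ha)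
    · exact Or.inr ⟨u, hu, v * a, mul_mem hv ha, by group⟩
  induction hx using Subgroup.closure_induction_right with
  | one => exact Or.inl (one_mem _)
  | mul_right z hz y hy ih =>
    rcases hy with hy | hy
    · exact stepA z ih y hy
    · rw [Set.mem_singleton_iff.mp hy]; exact stepS z ih
  | mul_inv_cancel z hz y hy ih =>
    rcases hy with hy | hy
    · exact stepA z ih _ (inv_mem hy)
    · rw [Set.mem_singleton_iff.mp hy]
      have : z * s⁻¹ = z * (s ^ 2)⁻¹ * s := by group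
      rw [this]
      exact stepS _ (stepA z ih _ (inv_mem hs))

variable (t : ℕ) (q : ℕ → α) (G : Subgroup (Equiv.Perm α)) (s : ℕ → Equiv.Perm α)

/-- The set of points moved at level `m`. -/
def level (m : ℕ) : Set α := {a | ∀ i, m + 1 ≤ i → i ≤ t → a ≠ q i}

theorem witt [Finite α] (ht : 2 ≤ t)
    (hq : ∀ i j : ℕ, 1 ≤ i → i ≤ t → 1 ≤ j → j ≤ t → q i = q j → i = j)
    (hfix : ∀ g ∈ G, ∀ i : ℕ, 3 ≤ i → i ≤ t → g (q i) = q i)
    (h2 : ∀ a b c d : α, (∀ i, 3 ≤ i → i ≤ t → a ≠ q i ∧ b ≠ q i ∧ c ≠ q i ∧ d ≠ q i) →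
      a ≠ b → c ≠ d → ∃ g ∈ G, g a = c ∧ g b = d)
    (hs1 : s 1 ∈ G) (hs1q : s 1 (q 1) = q 2 ∧ s 1 (q 2) = q 1)
    (hsq : ∀ i : ℕ, 2 ≤ i → i + 1 ≤ t → s i (q i) = q (i + 1) ∧ s i (q (i + 1)) = q i ∧
      ∀ j : ℕ, 1 ≤ j → j ≤ t → j ≠ i → j ≠ i + 1 → s i (q j) = q j)
    (H : Subgroup (Equiv.Perm α))
    (hH : H = G ⊓ MulAction.stabilizer (Equiv.Perm α) (q 1) ⊓ MulAction.stabilizer (Equiv.Perm α) (q 2))
    (hsq2 : ∀ i : ℕ, 1 ≤ i → i + 1 ≤ t → s i ^ 2 ∈ H)
    (hbraid : ∀ i : ℕ, 1 ≤ i → i + 2 ≤ t → (s i * s (i + 1)) ^ 3 ∈ H)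
    (hcomm : ∀ i j : ℕ, 1 ≤ i → i + 2 ≤ j → j + 1 ≤ t → (s i * s j) ^ 2 ∈ H ∧ (s j * s i) ^ 2 ∈ H)
    (hnorm : ∀ i : ℕ, 2 ≤ i → i + 1 ≤ t → ∀ g ∈ G ⊓ MulAction.stabilizer (Equiv.Perm α) (q 2),
      s i * g * (s i)⁻¹ ∈ G ⊓ MulAction.stabilizer (Equiv.Perm α) (q 2)) :
    (∀ x : ℕ → α, (∀ i j : ℕ, 1 ≤ i → i ≤ t → 1 ≤ j → j ≤ t → x i = x j → i = j) →
      ∃ k ∈ chain G q s (t - 1), ∀ j, 1 ≤ j → j ≤ t → k (q j) = x j) ∧
    (∀ k ∈ chain G q s (t - 1), (∀ j, 1 ≤ j → j ≤ t → k (q j) = q j) → k ∈ H) ∧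
    H ≤ G ∧ (∀ k ∈ H, ∀ j, 1 ≤ j → j ≤ t → k (q j) = q j) := by
  classical
  set A := chain G q s with hA
  have hHG : H ≤ G := by rw [hH]; exact inf_le_left.trans inf_le_left
  have hH0 : H ≤ A 0 := by
    rw [hH]
    intro x hx
    exact ⟨hx.1.1, hx.2⟩
  have hHA : ∀ m, H ≤ A m := fun m => hH0.trans (chain_mono G q s (Nat.zero_le m))
  have hHfix : ∀ k ∈ H, ∀ j, 1 ≤ j → j ≤ t → k (q j) = q j := by
    intro k hk j hj hjt
    have hk' := hk
    rw [hH] at hk'
    rcases (show j = 1 ∨ j = 2 ∨ 3 ≤ j by omega) with rfl | rfl | h3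
    · exact hk'.1.2
    · exact hk'.2
    · exact hfix k hk'.1.1 j h3 hjt
  have hsA : ∀ i, 1 ≤ i → s i ∈ A i := by
    intro i hi
    rcases i with _ | _ | i
    · omega
    · exact hs1
    · exact Subgroup.subset_closure (Or.inr rfl)
  -- conjugates of generators
  have hnormal : ∀ j i : ℕ, j + 2 ≤ i → i + 1 ≤ t → ∀ x ∈ A j, s i * x * (s i)⁻¹ ∈ A j := by
    intro j
    induction j with
    | zero => intro i hi hit x hx; exact hnorm i (by omega) hit x hx
    | succ j ih =>
      intro i hi hit x hx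
      have hgen : s i * s (j + 1) * (s i)⁻¹ ∈ A (j + 1) := by
        have hh := (hcomm (j + 1) i (by omega) (by omega) hit).1
        have he : s i * s (j + 1) * (s i)⁻¹ =
            (s (j + 1))⁻¹ * ((s (j + 1) * s i) ^ 2) * ((s i) ^ 2)⁻¹ := by
          simp only [pow_two]; group
        rw [he]
        exact mul_mem (mul_mem (inv_mem (hsA (j + 1) (by omega))) (hHA _ hh))
          (inv_mem (hHA _ (hsq2 i (by omega) hit)))
      let C : Subgroup (Equiv.Perm α) := (A (j + 1)).comap (MulAut.conj (s i)).toMonoidHom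
      have hmem : ∀ y, y ∈ C ↔ s i * y * (s i)⁻¹ ∈ A (j + 1) := fun y => Iff.rfl
      have hle0 : ∀ y ∈ A j, y ∈ C := fun y hy =>
        (hmem y).mpr (chain_mono_succ G q s j (ih i (by omega) hit y hy))
      have hle : A (j + 1) ≤ C := by
        rcases j with _ | j
        · -- `G` is generated by `G₀` and `s 1`
          intro g hg
          have hg2 : g (q 2) = q 2 ∨ g (q 2) ≠ q 2 := em _
          rcases hg2 with hg2 | hg2
          · exact hle0 g ⟨hg, hg2⟩
          · have hq12 : q 1 ≠ q 2 := fun h => by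
              have := hq 1 2 le_rfl (by omega) (by omega) ht h; omega
            obtain ⟨a, ha, ha1, ha2⟩ := h2 (q 1) (q 2) (g (q 2)) (q 2) (fun k hk hkt => by
              have e1 : q 1 ≠ q k := fun h => by
                have := hq 1 k le_rfl (by omega) (by omega) hkt h; omega
              have e2 : q 2 ≠ q k := fun h => by
                have := hq 2 k (by omega) ht (by omega) hkt h; omega
              refine ⟨e1, e2, fun h => e2 (g.injective (h.trans (hfix g hg k hk hkt).symm)), e2⟩)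
              hq12 hg2
            have hb : (s 1)⁻¹ * a⁻¹ * g ∈ A 0 := by
              refine ⟨G.mul_mem (G.mul_mem (G.inv_mem hs1) (G.inv_mem ha)) hg, ?_⟩
              show ((s 1)⁻¹ * a⁻¹ * g) (q 2) = q 2
              rw [Equiv.Perm.mul_apply, Equiv.Perm.mul_apply, Equiv.Perm.inv_eq_iff_eq,
                Equiv.Perm.inv_eq_iff_eq, hs1q.2]
              exact ha1.symm
            have : g = a * s 1 * ((s 1)⁻¹ * a⁻¹ * g) := by group
            rw [this]
            exact mul_mem (mul_mem (hle0 a ⟨ha, ha2⟩) ((hmem _).mpr hgen)) (hle0 _ hb)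
        · show Subgroup.closure _ ≤ C
          rw [Subgroup.closure_le]
          rintro y (hy | hy)
          · exact hle0 y hy
          · rw [Set.mem_singleton_iff.mp hy]; exact (hmem _).mpr hgen
      exact (hmem x).mp (hle hx)
  -- conjugation by the inverse
  have hnormal' : ∀ j i : ℕ, j + 2 ≤ i → i + 1 ≤ t → ∀ x ∈ A j, (s i)⁻¹ * x * s i ∈ A j := by
    intro j i hi hit x hx
    have he : (s i)⁻¹ * x * s i = (s i ^ 2)⁻¹ * (s i * x * (s i)⁻¹) * (s i ^ 2) := by
      simp only [pow_two]; group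
    rw [he]
    have h2' := hHA j (hsq2 i (by omega) hit)
    exact mul_mem (mul_mem (inv_mem h2') (hnormal j i hi hit x hx)) h2'
  -- main invariant
  have main : ∀ m, m + 2 ≤ t →
      (∀ x ∈ A (m + 1), ∀ i, m + 3 ≤ i → i ≤ t → x (q i) = q i) ∧
      (∀ x ∈ A (m + 1), x (q (m + 2)) = q (m + 2) → x ∈ A m) ∧
      (∀ x ∈ A (m + 1), x ∈ A m ∨ ∃ u ∈ A m, ∃ v ∈ A m, x = u * s (m + 1) * v) ∧
      (∀ c : α, (∀ i, m + 3 ≤ i → i ≤ t → c ≠ q i) → ∃ x ∈ A (m + 1), x (q (m + 2)) = c) := by
    intro m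
    induction m with
    | zero =>
      intro ht2
      refine ⟨fun x hx i hi hit => hfix x hx i hi hit, fun x hx hx2 => ⟨hx, hx2⟩, ?_, ?_⟩
      · intro g hg
        by_cases hg2 : g (q 2) = q 2
        · exact Or.inl ⟨hg, hg2⟩
        · have hq12 : q 1 ≠ q 2 := fun h => by
            have := hq 1 2 le_rfl (by omega) (by omega) ht h; omega
          obtain ⟨a, ha, ha1, ha2⟩ := h2 (q 1) (q 2) (g (q 2)) (q 2) (fun k hk hkt => by
            have e1 : q 1 ≠ q k := fun h => by
              have := hq 1 k le_rfl (by omega) (by omega) hkt h; omega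
            have e2 : q 2 ≠ q k := fun h => by
              have := hq 2 k (by omega) ht (by omega) hkt h; omega
            refine ⟨e1, e2, fun h => e2 (g.injective (h.trans (hfix g hg k hk hkt).symm)), e2⟩)
            hq12 hg2
          refine Or.inr ⟨a, ⟨ha, ha2⟩, (s 1)⁻¹ * a⁻¹ * g, ⟨G.mul_mem (G.mul_mem (G.inv_mem hs1) (G.inv_mem ha)) hg, ?_⟩,
            by group⟩
          show ((s 1)⁻¹ * a⁻¹ * g) (q 2) = q 2
          rw [Equiv.Perm.mul_apply, Equiv.Perm.mul_apply, Equiv.Perm.inv_eq_iff_eq,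
            Equiv.Perm.inv_eq_iff_eq, hs1q.2]
          exact ha1.symm
      · intro c hc
        by_cases hc2 : c = q 2
        · exact ⟨1, one_mem _, by rw [hc2]; rfl⟩
        · have hq12 : q 1 ≠ q 2 := fun h => by
            have := hq 1 2 le_rfl (by omega) (by omega) ht h; omega
          obtain ⟨a, ha, _, ha2⟩ := h2 (q 1) (q 2) (q 2) c (fun k hk hkt => by
            refine ⟨fun h => ?_, fun h => ?_, fun h => ?_, hc k hk hkt⟩
            · have := hq 1 k le_rfl (by omega) (by omega) hkt h; omega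
            · have := hq 2 k (by omega) ht (by omega) hkt h; omega
            · have := hq 2 k (by omega) ht (by omega) hkt h; omega) hq12 (Ne.symm hc2)
          exact ⟨a, ha, ha2⟩
    | succ m ih =>
      intro hm
      obtain ⟨ihfix, ihstab, ihdec, ihtr⟩ := ih (by omega)
      have hmem : s (m + 2) ∈ A (m + 2) := hsA _ (by omega)
      obtain ⟨hsa, hsb, hsc⟩ := hsq (m + 2) (by omega) (by omega)
      have hfix' : ∀ x ∈ A (m + 2), ∀ i, m + 4 ≤ i → i ≤ t → x (q i) = q i := by
        intro x hx i hi hit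
        have hle : A (m + 2) ≤ MulAction.stabilizer (Equiv.Perm α) (q i) := by
          show Subgroup.closure _ ≤ _
          rw [Subgroup.closure_le]
          rintro y (hy | hy)
          · exact ihfix y hy i (by omega) hit
          · rw [Set.mem_singleton_iff.mp hy]
            exact hsc i (by omega) hit (by omega) (by omega)
        exact hle hx
      have hr : s (m + 1) ∈ A (m + 1) := hsA _ (by omega)
      have hsquare : s (m + 2) ^ 2 ∈ A (m + 1) := hHA _ (hsq2 _ (by omega) (by omega))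
      have hsrs : ∃ u ∈ A (m + 1), ∃ v ∈ A (m + 1),
          s (m + 2) * s (m + 1) * s (m + 2) = u * s (m + 2) * v := by
        have hh := hHA (m + 1) (hbraid (m + 1) (by omega) (by omega))
        refine ⟨(s (m + 1))⁻¹ * (s (m + 1) * s (m + 2)) ^ 3 * (s (m + 2) ^ 2)⁻¹,
          mul_mem (mul_mem (inv_mem hr) hh) (inv_mem hsquare), (s (m + 1))⁻¹, inv_mem hr, ?_⟩
        simp only [pow_succ, pow_zero, one_mul]; group
      have hdec : ∀ x ∈ A (m + 2), x ∈ A (m + 1) ∨
          ∃ u ∈ A (m + 1), ∃ v ∈ A (m + 1), x = u * s (m + 2) * v := by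
        refine closure_eq_union (A (m + 1)) (s (m + 2)) hsquare ?_
        intro a ha
        rcases ihdec a ha with ha0 | ⟨u, hu, v, hv, rfl⟩
        · left
          have he : s (m + 2) * a * s (m + 2) = s (m + 2) * a * (s (m + 2))⁻¹ * s (m + 2) ^ 2 := by
            simp only [pow_two]; group
          rw [he]
          exact mul_mem (chain_mono_succ G q s m (hnormal m (m + 2) le_rfl (by omega) a ha0)) hsquare
        · right
          obtain ⟨u', hu', v', hv', he'⟩ := hsrs
          refine ⟨s (m + 2) * u * (s (m + 2))⁻¹ * u',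
            mul_mem (chain_mono_succ G q s m (hnormal m (m + 2) le_rfl (by omega) u hu)) hu',
            v' * ((s (m + 2))⁻¹ * v * s (m + 2)),
            mul_mem hv' (chain_mono_succ G q s m (hnormal' m (m + 2) le_rfl (by omega) v hv)), ?_⟩
          calc s (m + 2) * (u * s (m + 1) * v) * s (m + 2)
              = s (m + 2) * u * (s (m + 2))⁻¹ * (s (m + 2) * s (m + 1) * s (m + 2)) *
                ((s (m + 2))⁻¹ * v * s (m + 2)) := by group
            _ = _ := by rw [he']; group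
      refine ⟨hfix', ?_, hdec, ?_⟩
      · intro x hx hx3
        rcases hdec x hx with h | ⟨u, hu, v, hv, rfl⟩
        · exact h
        · exfalso
          rw [Equiv.Perm.mul_apply, Equiv.Perm.mul_apply, ihfix v hv (m + 3) le_rfl (by omega),
            hsb] at hx3
          have h1 : u (q (m + 3)) = q (m + 3) := ihfix u hu (m + 3) le_rfl (by omega)
          have h3 := u.injective (hx3.trans h1.symm)
          have := hq (m + 2) (m + 3) (by omega) (by omega) (by omega) (by omega) h3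
          omega
      · intro c hc
        by_cases hc3 : c = q (m + 3)
        · exact ⟨1, one_mem _, by rw [hc3]; rfl⟩
        · obtain ⟨x, hx, hxc⟩ := ihtr c (fun i hi hit => by
            rcases eq_or_lt_of_le hi with rfl | hi'
            · exact hc3
            · exact hc i hi' hit)
          refine ⟨x * s (m + 2), mul_mem (chain_mono_succ G q s (m + 1) hx) hmem, ?_⟩
          rw [Equiv.Perm.mul_apply, hsb, hxc]
  -- transitivity
  have trans : ∀ m, m + 2 ≤ t → ∀ x : ℕ → α,
      (∀ i j : ℕ, 1 ≤ i → i ≤ m + 2 → 1 ≤ j → j ≤ m + 2 → x i = x j → i = j) →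
      (∀ j, 1 ≤ j → j ≤ m + 2 → ∀ i, m + 3 ≤ i → i ≤ t → x j ≠ q i) →
      ∃ k ∈ A (m + 1), ∀ j, 1 ≤ j → j ≤ m + 2 → k (q j) = x j := by
    intro m
    induction m with
    | zero =>
      intro _ x hx hxl
      obtain ⟨g, hg, hg1, hg2⟩ := h2 (q 1) (q 2) (x 1) (x 2) (fun k hk hkt => by
        refine ⟨fun h => ?_, fun h => ?_, hxl 1 le_rfl (by omega) k hk hkt,
          hxl 2 (by omega) le_rfl k hk hkt⟩
        · have := hq 1 k le_rfl (by omega) (by omega) hkt h; omega
        · have := hq 2 k (by omega) ht (by omega) hkt h; omega)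
        (fun h => by have := hq 1 2 le_rfl (by omega) (by omega) ht h; omega)
        (fun h => by have := hx 1 2 le_rfl (by omega) (by omega) le_rfl h; omega)
      refine ⟨g, hg, fun j hj hj2 => ?_⟩
      rcases (show j = 1 ∨ j = 2 by omega) with rfl | rfl
      · exact hg1
      · exact hg2
    | succ m ih =>
      intro hm x hx hxl
      obtain ⟨k1, hk1, hk1x⟩ := (main (m + 1) hm).2.2.2 (x (m + 3))
        (hxl (m + 3) (by omega) le_rfl)
      obtain ⟨k2, hk2, hk2x⟩ := ih (by omega) (fun j => k1⁻¹ (x j))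
        (fun i j hi hi' hj hj' h => hx i j hi (by omega) hj (by omega) (k1⁻¹.injective h))
        (fun j hj hj' i hi hit h => by
          have h' : x j = k1 (q i) := Equiv.Perm.inv_eq_iff_eq.mp h
          rcases eq_or_lt_of_le hi with rfl | hi'
          · rw [hk1x] at h'
            have := hx j (m + 3) hj (by omega) (by omega) le_rfl h'
            omega
          · rw [(main (m + 1) hm).1 k1 hk1 i hi' hit] at h'
            exact hxl j hj (by omega) i hi' hit h')
      refine ⟨k1 * k2, mul_mem hk1 (chain_mono_succ G q s (m + 1) hk2), fun j hj hj' => ?_⟩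
      rw [Equiv.Perm.mul_apply]
      rcases eq_or_lt_of_le hj' with rfl | hj''
      · rw [(main m (by omega)).1 k2 hk2 (m + 3) le_rfl (by omega), hk1x]
      · rw [hk2x j hj (by omega), ← Equiv.Perm.mul_apply, mul_inv_cancel]; rfl
  -- stabilizer
  have stab : ∀ m, m + 2 ≤ t → ∀ k ∈ A (m + 1), (∀ j, 1 ≤ j → j ≤ t → k (q j) = q j) → k ∈ H := by
    intro m
    induction m with
    | zero =>
      intro _ k hk hkq
      rw [hH]
      exact ⟨⟨hk, hkq 1 le_rfl (by omega)⟩, hkq 2 (by omega) ht⟩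
    | succ m ih =>
      intro hm k hk hkq
      exact ih (by omega) k ((main (m + 1) hm).2.1 k hk (hkq _ (by omega) (by omega))) hkq
  obtain ⟨d, rfl⟩ := Nat.exists_eq_add_of_le ht
  have hd : 2 + d - 1 = d + 1 := by omega
  rw [hd]
  refine ⟨fun x hx => ?_, stab d (by omega), hHG, hHfix⟩
  obtain ⟨k, hk, hkx⟩ := trans d (by omega) x
    (fun i j hi hi' hj hj' h => hx i j hi (by omega) hj (by omega) h)
    (fun j _ _ i hi hit => by omega)
  exact ⟨k, hk, fun j hj hj' => hkx j hj (by omega)⟩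

end Cfsg.Agent.PermGroups.WittExtension
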